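import Mathlib
import Cfsg.Prelude.Def_CaseTheorems
import Cfsg.Agent.Lib.helper10.ConjBasic

set_option autoImplicit false

namespace Cfsg.Agent.Lib.helper10

open Cfsg

variable {G : Type*} [Group G]

/-- A subgroup of order four all of whose elements square to one. -/
def IsK4 (V : Subgroup G) : Prop := Nat.card V = 4 ∧ ∀ v ∈ V, v ^ 2 = 1

theorem isKleinFour_iff_isK4 (V : Subgroup G) : IsKleinFour V ↔ IsK4 V := by
  constructor
  · intro h
    refine ⟨h.card_four, fun v hv => ?_⟩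
    have h1 := Monoid.pow_exponent_eq_one (⟨v, hv⟩ : V)
    rw [h.exponent_two] at h1
    simpa using congrArg Subtype.val h1
  · intro h
    refine ⟨h.1, ?_⟩
    have hdvd : Monoid.exponent V ∣ 2 := by
      apply Monoid.exponent_dvd_of_forall_pow_eq_one
      intro g
      apply Subtype.ext
      simpa using h.2 g g.2
    rcases (Nat.dvd_prime Nat.prime_two).mp hdvd with h1 | h2
    · exfalso
      rw [Monoid.exp_eq_one_iff] at h1
      have := h1
      have := Nat.card_of_subsingleton (1 : V)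
      rw [h.1] at this
      omega
    · exact h2

theorem IsK4.isPGroup {V : Subgroup G} (hV : IsK4 V) : IsPGroup 2 V :=
  IsPGroup.of_card (n := 2) (by rw [hV.1]; norm_num)

theorem IsK4.comm {V : Subgroup G} (hV : IsK4 V) {a b : G} (ha : a ∈ V) (hb : b ∈ V) :
    a * b = b * a := by
  have h1 := hV.2 a ha
  have h2 := hV.2 b hb
  have h3 := hV.2 (a * b) (V.mul_mem ha hb)
  rw [sq] at h1 h2 h3
  calc a * b = (a * b)⁻¹ := by rw [eq_inv_iff_mul_eq_one]; exact h3
    _ = b⁻¹ * a⁻¹ := mul_inv_rev a b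
    _ = b * a := by rw [inv_eq_of_mul_eq_one_left h2, inv_eq_of_mul_eq_one_left h1]

theorem IsK4.map {H : Type*} [Group H] {V : Subgroup H} (hV : IsK4 V) (f : H →* G)
    (hf : Function.Injective f) : IsK4 (V.map f) := by
  refine ⟨by rw [Subgroup.card_map_of_injective hf]; exact hV.1, ?_⟩
  rintro _ ⟨y, hy, rfl⟩
  rw [← map_pow, hV.2 y hy, map_one]

theorem IsK4.conj {V : Subgroup G} (hV : IsK4 V) (g : G) :
    IsK4 (V.map (MulAut.conj g).toMonoidHom) := hV.map _ (conj_injective g)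

theorem IsK4.subgroupOf {V S : Subgroup G} (hV : IsK4 V) (hVS : V ≤ S) :
    IsK4 (V.subgroupOf S) := by
  refine ⟨?_, ?_⟩
  · rw [Nat.card_congr (Subgroup.subgroupOfEquivOfLe hVS).toEquiv]; exact hV.1
  · intro v hv
    apply Subtype.ext
    have := hV.2 (v : G) (Subgroup.mem_subgroupOf.mp hv)
    simpa using this

theorem exists_isK4_of_not_pRankLE {H : Type*} [Group H] [Finite H] (h : ¬ PRankLE 2 1 H) :
    ∃ V : Subgroup H, IsK4 V := by
  unfold PRankLE at h
  push Not at h
  obtain ⟨A, -, hA2, hcard⟩ := h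
  have : Fact (Nat.Prime 2) := ⟨Nat.prime_two⟩
  have hAp : IsPGroup 2 A := by
    intro a
    refine ⟨1, ?_⟩
    apply Subtype.ext
    simpa using hA2 a a.2
  obtain ⟨m, hm⟩ := IsPGroup.iff_card.mp hAp
  have hm2 : 2 ≤ m := by
    by_contra hlt
    have h1 : m ≤ 1 := by omega
    have h2 := Nat.pow_le_pow_right (n := 2) (by norm_num) h1
    rw [hm] at hcard
    omega
  obtain ⟨K, hK⟩ := Sylow.exists_subgroup_card_pow_prime (G := A) 2 (n := 2)
    (by rw [hm]; exact pow_dvd_pow 2 hm2)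
  refine ⟨K.map A.subtype, ?_, ?_⟩
  · rw [Subgroup.card_map_of_injective (Subgroup.subtype_injective A), hK]; norm_num
  · rintro _ ⟨y, -, rfl⟩
    exact hA2 y y.2

theorem not_pRankLE_of_isK4 {Q V : Subgroup G} (hV : IsK4 V) (hVQ : V ≤ Q) :
    ¬ PRankLE 2 1 Q := by
  intro h
  have hV' := hV.subgroupOf hVQ
  have hc : IsMulCommutative (V.subgroupOf Q) :=
    ⟨⟨fun a b => Subtype.ext (hV'.comm a.2 b.2)⟩⟩
  have := h (V.subgroupOf Q) hc (fun a ha => hV'.2 a ha)
  rw [hV'.1] at this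
  norm_num at this

/-- The 2-generated core with respect to the Sylow 2-subgroup `S`. -/
def fourCore (S : Sylow 2 G) : Subgroup G :=
  ⨆ Q : {Q : Subgroup G // Q ≤ (S : Subgroup G) ∧ ¬ Cfsg.PRankLE 2 1 Q},
    Subgroup.normalizer ((Q : Subgroup G) : Set G)

theorem normalizer_le_fourCore (S : Sylow 2 G) {Q V : Subgroup G}
    (hQS : Q ≤ (S : Subgroup G)) (hV : IsK4 V) (hVQ : V ≤ Q) :
    Subgroup.normalizer (Q : Set G) ≤ fourCore S :=
  le_iSup (fun Q : {Q : Subgroup G // Q ≤ (S : Subgroup G) ∧ ¬ Cfsg.PRankLE 2 1 Q} =>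
    Subgroup.normalizer ((Q : Subgroup G) : Set G)) ⟨Q, hQS, not_pRankLE_of_isK4 hV hVQ⟩

/-- If `S ∩ gSg⁻¹` contains a four-group then `g` lies in the 2-generated core. -/
theorem mem_fourCore_aux [Finite G] (S : Sylow 2 G) :
    ∀ (n : ℕ) (g : G),
      Nat.card (S : Subgroup G) - Nat.card ((S : Subgroup G) ⊓
        (S : Subgroup G).map (MulAut.conj g).toMonoidHom : Subgroup G) = n →
      (∃ V : Subgroup G, IsK4 V ∧ V ≤ (S : Subgroup G) ∧
        V ≤ (S : Subgroup G).map (MulAut.conj g).toMonoidHom) → g ∈ fourCore S := by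
  have : Fact (Nat.Prime 2) := ⟨Nat.prime_two⟩
  intro n
  induction n using Nat.strong_induction_on with
  | _ n ih =>
  intro g hn hV
  obtain ⟨V, hV, hVS, hVg⟩ := hV
  set Sg : Subgroup G := (S : Subgroup G).map (MulAut.conj g).toMonoidHom with hSg
  set Q : Subgroup G := (S : Subgroup G) ⊓ Sg with hQ
  have hVQ : V ≤ Q := le_inf hVS hVg
  have hQS : Q ≤ (S : Subgroup G) := inf_le_left
  have hQg : Q ≤ Sg := inf_le_right
  have hcardSg : Nat.card Sg = Nat.card (S : Subgroup G) :=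
    Subgroup.card_map_of_injective (conj_injective g)
  by_cases hQe : Q = (S : Subgroup G)
  · have hle : (S : Subgroup G) ≤ Sg := by rw [← hQe]; exact hQg
    have heq : (S : Subgroup G) = Sg := Subgroup.eq_of_le_of_card_ge hle hcardSg.le
    have hgN : g ∈ Subgroup.normalizer ((S : Subgroup G) : Set G) :=
      mem_normalizer_of_map_conj_eq _ g heq.symm
    exact normalizer_le_fourCore S le_rfl hV hVS hgN
  · have hQne' : Q ≠ Sg := by
      intro h
      have hle : Sg ≤ (S : Subgroup G) := by rw [← h]; exact hQS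
      have heq : Sg = (S : Subgroup G) := Subgroup.eq_of_le_of_card_ge hle hcardSg.ge
      exact hQe (h.trans heq)
    obtain ⟨x, hxS, hxN, hxQ⟩ := exists_mem_normalizer_not_mem S.2 hQS hQe
    have hSgp : IsPGroup 2 Sg := isPGroup_map_conj _ g S.2
    obtain ⟨y, hySg, hyN, hyQ⟩ := exists_mem_normalizer_not_mem hSgp hQg hQne'
    have hNK : Subgroup.normalizer (Q : Set G) ≤ fourCore S :=
      normalizer_le_fourCore S hQS hV hVQ
    have hQN : Q ≤ Subgroup.normalizer (Q : Set G) := Subgroup.le_normalizer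
    obtain ⟨P, hR₁P, hPN, hPp, hPidx⟩ :=
      exists_sylow_relIndex (p := 2) (H := Subgroup.normalizer (Q : Set G))
        (R := (S : Subgroup G) ⊓ Subgroup.normalizer (Q : Set G)) inf_le_right
        (S.2.to_le inf_le_left)
    obtain ⟨k', hk'⟩ := exists_conj_le_sylow S P hPp
    have hPk : ∀ r ∈ P, r ∈ (S : Subgroup G).map (MulAut.conj k'⁻¹).toMonoidHom := by
      intro r hr
      rw [mem_map_conj]
      simpa using hk' r hr
    have hcardQ_lt : ∀ I : Subgroup G, Q ≤ I → (∃ z ∈ I, z ∉ Q) → Nat.card Q < Nat.card I := by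
      intro I hQI ⟨z, hzI, hzQ⟩
      by_contra hle
      push Not at hle
      have := Subgroup.eq_of_le_of_card_ge hQI hle
      exact hzQ (this ▸ hzI)
    have hcard_le : ∀ I : Subgroup G, I ≤ (S : Subgroup G) →
        Nat.card I ≤ Nat.card (S : Subgroup G) := fun I hI => Subgroup.card_le_of_le hI
    have hk : k'⁻¹ ∈ fourCore S := by
      have hQI : Q ≤ (S : Subgroup G) ⊓
          (S : Subgroup G).map (MulAut.conj k'⁻¹).toMonoidHom := by
        intro q hq
        exact ⟨hQS hq, hPk q (hR₁P ⟨hQS hq, hQN hq⟩)⟩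
      have hx : x ∈ (S : Subgroup G) ⊓
          (S : Subgroup G).map (MulAut.conj k'⁻¹).toMonoidHom :=
        ⟨hxS, hPk x (hR₁P ⟨hxS, hxN⟩)⟩
      have h1 := hcardQ_lt _ hQI ⟨x, hx, hxQ⟩
      have h2 := hcard_le _ (inf_le_left :
        (S : Subgroup G) ⊓ (S : Subgroup G).map (MulAut.conj k'⁻¹).toMonoidHom ≤ (S : Subgroup G))
      have h3 := hcard_le Q hQS
      refine ih _ ?_ k'⁻¹ rfl ⟨V, hV, hVS, (hVQ.trans hQI).trans inf_le_right⟩
      omega
    obtain ⟨m, hmN, hm⟩ := exists_conj_le_of_relIndex hPp hPidx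
      (R := Sg ⊓ Subgroup.normalizer (Q : Set G)) inf_le_right (hSgp.to_le inf_le_left)
    have hkey : ∀ r ∈ Sg ⊓ Subgroup.normalizer (Q : Set G), g⁻¹ * r * g ∈
        (S : Subgroup G) ⊓
          (S : Subgroup G).map (MulAut.conj (g⁻¹ * m⁻¹ * k'⁻¹)).toMonoidHom := by
      intro r hr
      refine Subgroup.mem_inf.mpr ⟨?_, ?_⟩
      · have h0 : r ∈ Sg := hr.1
        rw [hSg, mem_map_conj] at h0
        exact h0
      · rw [mem_map_conj]
        have h1 := hk' _ (hm r hr)
        have e : (g⁻¹ * m⁻¹ * k'⁻¹)⁻¹ * (g⁻¹ * r * g) * (g⁻¹ * m⁻¹ * k'⁻¹) =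
            k' * (m * r * m⁻¹) * k'⁻¹ := by group
        rw [e]; exact h1
    have hh : g⁻¹ * m⁻¹ * k'⁻¹ ∈ fourCore S := by
      have hT_le : (Sg ⊓ Subgroup.normalizer (Q : Set G)).map (MulAut.conj g⁻¹).toMonoidHom ≤
          (S : Subgroup G) ⊓
            (S : Subgroup G).map (MulAut.conj (g⁻¹ * m⁻¹ * k'⁻¹)).toMonoidHom := by
        rw [map_conj_le_iff]
        intro r hr
        simpa using hkey r hr
      have hcT : Nat.card ((Sg ⊓ Subgroup.normalizer (Q : Set G)).map
          (MulAut.conj g⁻¹).toMonoidHom) = Nat.card (Sg ⊓ Subgroup.normalizer (Q : Set G) :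
            Subgroup G) :=
        Subgroup.card_map_of_injective (conj_injective g⁻¹)
      have h1 := hcardQ_lt (Sg ⊓ Subgroup.normalizer (Q : Set G)) (le_inf hQg hQN)
        ⟨y, ⟨hySg, hyN⟩, hyQ⟩
      have h2 := Subgroup.card_le_of_le hT_le
      have h3 := hcard_le _ (inf_le_left :
        (S : Subgroup G) ⊓ (S : Subgroup G).map (MulAut.conj (g⁻¹ * m⁻¹ * k'⁻¹)).toMonoidHom ≤
          (S : Subgroup G))
      have h4 := hcard_le Q hQS
      have hV' : V.map (MulAut.conj g⁻¹).toMonoidHom ≤ (S : Subgroup G) ⊓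
          (S : Subgroup G).map (MulAut.conj (g⁻¹ * m⁻¹ * k'⁻¹)).toMonoidHom :=
        (Subgroup.map_mono (hVQ.trans (le_inf hQg hQN))).trans hT_le
      refine ih _ ?_ (g⁻¹ * m⁻¹ * k'⁻¹) rfl
        ⟨V.map (MulAut.conj g⁻¹).toMonoidHom, hV.conj g⁻¹, hV'.trans inf_le_left,
          hV'.trans inf_le_right⟩
      omega
    have e : g = m⁻¹ * k'⁻¹ * (g⁻¹ * m⁻¹ * k'⁻¹)⁻¹ := by group
    rw [e]
    exact mul_mem (mul_mem (inv_mem (hNK hmN)) hk) (inv_mem hh)

/-- The commuting relation on Klein four-subgroups. -/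
def FourRel (A B : Subgroup G) : Prop :=
  IsKleinFour A ∧ IsKleinFour B ∧ ∀ a ∈ A, ∀ b ∈ B, a * b = b * a

theorem FourRel.conj {A B : Subgroup G} (h : FourRel A B) (g : G) :
    FourRel (A.map (MulAut.conj g).toMonoidHom) (B.map (MulAut.conj g).toMonoidHom) := by
  obtain ⟨hA, hB, hc⟩ := h
  refine ⟨(isKleinFour_iff_isK4 _).mpr (((isKleinFour_iff_isK4 _).mp hA).conj g),
    (isKleinFour_iff_isK4 _).mpr (((isKleinFour_iff_isK4 _).mp hB).conj g), ?_⟩
  rintro _ ⟨a, ha, rfl⟩ _ ⟨b, hb, rfl⟩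
  rw [← map_mul, ← map_mul, hc a ha b hb]

theorem FourRel.symm {A B : Subgroup G} (h : FourRel A B) : FourRel B A :=
  ⟨h.2.1, h.1, fun b hb a ha => (h.2.2 a ha b hb).symm⟩

theorem fourReach_lift {α β : Type*} {r : α → α → Prop} {p : β → β → Prop} (f : α → β)
    (h : ∀ a b, r a b → p (f a) (f b)) {a b : α} (hab : Relation.ReflTransGen r a b) :
    Relation.ReflTransGen p (f a) (f b) := by
  induction hab with
  | refl => exact Relation.ReflTransGen.refl
  | tail _ hbc ih => exact ih.tail (h _ _ hbc)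

theorem fourRel_reach_conj {A B : Subgroup G} (h : Relation.ReflTransGen FourRel A B) (g : G) :
    Relation.ReflTransGen FourRel (A.map (MulAut.conj g).toMonoidHom)
      (B.map (MulAut.conj g).toMonoidHom) :=
  fourReach_lift (fun A : Subgroup G => A.map (MulAut.conj g).toMonoidHom)
    (fun _ _ h => h.conj g) h

theorem fourRel_reach_symm {A B : Subgroup G} (h : Relation.ReflTransGen FourRel A B) :
    Relation.ReflTransGen FourRel B A := by
  induction h with
  | refl => exact Relation.ReflTransGen.refl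
  | tail _ hbc ih => exact Relation.ReflTransGen.head hbc.symm ih

theorem fourRel_reach_of_le (S : Subgroup G) (hS : Cfsg.IsFourConnected S) {U W : Subgroup G}
    (hU : IsK4 U) (hW : IsK4 W) (hUS : U ≤ S) (hWS : W ≤ S) :
    Relation.ReflTransGen FourRel U W := by
  have h1 := hS (U.subgroupOf S) (W.subgroupOf S)
    ((isKleinFour_iff_isK4 _).mpr (hU.subgroupOf hUS))
    ((isKleinFour_iff_isK4 _).mpr (hW.subgroupOf hWS))
  have hl : ∀ A B : Subgroup S,
      (IsKleinFour A ∧ IsKleinFour B ∧ ∀ a ∈ A, ∀ b ∈ B, a * b = b * a) →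
      FourRel (A.map S.subtype) (B.map S.subtype) := by
    rintro A B ⟨hA, hB, hc⟩
    refine ⟨(isKleinFour_iff_isK4 _).mpr
        (((isKleinFour_iff_isK4 _).mp hA).map _ (Subgroup.subtype_injective S)),
      (isKleinFour_iff_isK4 _).mpr
        (((isKleinFour_iff_isK4 _).mp hB).map _ (Subgroup.subtype_injective S)), ?_⟩
    rintro _ ⟨a, ha, rfl⟩ _ ⟨b, hb, rfl⟩
    have := hc a ha b hb
    exact congrArg Subtype.val this
  have h2 := fourReach_lift (fun A : Subgroup S => A.map S.subtype) hl h1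
  rw [Subgroup.map_subgroupOf_eq_of_le hUS, Subgroup.map_subgroupOf_eq_of_le hWS] at h2
  exact h2

theorem fourCore_eq_top_of_connected [Finite G] (S : Sylow 2 G) {V₀ : Subgroup G}
    (hV₀ : IsK4 V₀) (hV₀S : V₀ ≤ (S : Subgroup G)) (hc : Cfsg.IsFourConnected G) :
    fourCore S = ⊤ := by
  have : Fact (Nat.Prime 2) := ⟨Nat.prime_two⟩
  rw [eq_top_iff]
  intro g _
  have key : ∀ W : Subgroup G, Relation.ReflTransGen FourRel V₀ W →
      ∃ k ∈ fourCore S, W ≤ (S : Subgroup G).map (MulAut.conj k).toMonoidHom := by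
    intro W hW
    induction hW with
    | refl => exact ⟨1, one_mem _, by rw [map_conj_one]; exact hV₀S⟩
    | @tail b c hab hbc ih =>
      obtain ⟨k, hk, hbk⟩ := ih
      obtain ⟨hbK, hcK, hcomm⟩ := hbc
      have hb4 := (isKleinFour_iff_isK4 _).mp hbK
      have hc4 := (isKleinFour_iff_isK4 _).mp hcK
      have hnorm : b ≤ Subgroup.normalizer (c : Set G) := by
        intro x hx
        rw [Subgroup.mem_normalizer_iff]
        intro h
        constructor
        · intro hh
          have : x * h * x⁻¹ = h := by rw [hcomm x hx h hh, mul_inv_cancel_right]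
          rw [this]; exact hh
        · intro hh
          have e := hcomm x hx _ hh
          have e2 : x * (x * h * x⁻¹) = x * h := by rw [e]; group
          have : h = x * h * x⁻¹ := (mul_left_cancel e2).symm
          rw [this]; exact hh
      have hp : IsPGroup 2 (b ⊔ c : Subgroup G) :=
        IsPGroup.to_sup_of_normal_right' hb4.isPGroup hc4.isPGroup hnorm
      obtain ⟨h', hh'⟩ := exists_conj_le_sylow S (b ⊔ c) hp
      have hbc_le : ∀ r ∈ b ⊔ c, r ∈ (S : Subgroup G).map (MulAut.conj h'⁻¹).toMonoidHom := by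
        intro r hr
        rw [mem_map_conj]
        simpa using hh' r hr
      refine ⟨h'⁻¹, ?_, fun r hr => hbc_le r ((le_sup_right : c ≤ b ⊔ c) hr)⟩
      have h1 : k⁻¹ * h'⁻¹ ∈ fourCore S := by
        refine mem_fourCore_aux S _ (k⁻¹ * h'⁻¹) rfl
          ⟨b.map (MulAut.conj k⁻¹).toMonoidHom, hb4.conj k⁻¹, ?_, ?_⟩
        · rw [map_conj_le_iff]
          intro x hx
          have := hbk hx
          rw [mem_map_conj] at this
          simpa using this
        · rw [map_conj_le_iff]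
          intro x hx
          rw [mem_map_conj]
          have := hh' x ((le_sup_left : b ≤ b ⊔ c) hx)
          have e : (k⁻¹ * h'⁻¹)⁻¹ * (k⁻¹ * x * k⁻¹⁻¹) * (k⁻¹ * h'⁻¹) = h' * x * h'⁻¹ := by group
          rw [e]; exact this
      have e : h'⁻¹ = k * (k⁻¹ * h'⁻¹) := by group
      rw [e]; exact mul_mem hk h1
  have hpath : Relation.ReflTransGen FourRel V₀ (V₀.map (MulAut.conj g).toMonoidHom) :=
    hc V₀ _ ((isKleinFour_iff_isK4 _).mpr hV₀) ((isKleinFour_iff_isK4 _).mpr (hV₀.conj g))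
  obtain ⟨k, hk, hle⟩ := key _ hpath
  have h1 : g⁻¹ * k ∈ fourCore S := by
    refine mem_fourCore_aux S _ (g⁻¹ * k) rfl ⟨V₀, hV₀, hV₀S, ?_⟩
    intro x hx
    rw [mem_map_conj]
    have := hle (conj_mem_map_conj V₀ g x hx)
    rw [mem_map_conj] at this
    have e : (g⁻¹ * k)⁻¹ * x * (g⁻¹ * k) = k⁻¹ * (g * x * g⁻¹) * k := by group
    rw [e]; exact this
  have e : g = k * (g⁻¹ * k)⁻¹ := by group
  rw [e]; exact mul_mem hk (inv_mem h1)

theorem connected_of_fourCore_eq_top [Finite G] (S : Sylow 2 G)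
    (hS : Cfsg.IsFourConnected (S : Subgroup G)) {V₀ : Subgroup G} (hV₀ : IsK4 V₀)
    (hV₀S : V₀ ≤ (S : Subgroup G)) (hK : fourCore S = ⊤) : Cfsg.IsFourConnected G := by
  have : Fact (Nat.Prime 2) := ⟨Nat.prime_two⟩
  have stab : ∀ g ∈ fourCore S, ∀ W : Subgroup G, Relation.ReflTransGen FourRel V₀ W →
      Relation.ReflTransGen FourRel V₀ (W.map (MulAut.conj g).toMonoidHom) := by
    intro g hg
    refine Subgroup.iSup_induction
      (fun Q : {Q : Subgroup G // Q ≤ (S : Subgroup G) ∧ ¬ Cfsg.PRankLE 2 1 Q} =>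
        Subgroup.normalizer ((Q : Subgroup G) : Set G))
      (C := fun g => ∀ W : Subgroup G, Relation.ReflTransGen FourRel V₀ W →
        Relation.ReflTransGen FourRel V₀ (W.map (MulAut.conj g).toMonoidHom)) hg ?_ ?_ ?_
    · rintro ⟨Q, hQS, hQr⟩ x hx W hW
      obtain ⟨V, hV⟩ := exists_isK4_of_not_pRankLE hQr
      have hVQ4 : IsK4 (V.map Q.subtype) := hV.map _ (Subgroup.subtype_injective Q)
      have hVQle : V.map Q.subtype ≤ Q := Subgroup.map_subtype_le V
      have hxV : (V.map Q.subtype).map (MulAut.conj x).toMonoidHom ≤ (S : Subgroup G) := by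
        rw [map_conj_le_iff]
        intro v hv
        exact hQS ((Subgroup.mem_normalizer_iff.mp hx v).mp (hVQle hv))
      have h1 := fourRel_reach_of_le (S : Subgroup G) hS hV₀ (hVQ4.conj x) hV₀S hxV
      have h2 := fourRel_reach_of_le (S : Subgroup G) hS hVQ4 hV₀ (hVQle.trans hQS) hV₀S
      have h3 := fourRel_reach_conj h2 x
      have h4 := fourRel_reach_conj hW x
      exact h1.trans (h3.trans h4)
    · intro W hW
      rw [map_conj_one]; exact hW
    · intro x y hx hy W hW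
      rw [← map_conj_mul]
      exact hx _ (hy W hW)
  have reach : ∀ U : Subgroup G, IsKleinFour U → Relation.ReflTransGen FourRel V₀ U := by
    intro U hU
    have hU4 := (isKleinFour_iff_isK4 U).mp hU
    obtain ⟨g', hg'⟩ := exists_conj_le_sylow S U hU4.isPGroup
    have hle : U.map (MulAut.conj g').toMonoidHom ≤ (S : Subgroup G) :=
      (map_conj_le_iff _ _ _).mpr hg'
    have h1 := fourRel_reach_of_le (S : Subgroup G) hS hV₀ (hU4.conj g') hV₀S hle
    have h2 := stab g'⁻¹ (hK ▸ Subgroup.mem_top _) _ h1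
    rwa [map_conj_inv_cancel] at h2
  intro U V hU hV
  exact (fourRel_reach_symm (reach U hU)).trans (reach V hV)

/-- The commuting graph on four-subgroups of `G` is disconnected iff the 2-generated core is
proper (for `S` with connected four-graph). -/
theorem four_connected_iff [Finite G] (h2 : ¬ Cfsg.PRankLE 2 1 G) (S : Sylow 2 G)
    (hS : Cfsg.IsFourConnected (S : Subgroup G)) :
    ¬ Cfsg.IsFourConnected G ↔ fourCore S ≠ ⊤ := by
  have : Fact (Nat.Prime 2) := ⟨Nat.prime_two⟩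
  obtain ⟨V', hV'⟩ := exists_isK4_of_not_pRankLE h2
  obtain ⟨g, hg⟩ := exists_conj_le_sylow S V' hV'.isPGroup
  have hV₀ := hV'.conj g
  have hV₀S : V'.map (MulAut.conj g).toMonoidHom ≤ (S : Subgroup G) :=
    (map_conj_le_iff _ _ _).mpr hg
  constructor
  · intro hnc hK
    exact hnc (connected_of_fourCore_eq_top S hS hV₀ hV₀S hK)
  · intro hK hc
    exact hK (fourCore_eq_top_of_connected S hV₀ hV₀S hc)

end Cfsg.Agent.Lib.helper10
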