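import Cfsg.Agent.Lib.helper10.KQuart2

set_option autoImplicit false

namespace Cfsg.Agent.Lib.helper10

open Cfsg
open scoped commutatorElement

section kdeg
variable {G : Type*} [Group G]

theorem iterCommutator_mono2 (X X' H H' : Subgroup G) (h : X ≤ X') (h' : H ≤ H') (n : ℕ) :
    iterCommutator X H n ≤ iterCommutator X' H' n := by
  induction n with
  | zero => exact h
  | succ n ih => exact Subgroup.commutator_mono ih h'

theorem iterCommutator_add (X H : Subgroup G) (m n : ℕ) :
    iterCommutator X H (m + n) = iterCommutator (iterCommutator X H m) H n := by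
  induction n with
  | zero => rfl
  | succ n ih =>
    show ⁅iterCommutator X H (m + n), H⁆ = ⁅iterCommutator (iterCommutator X H m) H n, H⁆
    rw [ih]

theorem iterCommutator_le_of_le_normal (X H V : Subgroup G) [V.Normal] (m n : ℕ)
    (h : iterCommutator X H m ≤ V) (hmn : m ≤ n) : iterCommutator X H n ≤ V := by
  obtain ⟨d, rfl⟩ := Nat.exists_eq_add_of_le hmn
  rw [iterCommutator_add]
  exact (iterCommutator_mono_left _ _ H h d).trans (iterCommutator_le_of_normal V H d)

/-- The chief factor step for an arbitrary number of commutators. -/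
theorem chief_step_n (U V M M' Hg : Subgroup G) (hUV : IsChiefFactor U V) [hMn : M.Normal]
    (n : ℕ) (h4 : iterCommutator M Hg n ≤ M') (hM' : U ⊓ M' ≤ V) (hM : ¬ U ⊓ M ≤ V) :
    iterCommutator U Hg n ≤ V := by
  obtain ⟨hVU, hUn, hVn, hch⟩ := hUV
  haveI := hUn
  haveI := hVn
  have hN : (U ⊓ M) ⊔ V = U := by
    rcases hch ((U ⊓ M) ⊔ V) inferInstance le_sup_right (sup_le inf_le_left hVU.le) with h | h
    · exact absurd (le_sup_left.trans (le_of_eq h)) hM
    · exact h
  calc iterCommutator U Hg n = iterCommutator ((U ⊓ M) ⊔ V) Hg n := by rw [hN]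
    _ ≤ iterCommutator (U ⊓ M) Hg n ⊔ V := iterCommutator_sup_le _ V Hg n
    _ ≤ V := sup_le ((le_inf
        ((iterCommutator_mono_left _ _ Hg inf_le_left n).trans (iterCommutator_le_of_normal U Hg n))
        ((iterCommutator_mono_left _ _ Hg inf_le_right n).trans h4)).trans hM') le_rfl

/-- The pairing lemma: if `E` pairs the factor `X₁/X₀` into the factor `W₁/W₀` by commutation,
and `Hg` is nilpotent of degree `i` on `X₁/X₀` and of degree `j` on `W₁/W₀`, then the
`(i + j - 1)`-fold commutator of `E` with `Hg` pairs `X₁` into `W₀`. -/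
theorem pairing_degree (X₁ X₀ W₁ W₀ E Hg : Subgroup G) [hX₁n : X₁.Normal] [hX₀n : X₀.Normal]
    [hW₁n : W₁.Normal] [hW₀n : W₀.Normal] [hEn : E.Normal] (i j : ℕ) (hi : 1 ≤ i)
    (hW : W₀ ≤ W₁)
    (hs : iterCommutator X₁ Hg i ≤ X₀) (ht : iterCommutator W₁ Hg j ≤ W₀)
    (he1 : ⁅X₁, E⁆ ≤ W₁) (he0 : ⁅X₀, E⁆ ≤ W₀)
    (hnE : ⁅W₁, E⁆ ≤ W₀) (hnX : ⁅W₁, X₁⁆ ≤ W₀) :
    ⁅iterCommutator E Hg (i + j - 1), X₁⁆ ≤ W₀ := by
  obtain ⟨W, hWdef⟩ : ∃ W : ℕ → Subgroup G, ∀ s, W s = iterCommutator W₁ Hg s ⊔ W₀ :=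
    ⟨_, fun s => rfl⟩
  have hWle : ∀ s, W s ≤ W₁ := by
    intro s; rw [hWdef]; exact sup_le (iterCommutator_le_of_normal W₁ Hg s) hW
  have hW₀le : ∀ s, W₀ ≤ W s := by
    intro s; rw [hWdef]; exact le_sup_right
  have hW0 : W₁ ≤ W 0 := by
    rw [hWdef]; exact le_sup_left
  have hWj : W j ≤ W₀ := by
    rw [hWdef]; exact sup_le ht le_rfl
  have hWstep : ∀ s, ⁅W s, Hg⁆ ≤ W (s + 1) := by
    intro s
    rw [hWdef, hWdef]
    exact commutator_sup_le_of_normal _ W₀ Hg
  have hnorm : ∀ s (H : Subgroup G), ⁅W₁, H⁆ ≤ W₀ → H ≤ Subgroup.normalizer (W s : Set G) := by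
    intro s H hH
    apply le_normalizer_of_conj_mem
    intro t ht m hm
    have e : t * m * t⁻¹ = ⁅t, m⁆ * m := by simp [commutatorElement_def]
    rw [e]
    refine (W s).mul_mem (hW₀le s (hH ?_)) hm
    rw [← commutatorElement_inv]
    exact Subgroup.inv_mem _ (Subgroup.commutator_mem_commutator (hWle s hm) ht)
  have hnormHg : ∀ s, Hg ≤ Subgroup.normalizer (W s : Set G) := by
    intro s
    apply le_normalizer_of_conj_mem
    intro h hh w hw
    have h1 : (W s).map (MulAut.conj h).toMonoidHom ≤ W s := by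
      rw [hWdef, Subgroup.map_sup, map_iterCommutator]
      refine sup_le_sup (iterCommutator_mono2 _ _ _ _ ?_ ?_ s) ?_
      · rintro _ ⟨x, hx, rfl⟩
        exact hW₁n.conj_mem x hx h
      · rintro _ ⟨x, hx, rfl⟩
        exact Hg.mul_mem (Hg.mul_mem hh hx) (Hg.inv_mem hh)
      · rintro _ ⟨x, hx, rfl⟩
        exact hW₀n.conj_mem x hx h
    exact h1 ⟨w, hw, rfl⟩
  have hA_le : ∀ k, iterCommutator X₁ Hg k ≤ X₁ := fun k => iterCommutator_le_of_normal X₁ Hg k
  have hB_le : ∀ l, iterCommutator E Hg l ≤ E := fun l => iterCommutator_le_of_normal E Hg l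
  have hA_i : ∀ k, i ≤ k → iterCommutator X₁ Hg k ≤ X₀ :=
    fun k hk => iterCommutator_le_of_le_normal X₁ Hg X₀ i k hs hk
  have claim : ∀ l k, ⁅iterCommutator E Hg l, iterCommutator X₁ Hg k⁆ ≤ W (k + l + 1 - i) := by
    intro l
    induction l with
    | zero =>
      intro k
      show ⁅E, iterCommutator X₁ Hg k⁆ ≤ W (k + 0 + 1 - i)
      rw [Subgroup.commutator_comm]
      by_cases hk : i ≤ k
      · exact ((Subgroup.commutator_mono (hA_i k hk) le_rfl).trans he0).trans (hW₀le _)
      · have e : k + 0 + 1 - i = 0 := by omega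
        rw [e]
        exact ((Subgroup.commutator_mono (hA_le k) le_rfl).trans he1).trans hW0
    | succ l ih =>
      intro k
      show ⁅⁅iterCommutator E Hg l, Hg⁆, iterCommutator X₁ Hg k⁆ ≤ W (k + (l + 1) + 1 - i)
      refine three_sub_norm (iterCommutator E Hg l) Hg (iterCommutator X₁ Hg k) _
        ((hB_le l).trans (hnorm _ E hnE)) (hnormHg _) ((hA_le k).trans (hnorm _ X₁ hnX)) ?_ ?_
      · rw [Subgroup.commutator_comm Hg, Subgroup.commutator_comm]
        have h1 := ih (k + 1)
        have e : k + 1 + l + 1 - i = k + (l + 1) + 1 - i := by omega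
        rw [e] at h1
        exact h1
      · rw [Subgroup.commutator_comm (iterCommutator X₁ Hg k)]
        have h1 := Subgroup.commutator_mono (ih k) (le_refl Hg)
        by_cases hik : i ≤ k + l + 1
        · have e : k + (l + 1) + 1 - i = (k + l + 1 - i) + 1 := by omega
          rw [e]
          exact h1.trans (hWstep _)
        · have e1 : k + l + 1 - i = 0 := by omega
          have e2 : k + (l + 1) + 1 - i = 0 := by omega
          rw [e1] at h1
          rw [e2]
          exact (h1.trans ((Subgroup.commutator_mono (hWle 0) le_rfl).trans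
            (Subgroup.commutator_le_left W₁ Hg))).trans hW0
  have h1 := claim (i + j - 1) 0
  have e : 0 + (i + j - 1) + 1 - i = j := by omega
  rw [e] at h1
  exact h1.trans hWj

variable [Finite G]

/-- Chief chains between two normal subgroups. -/
theorem exists_chief_chain : ∀ (d : ℕ) (M M' : Subgroup G), M.Normal → M'.Normal → M ≤ M' →
    Nat.card M' - Nat.card M ≤ d →
    ∃ (n : ℕ) (c : ℕ → Subgroup G), c 0 = M ∧ (∀ k, n ≤ k → c k = M') ∧ (∀ k, (c k).Normal) ∧
      (∀ k, c k ≤ c (k + 1)) ∧ (∀ k, k < n → IsChiefFactor (c (k + 1)) (c k)) := by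
  classical
  intro d
  induction d with
  | zero =>
    intro M M' hMn hM'n hle hd
    have h1 : Nat.card M' ≤ Nat.card M := by omega
    have h2 : M = M' := Subgroup.eq_of_le_of_card_ge hle h1
    exact ⟨0, fun _ => M, rfl, fun k _ => h2, fun _ => hMn, fun _ => le_rfl,
      fun k hk => absurd hk (Nat.not_lt_zero k)⟩
  | succ d ih =>
    intro M M' hMn hM'n hle hd
    by_cases hMM : M = M'
    · exact ⟨0, fun _ => M, rfl, fun k _ => hMM, fun _ => hMn, fun _ => le_rfl,
        fun k hk => absurd hk (Nat.not_lt_zero k)⟩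
    · have hex : ∃ t : ℕ, ∃ N : Subgroup G, N.Normal ∧ M ≤ N ∧ N ≤ M' ∧ N ≠ M ∧ Nat.card N = t :=
        ⟨_, M', hM'n, hle, le_rfl, fun h => hMM h.symm, rfl⟩
      obtain ⟨N, hNn, hMN, hNM', hNne, hNcard⟩ := Nat.find_spec hex
      have hNmin : ∀ N' : Subgroup G, N'.Normal → M ≤ N' → N' ≤ M' → N' ≠ M →
          Nat.card N ≤ Nat.card N' := by
        intro N' h1 h2 h3 h4
        rw [hNcard]
        exact Nat.find_min' hex ⟨N', h1, h2, h3, h4, rfl⟩
      have hchief : IsChiefFactor N M := by
        refine ⟨lt_of_le_of_ne hMN (Ne.symm hNne), hNn, hMn, ?_⟩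
        intro N' hN'n hMN' hN'N
        by_cases h : N' = M
        · exact Or.inl h
        · exact Or.inr (Subgroup.eq_of_le_of_card_ge hN'N
            (hNmin N' hN'n hMN' (hN'N.trans hNM') h))
      have hcard : Nat.card M < Nat.card N := by
        by_contra hcon
        push Not at hcon
        exact hNne (Subgroup.eq_of_le_of_card_ge hMN hcon).symm
      have hcard2 : Nat.card N ≤ Nat.card M' := Subgroup.card_le_of_le hNM'
      obtain ⟨n', c', hc0, hcn, hcnorm, hcmono, hcchief⟩ :=
        ih N M' hNn hM'n hNM' (by omega)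
      refine ⟨n' + 1, fun k => Nat.rec M (fun k _ => c' k) k, rfl, ?_, ?_, ?_, ?_⟩
      · intro k hk
        cases k with
        | zero => omega
        | succ k => exact hcn k (by omega)
      · intro k
        cases k with
        | zero => exact hMn
        | succ k => exact hcnorm k
      · intro k
        cases k with
        | zero =>
          show M ≤ c' 0
          rw [hc0]; exact hMN
        | succ k => exact hcmono k
      · intro k hk
        cases k with
        | zero =>
          show IsChiefFactor (c' 0) M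
          rw [hc0]; exact hchief
        | succ k => exact hcchief k (by omega)

/-- A chief chain from the trivial subgroup to `Q` through the normal subgroup `Z`. -/
theorem exists_chain_through (Z Q : Subgroup G) [hZn : Z.Normal] [hQn : Q.Normal] (hZQ : Z ≤ Q) :
    ∃ (m n : ℕ) (c : ℕ → Subgroup G), c 0 = ⊥ ∧ (∀ k, k ≤ m → c k ≤ Z) ∧ (∀ k, m ≤ k → Z ≤ c k) ∧
      (∀ k, n ≤ k → c k = Q) ∧ (∀ k, (c k).Normal) ∧ (∀ k, c k ≤ Q) ∧
      (∀ k, IsChiefFactor (c (k + 1)) (c k) ∨ c (k + 1) = c k) := by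
  classical
  obtain ⟨m, c₁, h10, h1n, h1norm, h1mono, h1chief⟩ :=
    exists_chief_chain _ ⊥ Z inferInstance hZn bot_le le_rfl
  obtain ⟨r, c₂, h20, h2n, h2norm, h2mono, h2chief⟩ :=
    exists_chief_chain _ Z Q hZn hQn hZQ le_rfl
  have h1le : ∀ k, c₁ k ≤ Z := by
    intro k
    have h : ∀ d, c₁ k ≤ c₁ (k + d) := by
      intro d
      induction d with
      | zero => exact le_rfl
      | succ d ih => exact ih.trans (h1mono (k + d))
    have h2 := h (m + k)
    rw [h1n (k + (m + k)) (by omega)] at h2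
    exact h2
  have h2ge : ∀ k, Z ≤ c₂ k := by
    intro k
    induction k with
    | zero => rw [h20]
    | succ k ih => exact ih.trans (h2mono k)
  have h2le : ∀ k, c₂ k ≤ Q := by
    intro k
    have h : ∀ d, c₂ k ≤ c₂ (k + d) := by
      intro d
      induction d with
      | zero => exact le_rfl
      | succ d ih => exact ih.trans (h2mono (k + d))
    have h2 := h (r + k)
    rw [h2n (k + (r + k)) (by omega)] at h2
    exact h2
  have h1m : c₁ m = Z := h1n m le_rfl
  obtain ⟨c, hc⟩ : ∃ c : ℕ → Subgroup G, ∀ k, c k = if k ≤ m then c₁ k else c₂ (k - m) :=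
    ⟨_, fun k => rfl⟩
  have hclow : ∀ k, k ≤ m → c k = c₁ k := by
    intro k hk; rw [hc, if_pos hk]
  have hchigh : ∀ k, m ≤ k → c k = c₂ (k - m) := by
    intro k hk
    by_cases hkm : k ≤ m
    · have e : k = m := le_antisymm hkm hk
      rw [hclow k hkm, e, Nat.sub_self, h20, h1m]
    · rw [hc, if_neg hkm]
  refine ⟨m, m + r, c, ?_, ?_, ?_, ?_, ?_, ?_, ?_⟩
  · rw [hclow 0 (Nat.zero_le m), h10]
  · intro k hk
    rw [hclow k hk]; exact h1le k
  · intro k hk
    rw [hchigh k hk]; exact h2ge _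
  · intro k hk
    rw [hchigh k (by omega)]
    exact h2n _ (by omega)
  · intro k
    by_cases hk : k ≤ m
    · rw [hclow k hk]; exact h1norm k
    · rw [hchigh k (by omega)]; exact h2norm _
  · intro k
    by_cases hk : k ≤ m
    · rw [hclow k hk]; exact (h1le k).trans hZQ
    · rw [hchigh k (by omega)]; exact h2le _
  · intro k
    by_cases hk : k < m
    · left
      rw [hclow (k + 1) hk, hclow k hk.le]
      exact h1chief k hk
    · have hk' : m ≤ k := by omega
      have e : k + 1 - m = (k - m) + 1 := by omega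
      rw [hchigh (k + 1) (by omega), hchigh k hk', e]
      by_cases hkr : k - m < r
      · left; exact h2chief _ hkr
      · right
        rw [h2n _ (by omega), h2n (k - m) (by omega)]

end kdeg

end Cfsg.Agent.Lib.helper10
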