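import Cfsg.Agent.Lib.helper10.KDeg

set_option autoImplicit false

namespace Cfsg.Agent.Lib.helper10

open Cfsg
open scoped commutatorElement

section kdeg2
variable {G : Type*} [Group G]

/-- The elements of `P` shifting the chain `Qs` down by `c` steps under commutation. -/
def shiftSub (Qs : ℕ → Subgroup G) (hn : ∀ k, (Qs k).Normal) (P : Subgroup G) (c : ℕ) :
    Subgroup G where
  carrier := {x | x ∈ P ∧ ∀ a, ∀ q ∈ Qs (a + c), ⁅q, x⁆ ∈ Qs a}
  one_mem' := ⟨P.one_mem, fun a q _ => by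
    rw [commutatorElement_one_right]; exact (Qs a).one_mem⟩
  mul_mem' := by
    rintro x y ⟨hx, hx'⟩ ⟨hy, hy'⟩
    refine ⟨P.mul_mem hx hy, fun a q hq => ?_⟩
    have e : ⁅q, x * y⁆ = ⁅q, x⁆ * (x * ⁅q, y⁆ * x⁻¹) := by
      simp only [commutatorElement_def]; group
    rw [e]
    exact (Qs a).mul_mem (hx' a q hq) ((hn a).conj_mem _ (hy' a q hq) x)
  inv_mem' := by
    rintro x ⟨hx, hx'⟩
    refine ⟨P.inv_mem hx, fun a q hq => ?_⟩
    have e : ⁅q, x⁻¹⁆ = x⁻¹ * ⁅q, x⁆⁻¹ * x⁻¹⁻¹ := by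
      simp only [commutatorElement_def]; group
    rw [e]
    exact (hn a).conj_mem _ ((Qs a).inv_mem (hx' a q hq)) x⁻¹

theorem shiftSub_normal (Qs : ℕ → Subgroup G) (hn : ∀ k, (Qs k).Normal) (P : Subgroup G)
    [hP : P.Normal] (c : ℕ) : (shiftSub Qs hn P c).Normal := by
  constructor
  rintro x ⟨hx, hx'⟩ g
  refine ⟨hP.conj_mem x hx g, fun a q hq => ?_⟩
  rw [comm_conj_right]
  refine (hn a).conj_mem _ (hx' a _ ?_) g
  have h1 := (hn (a + c)).conj_mem q hq g⁻¹
  simpa using h1

variable [Finite G] {p : ℕ} [Fact p.Prime]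

/-- A normal `p`-subgroup centralizes the chief factors it contains. -/
theorem chief_comm_le (P U V : Subgroup G) [hPn : P.Normal] (hPp : IsPGroup p P)
    (hUV : IsChiefFactor U V) (hUP : U ≤ P) : ⁅U, P⁆ ≤ V := by
  obtain ⟨hVU, hUn, hVn, hch⟩ := hUV
  haveI := hUn
  haveI := hVn
  rcases hch (⁅U, P⁆ ⊔ V) inferInstance le_sup_right
    (sup_le (Subgroup.commutator_le_left U P) hVU.le) with h | h
  · exact le_sup_left.trans (le_of_eq h)
  · exfalso
    have key : ∀ k, U ≤ iterCommutator U P k ⊔ V := by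
      intro k
      induction k with
      | zero => exact le_sup_left
      | succ k ih =>
        calc U = ⁅U, P⁆ ⊔ V := h.symm
          _ ≤ ⁅iterCommutator U P k ⊔ V, P⁆ ⊔ V :=
            sup_le_sup (Subgroup.commutator_mono ih le_rfl) le_rfl
          _ ≤ (⁅iterCommutator U P k, P⁆ ⊔ V) ⊔ V :=
            sup_le_sup (commutator_sup_le_of_normal _ V P) le_rfl
          _ = iterCommutator U P (k + 1) ⊔ V := by rw [sup_assoc, sup_idem]; rfl
    obtain ⟨K, hK⟩ := exists_iterCommutator_eq_bot U P hPp hUP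
    have h1 := key K
    rw [hK, bot_sup_eq] at h1
    exact (not_le_of_gt hVU) h1

/-- The degree bound on the chief factors of a normal `p`-subgroup `P` in terms of the degrees
on the chief factors of a critical-type subgroup `Q` and of its centre. -/
theorem degree_bound_chief (P Q Hg : Subgroup G) [hPn : P.Normal] [hQn : Q.Normal]
    (hPp : IsPGroup p P) (hQP : Q ≤ P)
    (hQ3 : ⁅P, Q⁆ ≤ Q ⊓ Subgroup.centralizer (Q : Set G))
    (hQ4 : P ⊓ Subgroup.centralizer (Q : Set G) ≤ Q ⊓ Subgroup.centralizer (Q : Set G))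
    (i j : ℕ) (hi : 1 ≤ i)
    (hQi : ∀ U V : Subgroup G, IsChiefFactor U V → U ≤ Q → iterCommutator U Hg i ≤ V)
    (hZj : ∀ U V : Subgroup G, IsChiefFactor U V →
      U ≤ Q ⊓ Subgroup.centralizer (Q : Set G) → iterCommutator U Hg j ≤ V) :
    ∀ U V : Subgroup G, IsChiefFactor U V → U ≤ P → iterCommutator U Hg (i + j - 1) ≤ V := by
  classical
  obtain ⟨Z, hZ⟩ : ∃ Z : Subgroup G, Z = Q ⊓ Subgroup.centralizer (Q : Set G) := ⟨_, rfl⟩
  rw [← hZ] at hQ3 hQ4 hZj
  haveI hZn : Z.Normal := by rw [hZ]; infer_instance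
  have hZQ : Z ≤ Q := by rw [hZ]; exact inf_le_left
  obtain ⟨m, n, Qs, hQs0, hQslow, hQshigh, hQsn, hQsnorm, hQsQ, hQschief⟩ :=
    exists_chain_through Z Q hZQ
  obtain ⟨N, hN⟩ : ∃ N : ℕ, N = i + j - 1 := ⟨_, rfl⟩
  rw [← hN]
  have hjN : j ≤ N := by omega
  have hQmono : ∀ k, Qs k ≤ Qs (k + 1) := by
    intro k
    rcases hQschief k with h | h
    · exact h.1.le
    · exact le_of_eq h.symm
  have hQstep : ∀ k, ⁅Qs (k + 1), P⁆ ≤ Qs k := by
    intro k
    rcases hQschief k with h | h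
    · exact chief_comm_le P _ _ hPp h ((hQsQ (k + 1)).trans hQP)
    · rw [h]
      haveI := hQsnorm k
      exact Subgroup.commutator_le_left _ P
  have hsrc : ∀ k, iterCommutator (Qs (k + 1)) Hg i ≤ Qs k := by
    intro k
    rcases hQschief k with h | h
    · exact hQi _ _ h (hQsQ (k + 1))
    · rw [h]
      haveI := hQsnorm k
      exact iterCommutator_le_of_normal _ Hg i
  have htgt : ∀ k, k < m → iterCommutator (Qs (k + 1)) Hg j ≤ Qs k := by
    intro k hk
    rcases hQschief k with h | h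
    · exact hZj _ _ h (hQslow (k + 1) hk)
    · rw [h]
      haveI := hQsnorm k
      exact iterCommutator_le_of_normal _ Hg j
  -- the filtration
  obtain ⟨D, hD⟩ : ∃ D : ℕ → Subgroup G, ∀ c, D c = shiftSub Qs hQsnorm P c :=
    ⟨_, fun c => rfl⟩
  have hDmem : ∀ c x, x ∈ D c ↔ x ∈ P ∧ ∀ a, ∀ q ∈ Qs (a + c), ⁅q, x⁆ ∈ Qs a := by
    intro c x; rw [hD]; exact Iff.rfl
  have hDn : ∀ c, (D c).Normal := by
    intro c; rw [hD]; exact shiftSub_normal Qs hQsnorm P c
  have hDP : ∀ c, D c ≤ P := fun c x hx => ((hDmem c x).mp hx).1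
  have hDcomm : ∀ c a, ⁅Qs (a + c), D c⁆ ≤ Qs a := by
    intro c a
    rw [Subgroup.commutator_le]
    intro q hq x hx
    exact ((hDmem c x).mp hx).2 a q hq
  have hDle : ∀ c (F : Subgroup G), F ≤ P → (∀ a, ⁅F, Qs (a + c)⁆ ≤ Qs a) → F ≤ D c := by
    intro c F hFP hF x hx
    refine (hDmem c x).mpr ⟨hFP hx, fun a q hq => ?_⟩
    rw [← commutatorElement_inv]
    exact (Qs a).inv_mem (hF a (Subgroup.commutator_mem_commutator hx hq))
  have hPD0 : P ≤ D 0 := by
    apply hDle 0 P le_rfl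
    intro a
    haveI := hQsnorm a
    exact Subgroup.commutator_le_right P (Qs a)
  have hDnZ : D n ≤ Z := by
    intro x hx
    obtain ⟨hxP, hx'⟩ := (hDmem n x).mp hx
    apply hQ4
    refine ⟨hxP, Subgroup.mem_centralizer_iff.mpr ?_⟩
    intro q hq
    have h1 : ⁅q, x⁆ ∈ Qs 0 := hx' 0 q (by rw [Nat.zero_add, hQsn n le_rfl]; exact hq)
    rw [hQs0, Subgroup.mem_bot, commutatorElement_eq_one_iff_commute] at h1
    exact h1.eq
  -- the main step along the filtration
  have hM : ∀ c, iterCommutator (D c) Hg N ≤ D (c + 1) := by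
    intro c
    haveI := hDn c
    apply hDle (c + 1) _ ((iterCommutator_le_of_normal (D c) Hg N).trans (hDP c))
    intro a
    by_cases ha : a < m
    · haveI := hQsnorm (a + c + 1)
      haveI := hQsnorm (a + c)
      haveI := hQsnorm (a + 1)
      haveI := hQsnorm a
      have he1 : ⁅Qs (a + c + 1), D c⁆ ≤ Qs (a + 1) := by
        have h := hDcomm c (a + 1)
        have e : a + 1 + c = a + c + 1 := by omega
        rw [e] at h
        exact h
      have h := pairing_degree (Qs (a + c + 1)) (Qs (a + c)) (Qs (a + 1)) (Qs a) (D c) Hg i j hi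
        (hQmono a) (hsrc (a + c)) (htgt a ha) he1 (hDcomm c a)
        ((Subgroup.commutator_mono le_rfl (hDP c)).trans (hQstep a))
        ((Subgroup.commutator_mono le_rfl ((hQsQ _).trans hQP)).trans (hQstep a))
      rw [hN]
      have e : a + (c + 1) = a + c + 1 := by omega
      rw [e]
      exact h
    · have h1 : ⁅iterCommutator (D c) Hg N, Qs (a + (c + 1))⁆ ≤ Z :=
        (Subgroup.commutator_mono ((iterCommutator_le_of_normal (D c) Hg N).trans (hDP c))
          (hQsQ _)).trans hQ3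
      exact h1.trans (hQshigh a (by omega))
  -- the walk along the chain
  have hstep : ∀ M M' : Subgroup G, M.Normal → iterCommutator M Hg N ≤ M' →
      (∀ U V : Subgroup G, IsChiefFactor U V → ¬ U ⊓ M' ≤ V → iterCommutator U Hg N ≤ V) →
      ∀ U V : Subgroup G, IsChiefFactor U V → ¬ U ⊓ M ≤ V → iterCommutator U Hg N ≤ V := by
    intro M M' hMn h4 hQ U V hUV hUM
    by_cases h : U ⊓ M' ≤ V
    · haveI := hMn
      exact chief_step_n U V M M' Hg hUV N h4 h hUM
    · exact hQ U V hUV h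
  have hQlow : ∀ k, k ≤ m → ∀ U V : Subgroup G, IsChiefFactor U V → ¬ U ⊓ Qs k ≤ V →
      iterCommutator U Hg N ≤ V := by
    intro k
    induction k with
    | zero =>
      intro _ U V _ h
      exact absurd (by rw [hQs0, inf_bot_eq]; exact bot_le) h
    | succ k ih =>
      intro hk
      haveI := hQsnorm k
      exact hstep (Qs (k + 1)) (Qs k) (hQsnorm (k + 1))
        (iterCommutator_le_of_le_normal _ Hg _ j N (htgt k (by omega)) hjN) (ih (by omega))
  have hQZ : ∀ U V : Subgroup G, IsChiefFactor U V → ¬ U ⊓ Z ≤ V →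
      iterCommutator U Hg N ≤ V := by
    intro U V hUV h
    apply hQlow m le_rfl U V hUV
    intro h'
    exact h ((inf_le_inf_left U (hQshigh m le_rfl)).trans h')
  have hQD : ∀ d c, c + d = n → ∀ U V : Subgroup G, IsChiefFactor U V → ¬ U ⊓ D c ≤ V →
      iterCommutator U Hg N ≤ V := by
    intro d
    induction d with
    | zero =>
      intro c hc U V hUV h
      have hcn : c = n := by omega
      rw [hcn] at h
      exact hQZ U V hUV (fun h' => h ((inf_le_inf_left U hDnZ).trans h'))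
    | succ d ih =>
      intro c hc
      exact hstep (D c) (D (c + 1)) (hDn c) (hM c) (ih (c + 1) (by omega))
  intro U V hUV hUP
  apply hQD n 0 (by omega) U V hUV
  intro hle
  have h1 : U ≤ V := (le_inf le_rfl (hUP.trans hPD0)).trans hle
  exact (not_le_of_gt hUV.1) h1

end kdeg2

end Cfsg.Agent.Lib.helper10
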