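import Cfsg.Agent.Lib.helper10.KStab7
import Cfsg.Agent.Lib.lead.PNil

set_option autoImplicit false

namespace Cfsg.Agent.Lib.helper10

open Cfsg
open scoped commutatorElement

universe u

/-- In a nilpotent group, a normal subgroup `C` not contained in `W` has an element outside `W`
all of whose commutators lie in `W`. -/
theorem exists_central_mod {T : Type*} [Group T] [hnil : Group.IsNilpotent T] (C W : Subgroup T)
    [hCn : C.Normal] (h : ¬ C ≤ W) : ∃ c ∈ C, c ∉ W ∧ ∀ t : T, ⁅c, t⁆ ∈ W := by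
  obtain ⟨n, hn⟩ := Subgroup.nilpotent_iff_lowerCentralSeries.mp hnil
  have key : ∀ k, k ≤ n → ∀ c ∈ C, c ∈ (⊤ : Subgroup T).lowerCentralSeries (n - k) → c ∉ W →
      ∃ c' ∈ C, c' ∉ W ∧ ∀ t : T, ⁅c', t⁆ ∈ W := by
    intro k
    induction k with
    | zero =>
      intro _ c _ hcl hcW
      rw [Nat.sub_zero, hn, Subgroup.mem_bot] at hcl
      rw [hcl] at hcW
      exact absurd W.one_mem hcW
    | succ k ih =>
      intro hk c hc hcl hcW
      by_cases hall : ∀ t : T, ⁅c, t⁆ ∈ W
      · exact ⟨c, hc, hcW, hall⟩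
      · push Not at hall
        obtain ⟨t, ht⟩ := hall
        refine ih (by omega) ⁅c, t⁆ ?_ ?_ ht
        · have e : ⁅c, t⁆ = c * (t * c⁻¹ * t⁻¹) := by
            rw [commutatorElement_def]; group
          rw [e]
          exact C.mul_mem hc (hCn.conj_mem _ (C.inv_mem hc) t)
        · have e : n - k = (n - (k + 1)) + 1 := by omega
          rw [e, Subgroup.lowerCentralSeries_succ]
          exact Subgroup.commutator_mem_commutator hcl (Subgroup.mem_top t)
  obtain ⟨c, hc, hcW⟩ := SetLike.not_le_iff_exists.mp h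
  exact key n le_rfl c hc (by rw [Nat.sub_self]; exact Subgroup.mem_top c) hcW

/-- The lower K-infinity subgroup of a finite `p`-group contains its own centralizer. -/
theorem kinf_self_centralizing {T : Type u} [Group T] [Finite T] {p : ℕ} [Fact p.Prime]
    (hT : IsPGroup p T) :
    Subgroup.centralizer ((kInfLower T : Subgroup T) : Set T) ≤ kInfLower T := by
  classical
  obtain ⟨W, hW⟩ : ∃ W : Subgroup T, W = kInfLower T := ⟨_, rfl⟩
  rw [← hW]
  haveI hWc : W.Characteristic := by
    rw [hW, Subgroup.characteristic_iff_map_eq]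
    intro φ
    exact (isCharPFunctor_kInfLower p).2 T T hT φ
  haveI hWn : W.Normal := inferInstance
  obtain ⟨C, hC⟩ : ∃ C : Subgroup T, C = Subgroup.centralizer (W : Set T) := ⟨_, rfl⟩
  rw [← hC]
  haveI hCn : C.Normal := by rw [hC]; infer_instance
  haveI : Group.IsNilpotent T := hT.isNilpotent
  by_contra hcon
  obtain ⟨c, hcC, hcW, hct⟩ := exists_central_mod C W hcon
  obtain ⟨A, hA⟩ : ∃ A : Subgroup T, A = Subgroup.closure (((C ⊓ W : Subgroup T) : Set T) ∪ {c}) :=
    ⟨_, rfl⟩
  have hcomm : ∀ x ∈ C, ∀ y ∈ W, x * y = y * x := by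
    intro x hx y hy
    rw [hC] at hx
    exact (Subgroup.mem_centralizer_iff.mp hx y hy).symm
  have hAc : IsMulCommutative ↥A := by
    rw [hA]
    apply Subgroup.isMulCommutative_closure
    intro x hx y hy
    rcases hx with hx | hx <;> rcases hy with hy | hy
    · exact hcomm x hx.1 y hy.2
    · rw [Set.mem_singleton_iff] at hy
      rw [hy]; exact (hcomm c hcC x hx.2).symm
    · rw [Set.mem_singleton_iff] at hx
      rw [hx]; exact hcomm c hcC y hy.2
    · rw [Set.mem_singleton_iff] at hx hy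
      rw [hx, hy]
  haveI hAn : A.Normal := by
    refine ⟨fun a ha t => ?_⟩
    rw [hA] at ha ⊢
    induction ha using Subgroup.closure_induction with
    | mem y hy =>
      rcases hy with hy | hy
      · exact Subgroup.subset_closure (Or.inl ⟨hCn.conj_mem y hy.1 t, hWn.conj_mem y hy.2 t⟩)
      · rw [Set.mem_singleton_iff] at hy
        rw [hy]
        have e : t * c * t⁻¹ = ⁅c, t⁆⁻¹ * c := by
          rw [commutatorElement_def]; group
        rw [e]
        refine Subgroup.mul_mem _ (Subgroup.inv_mem _ (Subgroup.subset_closure (Or.inl ⟨?_, hct t⟩)))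
          (Subgroup.subset_closure (Or.inr rfl))
        have e2 : ⁅c, t⁆ = c * (t * c⁻¹ * t⁻¹) := by
          rw [commutatorElement_def]; group
        rw [e2]
        exact C.mul_mem hcC (hCn.conj_mem _ (C.inv_mem hcC) t)
    | one => simp
    | mul a b _ _ iha ihb =>
      have e : t * (a * b) * t⁻¹ = (t * a * t⁻¹) * (t * b * t⁻¹) := by group
      rw [e]; exact Subgroup.mul_mem _ iha ihb
    | inv a _ iha =>
      have e : t * a⁻¹ * t⁻¹ = (t * a * t⁻¹)⁻¹ := by group
      rw [e]; exact Subgroup.inv_mem _ iha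
  have h1 : A ≤ kSeqEven T 0 := normal_abelian_le_kSeqEven A hAc 0
  have h2 : A ≤ W := by
    rw [hW]
    exact h1.trans (le_iSup (fun n => kSeqEven T n) 0)
  exact hcW (h2 (by rw [hA]; exact Subgroup.subset_closure (Or.inr rfl)))

/-- If `K` is a normal subgroup with `C_S(K) ≤ K` for a Sylow `p`-subgroup `S`, and every
`p'`-element centralizes `K`, then the group has a normal `p`-complement. -/
theorem npc_of_pprime_centralize {X : Type u} [Group X] [Finite X] {p : ℕ} [Fact p.Prime]
    (K : Subgroup X) [hKn : K.Normal] (S : Sylow p X)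
    (hSK : (S : Subgroup X) ⊓ Subgroup.centralizer (K : Set X) ≤ K)
    (hpp : ∀ g : X, (orderOf g).Coprime p → g ∈ Subgroup.centralizer (K : Set X)) :
    HasNormalPComplement p X := by
  classical
  obtain ⟨C, hC⟩ : ∃ C : Subgroup X, C = Subgroup.centralizer (K : Set X) := ⟨_, rfl⟩
  haveI hCn : C.Normal := by rw [hC]; infer_instance
  have hq : IsPGroup p (X ⧸ C) := by
    intro x
    obtain ⟨x, rfl⟩ := QuotientGroup.mk_surjective x
    obtain ⟨k, hk⟩ := exists_pow_coprime p x
    refine ⟨k, ?_⟩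
    rw [← QuotientGroup.mk_pow, QuotientGroup.eq_one_iff, hC]
    exact hpp _ hk
  obtain ⟨j, hj⟩ := IsPGroup.iff_card.mp hq
  have hidx : C.index = p ^ j := by rw [Subgroup.index_eq_card, hj]
  refine Cfsg.Agent.Lib.lead.hasNPC_lift C hidx ?_
  obtain ⟨Q⟩ : Nonempty (Sylow p ↥C) := inferInstance
  have hQc : ∀ q ∈ (Q : Subgroup ↥C), ∀ y : ↥C, q * y = y * q := by
    intro q hq y
    have hQ'p : IsPGroup p ((Q : Subgroup ↥C).map C.subtype) := Q.2.map _
    obtain ⟨R, hR⟩ := hQ'p.exists_le_sylow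
    obtain ⟨x, hx⟩ := MulAction.exists_smul_eq X R S
    have h1 : (q : X) ∈ (R : Subgroup X) := hR ⟨q, hq, rfl⟩
    have h2 : x * (q : X) * x⁻¹ ∈ (S : Subgroup X) := by
      have h : x * (q : X) * x⁻¹ ∈ ((x • R : Sylow p X) : Subgroup X) := by
        rw [Sylow.coe_subgroup_smul]
        exact Subgroup.smul_mem_pointwise_smul _ (MulAut.conj x) _ h1
      rw [hx] at h; exact h
    have h3 : x * (q : X) * x⁻¹ ∈ C := hCn.conj_mem _ q.2 x
    have h4 : x * (q : X) * x⁻¹ ∈ K := hSK ⟨h2, by rw [← hC]; exact h3⟩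
    have h5 : (q : X) ∈ K := by
      have h := hKn.conj_mem _ h4 x⁻¹
      have e : x⁻¹ * (x * (q : X) * x⁻¹) * x⁻¹⁻¹ = q := by group
      rwa [e] at h
    apply Subtype.ext
    have h6 : (y : X) ∈ Subgroup.centralizer (K : Set X) := by rw [← hC]; exact y.2
    exact (Subgroup.mem_centralizer_iff.mp h6 (q : X) h5)
  have hP : Subgroup.normalizer ((Q : Subgroup ↥C) : Set ↥C) ≤
      Subgroup.centralizer ((Q : Subgroup ↥C) : Set ↥C) := by
    intro y _
    rw [Subgroup.mem_centralizer_iff]
    intro q hq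
    exact hQc q hq y
  exact ⟨Q, (MonoidHom.transferSylow Q hP).ker, inferInstance,
    MonoidHom.ker_transferSylow_isComplement' Q hP⟩

/-- If every `p'`-element of `N_G(K)` centralizes `K`, for `K` the lower K-infinity subgroup of a
Sylow `p`-subgroup, then `N_G(K)` has a normal `p`-complement. -/
theorem kinf_npc_of_pprime {G : Type u} [Group G] [Finite G] {p : ℕ} [Fact p.Prime]
    (S : Sylow p G)
    (h : ∀ g ∈ Subgroup.normalizer
        ((inducedFunctor kInfLower (S : Subgroup G) : Subgroup G) : Set G),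
      (orderOf g).Coprime p → g ∈ Subgroup.centralizer
        ((inducedFunctor kInfLower (S : Subgroup G) : Subgroup G) : Set G)) :
    HasNormalPComplement p ↥(Subgroup.normalizer
      ((inducedFunctor kInfLower (S : Subgroup G) : Subgroup G) : Set G)) := by
  classical
  obtain ⟨K, hKdef⟩ : ∃ K : Subgroup G, K = inducedFunctor kInfLower (S : Subgroup G) :=
    ⟨_, rfl⟩
  rw [← hKdef] at h ⊢
  have hSp : IsPGroup p (S : Subgroup G) := S.2
  have hKmem : ∀ x : G, x ∈ K ↔ ∃ hx : x ∈ (S : Subgroup G),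
      (⟨x, hx⟩ : ↥(S : Subgroup G)) ∈ kInfLower ↥(S : Subgroup G) := by
    intro x
    rw [hKdef]
    constructor
    · rintro ⟨s, hs, rfl⟩; exact ⟨s.2, hs⟩
    · rintro ⟨hx, hs⟩; exact ⟨⟨x, hx⟩, hs, rfl⟩
  have hWc : (kInfLower ↥(S : Subgroup G)).Characteristic := by
    rw [Subgroup.characteristic_iff_map_eq]
    intro φ
    exact (isCharPFunctor_kInfLower p).2 ↥(S : Subgroup G) ↥(S : Subgroup G) hSp φ
  have hWn : (kInfLower ↥(S : Subgroup G)).Normal := inferInstance
  have hSN : (S : Subgroup G) ≤ Subgroup.normalizer (K : Set G) := by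
    intro s hs
    apply mem_normalizer_of_forall_conj
    intro w hw
    obtain ⟨hwS, hw'⟩ := (hKmem w).mp hw
    exact (hKmem _).mpr ⟨_, hWn.conj_mem _ hw' ⟨s, hs⟩⟩
  have hCS : (S : Subgroup G) ⊓ Subgroup.centralizer (K : Set G) ≤ K := by
    rintro x ⟨hxS, hxC⟩
    have h1 : (⟨x, hxS⟩ : ↥(S : Subgroup G)) ∈ Subgroup.centralizer
        ((kInfLower ↥(S : Subgroup G) : Subgroup ↥(S : Subgroup G)) : Set ↥(S : Subgroup G)) := by
      rw [Subgroup.mem_centralizer_iff]
      intro y hy
      apply Subtype.ext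
      exact Subgroup.mem_centralizer_iff.mp hxC (y : G) ((hKmem _).mpr ⟨y.2, hy⟩)
    exact (hKmem x).mpr ⟨hxS, kinf_self_centralizing hSp h1⟩
  haveI : (K.subgroupOf (Subgroup.normalizer (K : Set G))).Normal :=
    Subgroup.normal_in_normalizer
  refine npc_of_pprime_centralize (K.subgroupOf (Subgroup.normalizer (K : Set G)))
    (S.subtype hSN) ?_ ?_
  · rintro x ⟨hxS, hxC⟩
    rw [Subgroup.mem_subgroupOf]
    apply hCS
    refine ⟨Subgroup.mem_subgroupOf.mp hxS, Subgroup.mem_centralizer_iff.mpr ?_⟩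
    intro k hk
    have h1 := Subgroup.mem_centralizer_iff.mp hxC ⟨k, Subgroup.le_normalizer hk⟩
      (Subgroup.mem_subgroupOf.mpr hk)
    exact congrArg Subtype.val h1
  · intro g hg
    rw [Subgroup.mem_centralizer_iff]
    intro k hk
    apply Subtype.ext
    have h1 : (orderOf (g : G)).Coprime p := by rw [Subgroup.orderOf_coe]; exact hg
    exact Subgroup.mem_centralizer_iff.mp (h (g : G) g.2 h1) (k : G) (Subgroup.mem_subgroupOf.mp hk)

end Cfsg.Agent.Lib.helper10
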