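import Cfsg.Agent.Lib.helper10.KStab6

set_option autoImplicit false

namespace Cfsg.Agent.Lib.helper10

open Cfsg
open scoped commutatorElement

universe u

section kq1
variable {G : Type u} [Group G] [Finite G] {p : ℕ} [Fact p.Prime]

/-- The quotient form of `p`-stability, in terms of subgroups of `G`: only the quotients of `G`
by normal subgroups are used. -/
theorem sec_ps_q
    (hQ : ∀ (N : Subgroup G) [N.Normal], IsNormalizerPStable p (G ⧸ N))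
    (R P : Subgroup G) [hRn : R.Normal] (hPp : IsPGroup p P) (Γ : Set G)
    (hΓP : ∀ g ∈ Γ, g ∈ Subgroup.normalizer (P : Set G))
    (hq : ∀ g ∈ Γ, ∀ x ∈ P, ⁅⁅x, g⁆, g⁆ ∈ R) :
    ∀ u ∈ Subgroup.closure Γ, (orderOf u).Coprime p → ∀ x ∈ P, ⁅x, u⁆ ∈ R := by
  classical
  obtain ⟨π, hπ⟩ : ∃ π : G →* G ⧸ R, π = QuotientGroup.mk' R := ⟨_, rfl⟩
  have hker : ∀ y : G, π y = 1 ↔ y ∈ R := by
    intro y
    rw [hπ, QuotientGroup.mk'_apply, QuotientGroup.eq_one_iff]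
  obtain ⟨Pb, hPb⟩ : ∃ Pb : Subgroup (G ⧸ R), Pb = P.map π := ⟨_, rfl⟩
  have hPbp : IsPGroup p Pb := by rw [hPb]; exact hPp.map π
  obtain ⟨O, hO1, hO2⟩ := psu_of_stable (hQ R) Pb hPbp
  have key : ∀ u ∈ Subgroup.closure Γ, π u ∈ O := by
    intro u hu
    induction hu using Subgroup.closure_induction with
    | mem g hg =>
      refine hO1 _ ?_ ?_
      · rw [hPb]
        exact Subgroup.le_normalizer_map π ⟨g, hΓP g hg, rfl⟩
      · intro xb hxb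
        rw [hPb] at hxb
        obtain ⟨x, hx, rfl⟩ := hxb
        rw [← commutatorElement_eq_one_iff_commute, ← map_commutatorElement,
          ← map_commutatorElement, hker]
        exact hq g hg x hx
    | one => rw [map_one]; exact O.one_mem
    | mul a b _ _ iha ihb => rw [map_mul]; exact O.mul_mem iha ihb
    | inv a _ iha => rw [map_inv]; exact O.inv_mem iha
  intro u hu hcop x hx
  have hord : (orderOf (π u)).Coprime p :=
    Nat.Coprime.coprime_dvd_left (orderOf_map_dvd π u) hcop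
  have hc := hO2 _ (key u hu) hord
  have h5 := Subgroup.mem_centralizer_iff.mp hc (π x) (by rw [hPb]; exact ⟨x, hx, rfl⟩)
  rw [← hker, map_commutatorElement, commutatorElement_eq_one_iff_commute]
  exact h5

theorem quad_closure_q
    (hQ : ∀ (N : Subgroup G) [N.Normal], IsNormalizerPStable p (G ⧸ N))
    (B₂ X Y : Subgroup G) [hXn : X.Normal] [hYn : Y.Normal] (hXp : IsPGroup p X)
    (hq : ∀ b ∈ B₂, ∀ x ∈ X, ⁅⁅x, b⁆, b⁆ ∈ Y) :
    ∀ u ∈ Subgroup.normalClosure (B₂ : Set G), (orderOf u).Coprime p →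
      ∀ x ∈ X, ⁅x, u⁆ ∈ Y := by
  refine sec_ps_q hQ Y X hXp (Group.conjugatesOfSet (B₂ : Set G))
    (fun g _ => by rw [Subgroup.normalizer_eq_top_iff.mpr hXn]; exact Subgroup.mem_top g) ?_
  intro g hg x hx
  obtain ⟨b, hb, hconj⟩ := Group.mem_conjugatesOfSet_iff.mp hg
  obtain ⟨c, rfl⟩ := isConj_iff.mp hconj
  rw [comm_comm_conj]
  refine hYn.conj_mem _ (hq b hb _ ?_) c
  have := hXn.conj_mem x hx c⁻¹
  simpa using this

theorem quad_np_q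
    (hQ : ∀ (N : Subgroup G) [N.Normal], IsNormalizerPStable p (G ⧸ N))
    (B₂ X Y : Subgroup G) [hXn : X.Normal] [hYn : Y.Normal] (hXp : IsPGroup p X)
    (hYX : Y ≤ X) (hne : Y ≠ X)
    (hmin : ∀ X₁ : Subgroup G, X₁.Normal → X₁ ≤ X → X₁ ≠ X → X₁ ≤ Y)
    (hq : ∀ b ∈ B₂, ∀ x ∈ X, ⁅⁅x, b⁆, b⁆ ∈ Y) :
    ∀ b ∈ B₂, ∀ x ∈ X, ⁅x, b⁆ ∈ Y := by
  haveI : (Subgroup.normalClosure (B₂ : Set G)).Normal := Subgroup.normalClosure_normal
  have h := np_lemma X Y (Subgroup.normalClosure (B₂ : Set G)) hXp hYX hne hmin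
    (quad_closure_q hQ B₂ X Y hXp hq)
  exact fun b hb x hx => h b (Subgroup.le_normalClosure hb) x hx

theorem quad_contra_q
    (hQ : ∀ (N : Subgroup G) [N.Normal], IsNormalizerPStable p (G ⧸ N))
    (B X : Subgroup G) [hXn : X.Normal] (hXp : IsPGroup p X)
    (hq : ∀ b ∈ B, ∀ x ∈ X, ⁅⁅x, b⁆, b⁆ = 1) :
    ppGen p (Subgroup.normalClosure (B : Set G)) ≤ Subgroup.centralizer (X : Set G) := by
  apply ppGen_le_centralizer
  intro u hu hc
  have h := quad_closure_q hQ B X ⊥ hXp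
    (fun b hb x hx => by rw [hq b hb x hx]; exact Subgroup.one_mem _) u hu hc
  rw [Subgroup.mem_centralizer_iff]
  intro x hx
  have h1 := h x hx
  rw [Subgroup.mem_bot, commutatorElement_eq_one_iff_commute] at h1
  exact h1.eq

end kq1

section complement
variable {G : Type u} [Group G]

/-- The product of two subgroups, the first normalized by the second. -/
def prodSub (P S : Subgroup G) (h : ∀ s ∈ S, ∀ x ∈ P, s * x * s⁻¹ ∈ P) : Subgroup G where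
  carrier := {g | ∃ x ∈ P, ∃ s ∈ S, g = x * s}
  one_mem' := ⟨1, P.one_mem, 1, S.one_mem, by simp⟩
  mul_mem' := by
    rintro _ _ ⟨x, hx, s, hs, rfl⟩ ⟨x', hx', s', hs', rfl⟩
    exact ⟨x * (s * x' * s⁻¹), P.mul_mem hx (h s hs x' hx'), s * s', S.mul_mem hs hs', by group⟩
  inv_mem' := by
    rintro _ ⟨x, hx, s, hs, rfl⟩
    exact ⟨s⁻¹ * x⁻¹ * s⁻¹⁻¹, h s⁻¹ (S.inv_mem hs) x⁻¹ (P.inv_mem hx), s⁻¹, S.inv_mem hs,
      by group⟩

theorem mem_prodSub (P S : Subgroup G) (h : ∀ s ∈ S, ∀ x ∈ P, s * x * s⁻¹ ∈ P) (g : G) :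
    g ∈ prodSub P S h ↔ ∃ x ∈ P, ∃ s ∈ S, g = x * s := Iff.rfl

variable [Finite G]

/-- A Maschke-type complement: in a chief factor `X/Y` of `G` with `[X, X] ≤ Y`, every subgroup
`D` between `Y` and `X` invariant under a normal subgroup `N₀` of `G` has an `N₀`-invariant
complement modulo `Y`. -/
theorem exists_inv_complement (X Y N₀ D : Subgroup G) [hXn : X.Normal] [hYn : Y.Normal]
    [hN₀n : N₀.Normal] (hYX : Y ≤ X) (hne : Y ≠ X)
    (hmin : ∀ X₁ : Subgroup G, X₁.Normal → X₁ ≤ X → X₁ ≠ X → X₁ ≤ Y)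
    (hXXY : ∀ x ∈ X, ∀ a ∈ X, ⁅x, a⁆ ∈ Y)
    (hYD : Y ≤ D) (hDX : D ≤ X) (hDN : ∀ n ∈ N₀, ∀ d ∈ D, n * d * n⁻¹ ∈ D) :
    ∃ P : Subgroup G, Y ≤ P ∧ P ≤ X ∧ (∀ n ∈ N₀, ∀ x ∈ P, n * x * n⁻¹ ∈ P) ∧
      (∀ x ∈ P, x ∈ D → x ∈ Y) ∧ ∀ x ∈ X, ∃ y ∈ P, ∃ d ∈ D, x = y * d := by
  classical
  -- a minimal invariant subgroup strictly above `Y`
  have hex : ∃ n : ℕ, ∃ S : Subgroup G, Y ≤ S ∧ S ≤ X ∧ (∀ n ∈ N₀, ∀ x ∈ S, n * x * n⁻¹ ∈ S) ∧
      S ≠ Y ∧ Nat.card S = n :=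
    ⟨_, X, hYX, le_rfl, fun n _ x hx => hXn.conj_mem x hx n, fun h => hne h.symm, rfl⟩
  obtain ⟨S₀, hYS₀, hS₀X, hS₀N, hS₀ne, hS₀card⟩ := Nat.find_spec hex
  have hS₀min : ∀ S : Subgroup G, Y ≤ S → S ≤ X → (∀ n ∈ N₀, ∀ x ∈ S, n * x * n⁻¹ ∈ S) →
      S ≠ Y → Nat.card S₀ ≤ Nat.card S := by
    intro S h1 h2 h3 h4
    rw [hS₀card]
    exact Nat.find_min' hex ⟨S, h1, h2, h3, h4, rfl⟩
  -- a maximal invariant subgroup meeting `D` in `Y`
  have hex2 : ∃ n : ℕ, ∃ P : Subgroup G, Y ≤ P ∧ P ≤ X ∧ (∀ n ∈ N₀, ∀ x ∈ P, n * x * n⁻¹ ∈ P) ∧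
      (∀ x ∈ P, x ∈ D → x ∈ Y) ∧ Nat.card G - Nat.card P = n :=
    ⟨_, Y, le_rfl, hYX, fun n _ x hx => hYn.conj_mem x hx n, fun x hx _ => hx, rfl⟩
  obtain ⟨P, hYP, hPX, hPN, hPD, hPcard⟩ := Nat.find_spec hex2
  have hPmax : ∀ P' : Subgroup G, Y ≤ P' → P' ≤ X → (∀ n ∈ N₀, ∀ x ∈ P', n * x * n⁻¹ ∈ P') →
      (∀ x ∈ P', x ∈ D → x ∈ Y) → Nat.card P' ≤ Nat.card P := by
    intro P' h1 h2 h3 h4
    have h5 : Nat.card G - Nat.card P ≤ Nat.card G - Nat.card P' := by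
      rw [hPcard]
      exact Nat.find_min' hex2 ⟨P', h1, h2, h3, h4, rfl⟩
    have h6 : Nat.card P' ≤ Nat.card G := Subgroup.card_le_card_group P'
    have h7 : Nat.card P ≤ Nat.card G := Subgroup.card_le_card_group P
    omega
  refine ⟨P, hYP, hPX, hPN, hPD, ?_⟩
  -- conjugation by elements of `X` preserves subgroups between `Y` and `X`
  have hconjX : ∀ Q : Subgroup G, Y ≤ Q → Q ≤ X → ∀ s ∈ X, ∀ x ∈ Q, s * x * s⁻¹ ∈ Q := by
    intro Q hYQ hQX s hs x hx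
    have e : s * x * s⁻¹ = ⁅s, x⁆ * x := by simp [commutatorElement_def]
    rw [e]
    exact Q.mul_mem (hYQ (hXXY s hs x (hQX hx))) hx
  obtain ⟨PD, hPDdef⟩ : ∃ PD : Subgroup G, PD = prodSub P D
      (fun s hs x hx => hconjX P hYP hPX s (hDX hs) x hx) := ⟨_, rfl⟩
  have hPDmem : ∀ g : G, g ∈ PD ↔ ∃ x ∈ P, ∃ s ∈ D, g = x * s := by
    intro g; rw [hPDdef]; exact Iff.rfl
  by_contra hcon
  push Not at hcon
  obtain ⟨x₀, hx₀X, hx₀⟩ := hcon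
  have hx₀PD : x₀ ∉ PD := by
    intro h
    obtain ⟨y, hy, d, hd, e⟩ := (hPDmem x₀).mp h
    exact hx₀ y hy d hd e
  have hPPD : P ≤ PD := fun x hx => (hPDmem x).mpr ⟨x, hx, 1, D.one_mem, by simp⟩
  have hDPD : D ≤ PD := fun x hx => (hPDmem x).mpr ⟨1, P.one_mem, x, hx, by simp⟩
  have hPDX : PD ≤ X := by
    intro g hg
    obtain ⟨y, hy, d, hd, rfl⟩ := (hPDmem g).mp hg
    exact X.mul_mem (hPX hy) (hDX hd)
  have hPDN : ∀ n ∈ N₀, ∀ x ∈ PD, n * x * n⁻¹ ∈ PD := by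
    intro n hn g hg
    obtain ⟨y, hy, d, hd, rfl⟩ := (hPDmem g).mp hg
    refine (hPDmem _).mpr ⟨n * y * n⁻¹, hPN n hn y hy, n * d * n⁻¹, hDN n hn d hd, by group⟩
  -- the normal closure of `S₀` is `X`
  have hJ : Subgroup.normalClosure (S₀ : Set G) = X := by
    by_contra hJne
    have h1 : Subgroup.normalClosure (S₀ : Set G) ≤ Y :=
      hmin _ Subgroup.normalClosure_normal (Subgroup.normalClosure_le_normal hS₀X) hJne
    exact hS₀ne (le_antisymm (Subgroup.le_normalClosure.trans h1) hYS₀)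
  have hnot : ¬ Group.conjugatesOfSet (S₀ : Set G) ⊆ (PD : Set G) := by
    intro hsub
    apply hx₀PD
    have h1 : Subgroup.normalClosure (S₀ : Set G) ≤ PD := (Subgroup.closure_le PD).mpr hsub
    rw [hJ] at h1
    exact h1 hx₀X
  obtain ⟨w, hw, hwPD⟩ := Set.not_subset.mp hnot
  obtain ⟨s₀, hs₀, hconj⟩ := Group.mem_conjugatesOfSet_iff.mp hw
  obtain ⟨c, rfl⟩ := isConj_iff.mp hconj
  -- the conjugate `S` of `S₀`
  obtain ⟨S, hSdef⟩ : ∃ S : Subgroup G, S = S₀.map (MulAut.conj c).toMonoidHom := ⟨_, rfl⟩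
  have hSmem : ∀ y : G, y ∈ S ↔ ∃ l ∈ S₀, c * l * c⁻¹ = y := by
    intro y
    rw [hSdef, Subgroup.mem_map]
    rfl
  have hYS : Y ≤ S := by
    intro y hy
    refine (hSmem y).mpr ⟨c⁻¹ * y * c, hYS₀ ?_, by group⟩
    have := hYn.conj_mem y hy c⁻¹
    simpa using this
  have hSX : S ≤ X := by
    intro y hy
    obtain ⟨l, hl, rfl⟩ := (hSmem y).mp hy
    exact hXn.conj_mem l (hS₀X hl) c
  have hSN : ∀ n ∈ N₀, ∀ x ∈ S, n * x * n⁻¹ ∈ S := by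
    intro n hn y hy
    obtain ⟨l, hl, rfl⟩ := (hSmem y).mp hy
    have hn' : c⁻¹ * n * c ∈ N₀ := by
      have := hN₀n.conj_mem n hn c⁻¹
      simpa using this
    exact (hSmem _).mpr ⟨(c⁻¹ * n * c) * l * (c⁻¹ * n * c)⁻¹, hS₀N _ hn' l hl, by group⟩
  have hScard : Nat.card S = Nat.card S₀ := by
    rw [hSdef]
    exact Subgroup.card_map_of_injective (MulAut.conj c).injective
  have hwS : c * s₀ * c⁻¹ ∈ S := (hSmem _).mpr ⟨s₀, hs₀, rfl⟩
  -- `S ⊓ PD = Y`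
  have hSPD : ∀ x ∈ S, x ∈ PD → x ∈ Y := by
    by_contra hcon2
    push Not at hcon2
    obtain ⟨x₁, hx₁S, hx₁PD, hx₁Y⟩ := hcon2
    have h1 : Nat.card S₀ ≤ Nat.card (S ⊓ PD : Subgroup G) := by
      refine hS₀min (S ⊓ PD) (le_inf hYS (hYP.trans hPPD)) (inf_le_left.trans hSX) ?_ ?_
      · intro n hn x hx
        exact ⟨hSN n hn x hx.1, hPDN n hn x hx.2⟩
      · intro h
        apply hx₁Y
        rw [← h]
        exact ⟨hx₁S, hx₁PD⟩
    have h2 : S ⊓ PD = S := by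
      apply Subgroup.eq_of_le_of_card_ge inf_le_left
      rw [hScard]; exact h1
    apply hwPD
    have h3 : c * s₀ * c⁻¹ ∈ S ⊓ PD := by rw [h2]; exact hwS
    exact h3.2
  -- the larger subgroup `P * S`
  obtain ⟨P', hP'def⟩ : ∃ P' : Subgroup G, P' = prodSub P S
      (fun s hs x hx => hconjX P hYP hPX s (hSX hs) x hx) := ⟨_, rfl⟩
  have hP'mem : ∀ g : G, g ∈ P' ↔ ∃ x ∈ P, ∃ s ∈ S, g = x * s := by
    intro g; rw [hP'def]; exact Iff.rfl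
  have hPP' : P ≤ P' := fun x hx => (hP'mem x).mpr ⟨x, hx, 1, S.one_mem, by simp⟩
  have hSP' : S ≤ P' := fun x hx => (hP'mem x).mpr ⟨1, P.one_mem, x, hx, by simp⟩
  have hle : Nat.card P' ≤ Nat.card P := by
    refine hPmax P' (hYP.trans hPP') ?_ ?_ ?_
    · intro g hg
      obtain ⟨y, hy, s, hs, rfl⟩ := (hP'mem g).mp hg
      exact X.mul_mem (hPX hy) (hSX hs)
    · intro n hn g hg
      obtain ⟨y, hy, s, hs, rfl⟩ := (hP'mem g).mp hg
      exact (hP'mem _).mpr ⟨n * y * n⁻¹, hPN n hn y hy, n * s * n⁻¹, hSN n hn s hs, by group⟩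
    · intro g hg hgD
      obtain ⟨y, hy, s, hs, rfl⟩ := (hP'mem g).mp hg
      have hsPD : s ∈ PD := (hPDmem s).mpr ⟨y⁻¹, P.inv_mem hy, y * s, hgD, by group⟩
      have hsY : s ∈ Y := hSPD s hs hsPD
      exact hPD _ (P.mul_mem hy (hYP hsY)) hgD
  have hPeq : P = P' := Subgroup.eq_of_le_of_card_ge hPP' hle
  apply hwPD
  apply hPPD
  rw [hPeq]
  exact hSP' hwS

end complement

end Cfsg.Agent.Lib.helper10
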