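import Cfsg.Agent.Lib.helper10.KQ1

set_option autoImplicit false

namespace Cfsg.Agent.Lib.helper10

open Cfsg
open scoped commutatorElement

universe u

section lowerq
variable {G : Type u} [Group G] [Finite G] {p : ℕ} [Fact p.Prime]

/-- The lower-family contradiction: under the test property of the lower star family, the
`p'`-generated part of the normal closure of `B` centralizes the minimal subgroup `X`. -/
theorem lower_contra_q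
    (hQ : ∀ (N : Subgroup G) [N.Normal], IsNormalizerPStable p (G ⧸ N))
    (B X Y : Subgroup G) [hXn : X.Normal] [hYn : Y.Normal] (hBp : IsPGroup p B)
    (hXp : IsPGroup p X) (hYX : Y ≤ X) (hne : Y ≠ X)
    (hmin : ∀ X₁ : Subgroup G, X₁.Normal → X₁ ≤ X → X₁ ≠ X → X₁ ≤ Y)
    (hYN : Y ≤ Subgroup.centralizer
      ((ppGen p (Subgroup.normalClosure (B : Set G)) : Subgroup G) : Set G))
    (hYZ : Y ≤ Subgroup.centralizer (X : Set G))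
    (hB2 : ∀ b₁ ∈ B, ∀ b₂ ∈ B, ∀ b₃ ∈ B, Commute ⁅b₁, b₂⁆ b₃)
    (hXB : ∀ x ∈ X, ∀ b ∈ B, x * b * x⁻¹ ∈ B)
    (hstar : ∀ A : Subgroup G, A ≤ X → (∀ b ∈ B, ∀ a ∈ A, b * a * b⁻¹ ∈ A) →
      (∀ a₁ ∈ A, ∀ a₂ ∈ A, ∀ b ∈ B, Commute ⁅a₁, a₂⁆ b) →
      (∀ z ∈ B, (∀ b ∈ B, Commute z b) → ∀ a₁ ∈ A, ∀ a₂ ∈ A, Commute ⁅z, a₁⁆ a₂) →
      ∀ b ∈ B, ∀ a ∈ A, ∀ b' ∈ B, Commute ⁅b, a⁆ b') :
    ppGen p (Subgroup.normalClosure (B : Set G)) ≤ Subgroup.centralizer (X : Set G) := by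
  classical
  obtain ⟨N₀, hN₀⟩ : ∃ N₀ : Subgroup G, N₀ = ppGen p (Subgroup.normalClosure (B : Set G)) :=
    ⟨_, rfl⟩
  have hN₀n : N₀.Normal := by
    rw [hN₀]
    haveI : (Subgroup.normalClosure (B : Set G)).Normal := Subgroup.normalClosure_normal
    exact ppGen_normal p _
  rw [← hN₀] at hYN
  have hXXY : ∀ x ∈ X, ∀ a ∈ X, ⁅x, a⁆ ∈ Y := fun x hx a ha =>
    normal_p_comm X Y X hXp hYX hne hmin hXp a ha x hx
  have hXX : ∀ x ∈ X, ∀ a ∈ X, ⁅x, a⁆ ∈ Subgroup.centralizer (X : Set G) := fun x hx a ha =>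
    hYZ (hXXY x hx a ha)
  -- central elements of `B` act trivially on `X/Y`
  have hZ : ∀ z ∈ B, (∀ b ∈ B, Commute z b) → ∀ x ∈ X, ⁅x, z⁆ ∈ Y := by
    have h := quad_np_q hQ (B ⊓ Subgroup.centralizer (B : Set G)) X Y hXp hYX hne hmin (by
      rintro z ⟨hz, hzc⟩ x hx
      have h1 : ⁅x, z⁆ ∈ B := commElt_mem_of_conj B hz (hXB x hx z hz)
      have h2 : Commute ⁅x, z⁆ z := Subgroup.mem_centralizer_iff.mp hzc _ h1
      rw [commutatorElement_eq_one_iff_commute.mpr h2]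
      exact Y.one_mem)
    intro z hz hzc x hx
    exact h z ⟨hz, Subgroup.mem_centralizer_iff.mpr (fun b hb => (hzc b hb).eq.symm)⟩ x hx
  -- the flat subgroup
  obtain ⟨Xf, hXf⟩ : ∃ Xf : Subgroup G, ∀ x, x ∈ Xf ↔
      x ∈ X ∧ ∀ a ∈ X, ⁅x, a⁆ ∈ Subgroup.centralizer (B : Set G) :=
    ⟨flatSub X B hXX, fun x => Iff.rfl⟩
  have hXfX : Xf ≤ X := fun x hx => ((hXf x).mp hx).1
  have hYXf : Y ≤ Xf := by
    intro y hy
    refine (hXf y).mpr ⟨hYX hy, fun a ha => ?_⟩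
    have h1 : ⁅y, a⁆ = 1 := by
      rw [commutatorElement_eq_one_iff_commute]
      exact (Subgroup.mem_centralizer_iff.mp (hYZ hy) a ha).symm
    rw [h1]; exact Subgroup.one_mem _
  have hf2 : ∀ z ∈ X, z ∈ B → (∀ b ∈ B, Commute z b) → z ∈ Xf := by
    intro z hzX hzB hzc
    refine (hXf z).mpr ⟨hzX, fun a ha => ?_⟩
    rw [Subgroup.mem_centralizer_iff]
    intro b hb
    have e : ⁅z, a⁆ = z * (a * z⁻¹ * a⁻¹) := by simp [commutatorElement_def, mul_assoc]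
    have h2 : a⁻¹ * b * a ∈ B := by
      have := hXB a⁻¹ (X.inv_mem ha) b hb
      simpa using this
    have h3 : Commute z (a⁻¹ * b * a) := hzc _ h2
    have h4 : Commute (a * z⁻¹ * a⁻¹) b := by
      have h5 : z⁻¹ * (a⁻¹ * b * a) = (a⁻¹ * b * a) * z⁻¹ := h3.inv_left.eq
      show a * z⁻¹ * a⁻¹ * b = b * (a * z⁻¹ * a⁻¹)
      calc a * z⁻¹ * a⁻¹ * b = a * (z⁻¹ * (a⁻¹ * b * a)) * a⁻¹ := by group
        _ = a * ((a⁻¹ * b * a) * z⁻¹) * a⁻¹ := by rw [h5]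
        _ = b * (a * z⁻¹ * a⁻¹) := by group
    rw [e]
    exact ((hzc b hb).mul_left h4).eq.symm
  have hf3 : ∀ b ∈ B, ∀ x ∈ Xf, b * x * b⁻¹ ∈ Xf := by
    intro b hb x hx
    obtain ⟨hxX, hxa⟩ := (hXf x).mp hx
    refine (hXf _).mpr ⟨hXn.conj_mem x hxX b, fun a ha => ?_⟩
    rw [comm_conj_left]
    have h1 : b⁻¹ * a * b ∈ X := by
      have := hXn.conj_mem a ha b⁻¹
      simpa using this
    have h2 := hxa _ h1
    have h3 : b * ⁅x, b⁻¹ * a * b⁆ * b⁻¹ = ⁅x, b⁻¹ * a * b⁆ := by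
      rw [Subgroup.mem_centralizer_iff.mp h2 b hb]; group
    rw [h3]; exact h2
  have hf4 : ∀ n ∈ N₀, ∀ x ∈ Xf, n * x * n⁻¹ ∈ Xf := by
    intro n hn x hx
    obtain ⟨hxX, hxa⟩ := (hXf x).mp hx
    refine (hXf _).mpr ⟨hXn.conj_mem x hxX n, fun a ha => ?_⟩
    rw [comm_conj_left]
    have h1 : n⁻¹ * a * n ∈ X := by
      have := hXn.conj_mem a ha n⁻¹
      simpa using this
    have h2 := hxa _ h1
    have h3 : n * ⁅x, n⁻¹ * a * n⁆ * n⁻¹ = ⁅x, n⁻¹ * a * n⁆ := by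
      rw [Subgroup.mem_centralizer_iff.mp (hYN (hXXY x hxX _ h1)) n hn]; group
    rw [h3]; exact h2
  -- the test property
  have hq : ∀ b ∈ B, ∀ a ∈ Xf, ∀ b' ∈ B, Commute ⁅b, a⁆ b' := by
    apply hstar Xf hXfX hf3
    · intro a₁ ha₁ a₂ ha₂ b hb
      have h1 := ((hXf a₁).mp ha₁).2 a₂ (hXfX ha₂)
      exact (Subgroup.mem_centralizer_iff.mp h1 b hb).symm
    · intro z hz hzc a₁ ha₁ a₂ ha₂
      have h1 : ⁅a₁, z⁆ ∈ Y := hZ z hz hzc a₁ (hXfX ha₁)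
      have h2 : ⁅z, a₁⁆ ∈ Y := by rw [← commutatorElement_inv]; exact Y.inv_mem h1
      exact (Subgroup.mem_centralizer_iff.mp (hYZ h2) a₂ (hXfX ha₂)).symm
  have hqq : ∀ b ∈ B, ∀ x ∈ Xf, ⁅⁅x, b⁆, b⁆ = 1 := by
    intro b hb x hx
    rw [commutatorElement_eq_one_iff_commute, ← commutatorElement_inv]
    exact (hq b hb x hx b hb).inv_left
  -- the subgroup generated by the `N₀`-conjugates of `B`
  obtain ⟨Γ, hΓ⟩ : ∃ Γ : Set G, Γ = {g : G | ∃ n ∈ N₀, ∃ b ∈ B, g = n * b * n⁻¹} := ⟨_, rfl⟩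
  have hΓXf : ∀ g ∈ Γ, ∀ x ∈ Xf, g * x * g⁻¹ ∈ Xf := by
    rw [hΓ]
    rintro _ ⟨n, hn, b, hb, rfl⟩ x hx
    have h1 := hf4 n⁻¹ (N₀.inv_mem hn) x hx
    have h2 := hf3 b hb _ h1
    have h3 := hf4 n hn _ h2
    have e : n * b * n⁻¹ * x * (n * b * n⁻¹)⁻¹ = n * (b * (n⁻¹ * x * n⁻¹⁻¹) * b⁻¹) * n⁻¹ := by
      group
    rw [e]; exact h3
  have hL1 : ∀ u ∈ Subgroup.closure Γ, (orderOf u).Coprime p →
      ∀ x ∈ Xf, ⁅x, u⁆ ∈ (⊥ : Subgroup G) := by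
    refine sec_ps_q hQ ⊥ Xf (hXp.to_le hXfX) Γ ?_ ?_
    · intro g hg
      exact mem_normalizer_of_forall_conj Xf g (hΓXf g hg)
    · rw [hΓ]
      rintro _ ⟨n, hn, b, hb, rfl⟩ x hx
      have hx' : n⁻¹ * x * n ∈ Xf := by
        have := hf4 n⁻¹ (N₀.inv_mem hn) x hx
        simpa using this
      rw [comm_comm_conj, hqq b hb _ hx']
      simp
  obtain ⟨U, hU⟩ : ∃ U : Set G,
      U = {u | u ∈ Subgroup.closure Γ ∧ (orderOf u).Coprime p} := ⟨_, rfl⟩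
  obtain ⟨D, hD⟩ : ∃ D : Subgroup G, D = X ⊓ Subgroup.centralizer U := ⟨_, rfl⟩
  have hXfD : Xf ≤ D := by
    intro x hx
    rw [hD]
    refine ⟨hXfX hx, Subgroup.mem_centralizer_iff.mpr ?_⟩
    intro u hu
    rw [hU] at hu
    have h1 := hL1 u hu.1 hu.2 x hx
    rw [Subgroup.mem_bot, commutatorElement_eq_one_iff_commute] at h1
    exact h1.eq.symm
  have hΓN : ∀ n ∈ N₀, ∀ y ∈ Γ, n * y * n⁻¹ ∈ Γ := by
    rw [hΓ]
    rintro n hn _ ⟨n', hn', b, hb, rfl⟩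
    exact ⟨n * n', N₀.mul_mem hn hn', b, hb, by group⟩
  have hΓB : ∀ c ∈ B, ∀ y ∈ Γ, c * y * c⁻¹ ∈ Γ := by
    rw [hΓ]
    rintro c hc _ ⟨n', hn', b, hb, rfl⟩
    exact ⟨c * n' * c⁻¹, hN₀n.conj_mem n' hn' c, c * b * c⁻¹,
      B.mul_mem (B.mul_mem hc hb) (B.inv_mem hc), by group⟩
  have hDinv : ∀ g : G, (∀ y ∈ Γ, g⁻¹ * y * g⁻¹⁻¹ ∈ Γ) → ∀ d ∈ D, g * d * g⁻¹ ∈ D := by
    intro g hg d hd
    rw [hD] at hd ⊢
    refine ⟨hXn.conj_mem d hd.1 g, Subgroup.mem_centralizer_iff.mpr ?_⟩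
    intro u hu
    rw [hU] at hu
    have hu' : g⁻¹ * u * g⁻¹⁻¹ ∈ U := by
      rw [hU]
      exact ⟨closure_conj_mem Γ g⁻¹ hg u hu.1, by rw [orderOf_conj']; exact hu.2⟩
    have h1 := Subgroup.mem_centralizer_iff.mp hd.2 _ hu'
    calc u * (g * d * g⁻¹) = g * ((g⁻¹ * u * g⁻¹⁻¹) * d) * g⁻¹ := by group
      _ = g * (d * (g⁻¹ * u * g⁻¹⁻¹)) * g⁻¹ := by rw [h1]
      _ = (g * d * g⁻¹) * u := by group
  have hDN : ∀ n ∈ N₀, ∀ d ∈ D, n * d * n⁻¹ ∈ D := fun n hn =>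
    hDinv n (hΓN n⁻¹ (N₀.inv_mem hn))
  have hDB : ∀ c ∈ B, ∀ d ∈ D, c * d * c⁻¹ ∈ D := fun c hc =>
    hDinv c (hΓB c⁻¹ (B.inv_mem hc))
  have hDX : ∀ x ∈ X, ∀ d ∈ D, x * d * x⁻¹ ∈ D := by
    intro x hx d hd
    have hdX : d ∈ X := by rw [hD] at hd; exact hd.1
    have e : x * d * x⁻¹ = ⁅x, d⁆ * d := by simp [commutatorElement_def]
    rw [e]
    exact D.mul_mem (hXfD (hYXf (hXXY x hx d hdX))) hd
  have hΓD : ∀ g ∈ Γ, ∀ d ∈ D, g * d * g⁻¹ ∈ D := by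
    rw [hΓ]
    rintro _ ⟨n, hn, b, hb, rfl⟩ d hd
    have h1 := hDN n⁻¹ (N₀.inv_mem hn) d hd
    have h2 := hDB b hb _ h1
    have h3 := hDN n hn _ h2
    have e : n * b * n⁻¹ * d * (n * b * n⁻¹)⁻¹ = n * (b * (n⁻¹ * d * n⁻¹⁻¹) * b⁻¹) * n⁻¹ := by
      group
    rw [e]; exact h3
  have hΓqD : ∀ g ∈ Γ, ∀ x ∈ X, ⁅⁅x, g⁆, g⁆ ∈ D := by
    rw [hΓ]
    rintro _ ⟨n, hn, b, hb, rfl⟩ x hx
    rw [comm_comm_conj]
    apply hDN n hn
    apply hXfD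
    have hx' : n⁻¹ * x * n ∈ X := by
      have := hXn.conj_mem x hx n⁻¹
      simpa using this
    have hc : ⁅n⁻¹ * x * n, b⁆ ∈ B := commElt_mem_of_conj B hb (hXB _ hx' b hb)
    have hcX : ⁅n⁻¹ * x * n, b⁆ ∈ X := commElt_mem_left_normal X hx' b
    exact hf2 _ (commElt_mem_left_normal X hcX b) (commElt_mem B hc hb)
      (fun b₃ hb₃ => hB2 _ hc b hb b₃ hb₃)
  have hDleX : D ≤ X := by rw [hD]; exact inf_le_left
  have hYD : Y ≤ D := hYXf.trans hXfD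
  have hΓNcl : Subgroup.closure Γ ≤ Subgroup.normalClosure (B : Set G) := by
    rw [Subgroup.closure_le, hΓ]
    rintro _ ⟨n, hn, b, hb, rfl⟩
    exact (Subgroup.normalClosure_normal).conj_mem b (Subgroup.le_normalClosure hb) n
  have hUN₀ : ∀ u ∈ U, u ∈ N₀ := by
    intro u hu
    rw [hU] at hu
    rw [hN₀]
    exact mem_ppGen (hΓNcl hu.1) hu.2
  obtain ⟨P, hYP, hPX, hPN, hPD, hPDX⟩ :=
    exists_inv_complement X Y N₀ D hYX hne hmin hXXY hYD hDleX hDN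
  obtain ⟨K, hK⟩ : ∃ K : Subgroup G, K = Subgroup.closure U := ⟨_, rfl⟩
  have hKN₀ : K ≤ N₀ := by rw [hK, Subgroup.closure_le]; exact hUN₀
  have hXKP : ∀ k ∈ K, ∀ x ∈ X, ⁅x, k⁆ ∈ P := by
    intro k hk
    rw [hK] at hk
    induction hk using Subgroup.closure_induction with
    | mem u hu =>
      intro x hx
      obtain ⟨y, hy, d, hd, rfl⟩ := hPDX x hx
      rw [comm_mul_left']
      have hdu : ⁅d, u⁆ = 1 := by
        rw [commutatorElement_eq_one_iff_commute]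
        rw [hD] at hd
        exact (Subgroup.mem_centralizer_iff.mp hd.2 u hu).symm
      rw [hdu]
      have e : y * 1 * y⁻¹ * ⁅y, u⁆ = y * (u * y⁻¹ * u⁻¹) := by
        simp [commutatorElement_def, mul_assoc]
      rw [e]
      exact P.mul_mem hy (hPN u (hUN₀ u hu) _ (P.inv_mem hy))
    | one =>
      intro x hx
      rw [commutatorElement_one_right]; exact P.one_mem
    | mul a b ha hb iha ihb =>
      intro x hx
      have e : ⁅x, a * b⁆ = ⁅x, a⁆ * (a * ⁅x, b⁆ * a⁻¹) := by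
        simp [commutatorElement_def, mul_assoc]
      rw [e]
      exact P.mul_mem (iha x hx) (hPN a ((Subgroup.closure_le N₀).mpr hUN₀ ha) _ (ihb x hx))
    | inv a ha iha =>
      intro x hx
      have e : ⁅x, a⁻¹⁆ = a⁻¹ * ⁅x, a⁆⁻¹ * a⁻¹⁻¹ := by
        simp [commutatorElement_def, mul_assoc]
      rw [e]
      exact hPN a⁻¹ (N₀.inv_mem ((Subgroup.closure_le N₀).mpr hUN₀ ha)) _
        (P.inv_mem (iha x hx))
  obtain ⟨X₂, hX₂⟩ : ∃ X₂ : Subgroup G, X₂ = ⁅X, K⁆ ⊔ Y := ⟨_, rfl⟩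
  have hX₂P : X₂ ≤ P := by
    rw [hX₂]
    refine sup_le ?_ hYP
    rw [Subgroup.commutator_le]
    exact fun x hx k hk => hXKP k hk x hx
  have hX₂X : X₂ ≤ X := hX₂P.trans hPX
  have hYX₂ : Y ≤ X₂ := by rw [hX₂]; exact le_sup_right
  have hKconj : ∀ g ∈ Subgroup.closure Γ, ∀ k ∈ K, g * k * g⁻¹ ∈ K := by
    intro g hg
    rw [hK]
    apply closure_conj_mem
    intro u hu
    rw [hU] at hu ⊢
    exact ⟨Subgroup.mul_mem _ (Subgroup.mul_mem _ hg hu.1) (Subgroup.inv_mem _ hg),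
      by rw [orderOf_conj']; exact hu.2⟩
  have hX₂conj : ∀ g ∈ Subgroup.closure Γ, ∀ w ∈ X₂, g * w * g⁻¹ ∈ X₂ := by
    intro g hg w hw
    have h1 : X₂.map (MulAut.conj g).toMonoidHom ≤ X₂ := by
      rw [hX₂, Subgroup.map_sup, Subgroup.map_commutator]
      refine sup_le_sup (Subgroup.commutator_mono ?_ ?_) ?_
      · rintro _ ⟨x, hx, rfl⟩
        exact hXn.conj_mem x hx g
      · rintro _ ⟨k, hk, rfl⟩
        exact hKconj g hg k hk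
      · rintro _ ⟨y, hy, rfl⟩
        exact hYn.conj_mem y hy g
    exact h1 ⟨w, hw, rfl⟩
  have hΓX₂ : ∀ g ∈ Γ, g ∈ Subgroup.normalizer (X₂ : Set G) := fun g hg =>
    mem_normalizer_of_forall_conj X₂ g (hX₂conj g (Subgroup.subset_closure hg))
  have hcommX₂ : ∀ g ∈ Γ, ∀ x ∈ X₂, ⁅x, g⁆ ∈ X₂ := by
    intro g hg x hx
    have e : ⁅x, g⁆ = x * (g * x⁻¹ * g⁻¹) := by simp [commutatorElement_def, mul_assoc]
    rw [e]
    exact X₂.mul_mem hx (hX₂conj g (Subgroup.subset_closure hg) _ (X₂.inv_mem hx))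
  have hL2 : ∀ u ∈ Subgroup.closure Γ, (orderOf u).Coprime p → ∀ x ∈ X₂, ⁅x, u⁆ ∈ Y := by
    refine sec_ps_q hQ Y X₂ (hXp.to_le hX₂X) Γ hΓX₂ ?_
    intro g hg x hx
    exact hPD _ (hX₂P (hcommX₂ g hg _ (hcommX₂ g hg x hx))) (hΓqD g hg x (hX₂X hx))
  have hL3 : ∀ u ∈ Subgroup.closure Γ, (orderOf u).Coprime p →
      u ∈ Subgroup.centralizer (X : Set G) := by
    intro u hu hc
    have huU : u ∈ U := by rw [hU]; exact ⟨hu, hc⟩
    have huN₀ : u ∈ N₀ := hUN₀ u huU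
    have huK : u ∈ K := by rw [hK]; exact Subgroup.subset_closure huU
    rw [Subgroup.mem_centralizer_iff]
    intro x hx
    have h1 : ⁅x, u⁆ ∈ X₂ := by
      rw [hX₂]
      exact (le_sup_left : ⁅X, K⁆ ≤ ⁅X, K⁆ ⊔ Y) (Subgroup.commutator_mem_commutator hx huK)
    have h2 : ⁅⁅x, u⁆, u⁆ ∈ Y := hL2 u hu hc _ h1
    have h3 : Commute ⁅⁅x, u⁆, u⁆ u :=
      (Subgroup.mem_centralizer_iff.mp (hYN h2) u huN₀).symm
    have h4 : ⁅⁅x, u⁆, u⁆ = 1 := by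
      apply comm_eq_one_of_coprime (p := p) _ hc h3
      obtain ⟨k, hk⟩ := hXp ⟨_, hYX h2⟩
      exact ⟨k, congrArg Subtype.val hk⟩
    have h5 : Commute ⁅x, u⁆ u := commutatorElement_eq_one_iff_commute.mp h4
    have h6 : ⁅x, u⁆ = 1 := by
      apply comm_eq_one_of_coprime (p := p) _ hc h5
      obtain ⟨k, hk⟩ := hXp ⟨_, commElt_mem_left_normal X hx u⟩
      exact ⟨k, congrArg Subtype.val hk⟩
    rw [commutatorElement_eq_one_iff_commute] at h6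
    exact h6.eq
  apply ending B X hBp
  intro u hu hc
  refine hL3 u ?_ hc
  rw [hΓ, hN₀]; exact hu

end lowerq

end Cfsg.Agent.Lib.helper10
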