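import Cfsg.Agent.Lib.helper10.KQ2

set_option autoImplicit false

namespace Cfsg.Agent.Lib.helper10

open Cfsg
open scoped commutatorElement

universe u

section kseqq
variable {G : Type u} [Group G] [Finite G] {p : ℕ} [Fact p.Prime]

/-- In a constrained group all of whose quotients are `p`-stable, every term of nonnegative index
of the K-sequence of a Sylow `p`-subgroup lies in `O_p(G)`. -/
theorem kseq_le_pcore_q
    (hQ : ∀ (N : Subgroup G) [N.Normal], IsNormalizerPStable p (G ⧸ N))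
    (hC : Subgroup.centralizer ((pCore p G : Subgroup G) : Set G) ≤ pCore p G) (S : Sylow p G) :
    ∀ n : ℕ, kSeqEven ↥(S : Subgroup G) n ≤ (pCore p G).subgroupOf (S : Subgroup G) ∧
      kSeqOdd ↥(S : Subgroup G) (n + 1) ≤ (pCore p G).subgroupOf (S : Subgroup G) := by
  classical
  obtain ⟨T, hT⟩ : ∃ T : Subgroup G, T = pCore p G := ⟨_, rfl⟩
  have hTn : T.Normal := by rw [hT]; exact Cfsg.Agent.Lib.helper14.pCore_normal' p G
  have hTp : IsPGroup p T := by rw [hT]; exact Cfsg.Agent.Lib.helper14.isPGroup_pCore p G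
  have hSp : IsPGroup p (S : Subgroup G) := S.2
  have hTS : T ≤ (S : Subgroup G) := hTp.le_sylow_of_normal S
  rw [← hT]
  -- common facts for a minimal `X`
  have hXfacts : ∀ (X Y : Subgroup G), X.Normal → Y.Normal → Y ≤ X → Y ≠ X → X ≤ T →
      (∀ X₁ : Subgroup G, X₁.Normal → X₁ ≤ X → X₁ ≠ X → X₁ ≤ Y) →
      Y ≤ Subgroup.centralizer (X : Set G) →
      IsPGroup p X ∧ (∀ x ∈ X, ∀ a ∈ X, ⁅x, a⁆ ∈ Y) ∧ (∀ t ∈ T, ∀ x ∈ X, ⁅x, t⁆ ∈ Y) := by
    intro X Y hXn hYn hYX hne hXT hmin hYZ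
    have hXp : IsPGroup p X := hTp.to_le hXT
    exact ⟨hXp, fun x hx a ha => normal_p_comm X Y X hXp hYX hne hmin hXp a ha x hx,
      normal_p_comm X Y T hXp hYX hne hmin hTp⟩
  intro n
  induction n using Nat.strong_induction_on with
  | _ n ih =>
  -- the even term
  have heven : kSeqEven ↥(S : Subgroup G) n ≤ T.subgroupOf (S : Subgroup G) := by
    by_contra hcon
    obtain ⟨B₀, hB₀, hB₀T⟩ : ∃ B₀ ∈ kLowerStarFamily (kSeqOdd ↥(S : Subgroup G) n),
        ¬ B₀ ≤ T.subgroupOf (S : Subgroup G) := by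
      by_contra h
      push Not at h
      exact hcon (sSup_le h)
    obtain ⟨B, hB⟩ : ∃ B : Subgroup G, B = B₀.map (S : Subgroup G).subtype := ⟨_, rfl⟩
    have hBmem : ∀ b : G, b ∈ B ↔ ∃ hb : b ∈ (S : Subgroup G), (⟨b, hb⟩ : ↥(S : Subgroup G)) ∈ B₀ := by
      intro b
      rw [hB]
      constructor
      · rintro ⟨s, hs, rfl⟩; exact ⟨s.2, hs⟩
      · rintro ⟨hb, hs⟩; exact ⟨⟨b, hb⟩, hs, rfl⟩
    have hBS : B ≤ (S : Subgroup G) := fun b hb => ((hBmem b).mp hb).1
    have hBp : IsPGroup p B := hSp.to_le hBS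
    have hBT : ¬ B ≤ pCore p G := by
      rw [← hT]
      intro hle
      apply hB₀T
      intro s hs
      exact hle ((hBmem _).mpr ⟨s.2, hs⟩)
    obtain ⟨X, Y, hXn, hYn, hYX, hne, hXT, hmin, hYN, hXN, hYZ⟩ := exists_minX hC B hBT
    rw [← hT] at hXT
    obtain ⟨hXp, hXXY, hXTY⟩ := hXfacts X Y hXn hYn hYX hne hXT hmin hYZ
    have hXS : X ≤ (S : Subgroup G) := hXT.trans (hTp.le_sylow_of_normal S)
    have hXX : ∀ x ∈ X, ∀ a ∈ X, ⁅x, a⁆ ∈ Subgroup.centralizer (X : Set G) :=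
      fun x hx a ha => hYZ (hXXY x hx a ha)
    -- `X₀ ≤ Q`
    have hXQ : X.subgroupOf (S : Subgroup G) ≤ kSeqOdd ↥(S : Subgroup G) n := by
      cases n with
      | zero => exact le_top
      | succ m =>
        have h1 : X.subgroupOf (S : Subgroup G) ∈
            kUpperStarFamily (kSeqEven ↥(S : Subgroup G) m) :=
          ⟨classTwo_subgroupOf _ X hXX,
            (Subgroup.commutator_mono le_rfl (ih m (Nat.lt_succ_self m)).1).trans
              (comm_subgroupOf_le _ X T Y hYX hYZ hXTY)⟩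
        exact le_sSup h1
    apply hXN
    refine lower_contra_q hQ B X Y hBp hXp hYX hne hmin hYN hYZ ?_ ?_ ?_
    · -- class two
      intro b₁ hb₁ b₂ hb₂ b₃ hb₃
      obtain ⟨h1, h1'⟩ := (hBmem b₁).mp hb₁
      obtain ⟨h2, h2'⟩ := (hBmem b₂).mp hb₂
      obtain ⟨h3, h3'⟩ := (hBmem b₃).mp hb₃
      have h4 := hB₀.1 (Subgroup.commutator_mem_commutator h1' h2')
      have h5 := Subgroup.mem_centralizer_iff.mp h4 _ h3'
      exact (congrArg Subtype.val h5).symm
    · -- `X` normalizes `B`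
      intro x hx b hb
      obtain ⟨h1, h1'⟩ := (hBmem b).mp hb
      have h2 : (⟨x, hXS hx⟩ : ↥(S : Subgroup G)) ∈ Subgroup.normalizer (B₀ : Set ↥(S : Subgroup G)) :=
        hB₀.2.1 (hXQ (Subgroup.mem_subgroupOf.mpr hx))
      have h3 := (Subgroup.mem_normalizer_iff.mp h2 _).mp h1'
      exact (hBmem _).mpr ⟨_, h3⟩
    · -- the test property
      intro A hAX hAB hα hβ
      have hAS : A ≤ (S : Subgroup G) := hAX.trans hXS
      have htest := hB₀.2.2 (A.subgroupOf (S : Subgroup G))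
        (classTwo_subgroupOf _ A (fun x hx a ha => by
          have h1 := hXX x (hAX hx) a (hAX ha)
          exact Subgroup.centralizer_le (by exact_mod_cast hAX) h1))
        ((show A.subgroupOf (S : Subgroup G) ≤ X.subgroupOf (S : Subgroup G) from
          fun s hs => Subgroup.mem_subgroupOf.mpr (hAX (Subgroup.mem_subgroupOf.mp hs))).trans hXQ)
        (by
          intro b hb
          apply mem_normalizer_of_forall_conj
          intro w hw
          exact hAB (b : G) ((hBmem _).mpr ⟨b.2, hb⟩) (w : G) hw)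
        (by
          rw [Subgroup.commutator_eq_bot_iff_le_centralizer, Subgroup.le_centralizer_iff,
            Subgroup.commutator_le]
          intro a₁ ha₁ a₂ ha₂
          rw [Subgroup.mem_centralizer_iff]
          intro b hb
          apply Subtype.ext
          exact ((hα (a₁ : G) ha₁ (a₂ : G) ha₂ (b : G) ((hBmem _).mpr ⟨b.2, hb⟩)).eq).symm)
        (by
          rw [Subgroup.commutator_eq_bot_iff_le_centralizer, Subgroup.commutator_le]
          rintro z ⟨hz, hzc⟩ a₁ ha₁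
          rw [Subgroup.mem_centralizer_iff]
          intro a₂ ha₂
          apply Subtype.ext
          refine ((hβ (z : G) ((hBmem _).mpr ⟨z.2, hz⟩) ?_ (a₁ : G) ha₁ (a₂ : G) ha₂).eq).symm
          intro b hb
          obtain ⟨h1, h1'⟩ := (hBmem b).mp hb
          have h2 := Subgroup.mem_centralizer_iff.mp hzc _ h1'
          exact (congrArg Subtype.val h2).symm)
      intro b hb a ha b' hb'
      obtain ⟨h1, h1'⟩ := (hBmem b).mp hb
      obtain ⟨h2, h2'⟩ := (hBmem b').mp hb'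
      have h3 := htest (Subgroup.commutator_mem_commutator h1'
        (Subgroup.mem_subgroupOf.mpr (show ((⟨a, hAS ha⟩ : ↥(S : Subgroup G)) : G) ∈ A from ha)))
      have h4 := Subgroup.mem_centralizer_iff.mp h3.2 _ h2'
      exact (congrArg Subtype.val h4).symm
  refine ⟨heven, ?_⟩
  -- the odd term
  apply sSup_le
  intro B₀ hB₀
  by_contra hB₀T
  obtain ⟨B, hB⟩ : ∃ B : Subgroup G, B = B₀.map (S : Subgroup G).subtype := ⟨_, rfl⟩
  have hBmem : ∀ b : G, b ∈ B ↔ ∃ hb : b ∈ (S : Subgroup G), (⟨b, hb⟩ : ↥(S : Subgroup G)) ∈ B₀ := by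
    intro b
    rw [hB]
    constructor
    · rintro ⟨s, hs, rfl⟩; exact ⟨s.2, hs⟩
    · rintro ⟨hb, hs⟩; exact ⟨⟨b, hb⟩, hs, rfl⟩
  have hBS : B ≤ (S : Subgroup G) := fun b hb => ((hBmem b).mp hb).1
  have hBp : IsPGroup p B := hSp.to_le hBS
  have hBT : ¬ B ≤ pCore p G := by
    rw [← hT]
    intro hle
    apply hB₀T
    intro s hs
    exact hle ((hBmem _).mpr ⟨s.2, hs⟩)
  obtain ⟨X, Y, hXn, hYn, hYX, hne, hXT, hmin, hYN, hXN, hYZ⟩ := exists_minX hC B hBT
  rw [← hT] at hXT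
  obtain ⟨hXp, hXXY, hXTY⟩ := hXfacts X Y hXn hYn hYX hne hXT hmin hYZ
  have hXS : X ≤ (S : Subgroup G) := hXT.trans hTS
  have hXX : ∀ x ∈ X, ∀ a ∈ X, ⁅x, a⁆ ∈ Subgroup.centralizer (X : Set G) :=
    fun x hx a ha => hYZ (hXXY x hx a ha)
  apply hXN
  by_cases hXE : X.subgroupOf (S : Subgroup G) ≤ kSeqEven ↥(S : Subgroup G) n
  · -- `B` acts quadratically on `X`
    refine quad_contra_q hQ B X hXp ?_
    intro b hb x hx
    obtain ⟨h1, h1'⟩ := (hBmem b).mp hb
    have h2 := hB₀.2 (Subgroup.commutator_mem_commutator h1'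
      (hXE (Subgroup.mem_subgroupOf.mpr
        (show ((⟨x, hXS hx⟩ : ↥(S : Subgroup G)) : G) ∈ X from hx))))
    have h3 := Subgroup.mem_centralizer_iff.mp h2.2 _ h1'
    have h4 : b * ⁅b, x⁆ = ⁅b, x⁆ * b := congrArg Subtype.val h3
    rw [commutatorElement_eq_one_iff_commute]
    have h5 : ⁅x, b⁆ = ⁅b, x⁆⁻¹ := (commutatorElement_inv b x).symm
    rw [h5]
    exact Commute.inv_left (show Commute ⁅b, x⁆ b from h4.symm)
  · -- a witness against `X₀` being in the lower star family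
    have hXnotin : X.subgroupOf (S : Subgroup G) ∉
        kLowerStarFamily (kSeqOdd ↥(S : Subgroup G) n) := fun h => hXE (le_sSup h)
    have hcl : X.subgroupOf (S : Subgroup G) ∈ classTwoSubgroups ↥(S : Subgroup G) :=
      classTwo_subgroupOf _ X hXX
    have hnorm : kSeqOdd ↥(S : Subgroup G) n ≤
        Subgroup.normalizer ((X.subgroupOf (S : Subgroup G) : Subgroup ↥(S : Subgroup G)) :
          Set ↥(S : Subgroup G)) := by
      intro s _
      have hXSn : (X.subgroupOf (S : Subgroup G)).Normal := inferInstance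
      rw [Subgroup.normalizer_eq_top_iff.mpr hXSn]
      exact Subgroup.mem_top _
    obtain ⟨A₀, hA₀cl, hA₀Q, hXA₀, hα, hβ, hnot⟩ : ∃ A₀ ∈ classTwoSubgroups ↥(S : Subgroup G),
        A₀ ≤ kSeqOdd ↥(S : Subgroup G) n ∧
        X.subgroupOf (S : Subgroup G) ≤ Subgroup.normalizer (A₀ : Set ↥(S : Subgroup G)) ∧
        ⁅X.subgroupOf (S : Subgroup G), ⁅A₀, A₀⁆⁆ = ⊥ ∧
        ⁅⁅X.subgroupOf (S : Subgroup G) ⊓ Subgroup.centralizer
          ((X.subgroupOf (S : Subgroup G) : Subgroup ↥(S : Subgroup G)) :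
            Set ↥(S : Subgroup G)), A₀⁆, A₀⁆ = ⊥ ∧
        ¬ ⁅X.subgroupOf (S : Subgroup G), A₀⁆ ≤ X.subgroupOf (S : Subgroup G) ⊓
          Subgroup.centralizer ((X.subgroupOf (S : Subgroup G) : Subgroup ↥(S : Subgroup G)) :
            Set ↥(S : Subgroup G)) := by
      by_contra h
      push Not at h
      exact hXnotin ⟨hcl, hnorm, fun A hA hAQ hXA h1 h2 => h A hA hAQ hXA h1 h2⟩
    exfalso
    apply hnot
    cases n with
    | zero =>
      obtain ⟨B₂, hB₂⟩ : ∃ B₂ : Subgroup G, B₂ = A₀.map (S : Subgroup G).subtype := ⟨_, rfl⟩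
      have hB₂mem : ∀ b : G, b ∈ B₂ ↔
          ∃ hb : b ∈ (S : Subgroup G), (⟨b, hb⟩ : ↥(S : Subgroup G)) ∈ A₀ := by
        intro b
        rw [hB₂]
        constructor
        · rintro ⟨s, hs, rfl⟩; exact ⟨s.2, hs⟩
        · rintro ⟨hb, hs⟩; exact ⟨⟨b, hb⟩, hs, rfl⟩
      have hq : ∀ b ∈ B₂, ∀ x ∈ X, ⁅⁅x, b⁆, b⁆ ∈ Y := by
        intro b hb x hx
        obtain ⟨h1, h1'⟩ := (hB₂mem b).mp hb
        have hxs : (⟨x, hXS hx⟩ : ↥(S : Subgroup G)) ∈ X.subgroupOf (S : Subgroup G) :=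
          Subgroup.mem_subgroupOf.mpr hx
        have h2 : ⁅(⟨x, hXS hx⟩ : ↥(S : Subgroup G)), (⟨b, h1⟩ : ↥(S : Subgroup G))⁆ ∈ A₀ :=
          commElt_mem_of_conj A₀ h1' ((Subgroup.mem_normalizer_iff.mp (hXA₀ hxs) _).mp h1')
        have hd : ⁅⁅(⟨x, hXS hx⟩ : ↥(S : Subgroup G)), (⟨b, h1⟩ : ↥(S : Subgroup G))⁆,
            (⟨b, h1⟩ : ↥(S : Subgroup G))⁆ ∈ ⁅A₀, A₀⁆ :=
          Subgroup.commutator_mem_commutator h2 h1'
        have hdX : ⁅⁅x, b⁆, b⁆ ∈ X :=
          commElt_mem_left_normal X (commElt_mem_left_normal X hx b) b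
        by_cases hZ : X ⊓ Subgroup.centralizer (X : Set G) = X
        · -- `X` abelian
          have hxz : (⟨x, hXS hx⟩ : ↥(S : Subgroup G)) ∈ X.subgroupOf (S : Subgroup G) ⊓
              Subgroup.centralizer ((X.subgroupOf (S : Subgroup G) : Subgroup ↥(S : Subgroup G)) :
                Set ↥(S : Subgroup G)) := by
            refine ⟨hxs, Subgroup.mem_centralizer_iff.mpr ?_⟩
            intro c hc
            apply Subtype.ext
            have h3' : x ∈ X ⊓ Subgroup.centralizer (X : Set G) := by rw [hZ]; exact hx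
            have h3 : x ∈ Subgroup.centralizer (X : Set G) := h3'.2
            exact Subgroup.mem_centralizer_iff.mp h3 (c : G) hc
          have h4 : ⁅⁅(⟨x, hXS hx⟩ : ↥(S : Subgroup G)), (⟨b, h1⟩ : ↥(S : Subgroup G))⁆,
              (⟨b, h1⟩ : ↥(S : Subgroup G))⁆ ∈ (⊥ : Subgroup ↥(S : Subgroup G)) := by
            rw [← hβ]
            exact Subgroup.commutator_mem_commutator
              (Subgroup.commutator_mem_commutator hxz h1') h1'
          have h5 : ⁅⁅x, b⁆, b⁆ = 1 := congrArg Subtype.val (Subgroup.mem_bot.mp h4)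
          rw [h5]
          exact Y.one_mem
        · -- `Z(X) ≤ Y`
          have hZn : (X ⊓ Subgroup.centralizer (X : Set G)).Normal := inferInstance
          have hZY := hmin _ hZn inf_le_left hZ
          apply hZY
          refine ⟨hdX, Subgroup.mem_centralizer_iff.mpr ?_⟩
          intro y hy
          have h3 : (⟨y, hXS hy⟩ : ↥(S : Subgroup G)) ∈ X.subgroupOf (S : Subgroup G) :=
            Subgroup.mem_subgroupOf.mpr hy
          have h4 : ⁅(⟨y, hXS hy⟩ : ↥(S : Subgroup G)),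
              ⁅⁅(⟨x, hXS hx⟩ : ↥(S : Subgroup G)), (⟨b, h1⟩ : ↥(S : Subgroup G))⁆,
                (⟨b, h1⟩ : ↥(S : Subgroup G))⁆⁆ ∈ (⊥ : Subgroup ↥(S : Subgroup G)) := by
            rw [← hα]
            exact Subgroup.commutator_mem_commutator h3 hd
          have h5 := commutatorElement_eq_one_iff_commute.mp (Subgroup.mem_bot.mp h4)
          exact congrArg Subtype.val h5.eq
      have hnp := quad_np_q hQ B₂ X Y hXp hYX hne hmin hq
      rw [Subgroup.commutator_le]
      intro x hx a ha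
      have h1 : ⁅(x : G), (a : G)⁆ ∈ Y :=
        hnp (a : G) ((hB₂mem _).mpr ⟨a.2, ha⟩) (x : G) (Subgroup.mem_subgroupOf.mp hx)
      refine ⟨hYX h1, Subgroup.mem_centralizer_iff.mpr ?_⟩
      intro c hc
      apply Subtype.ext
      exact Subgroup.mem_centralizer_iff.mp (hYZ h1) c hc
    | succ m =>
      have hA₀T : A₀ ≤ T.subgroupOf (S : Subgroup G) :=
        hA₀Q.trans (ih m (Nat.lt_succ_self m)).2
      exact (Subgroup.commutator_mono le_rfl hA₀T).trans
        (comm_subgroupOf_le _ X T Y hYX hYZ hXTY)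

end kseqq

end Cfsg.Agent.Lib.helper10
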