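import Cfsg.Agent.Lib.helper10.KStab6
import Cfsg.Agent.Lib.helper10.KTransfer

set_option autoImplicit false

namespace Cfsg.Agent.Lib.helper10

open Cfsg
open scoped commutatorElement

section ksub
variable {Q : Type*} [Group Q]

/-- The cubic lemma for the K-sequence in terms of commutators of subgroups. -/
theorem kinf_exists_cubic_sub (P' A : Subgroup Q) [hAn : A.Normal]
    (hA2 : A ∈ classTwoSubgroups Q)
    (hPA : ⁅A, P'⁆ ≤ A ⊓ Subgroup.centralizer (A : Set Q))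
    (h : ¬ ∀ n : ℕ, kSeqEven Q n ≤ P' ∧ kSeqOdd Q (n + 1) ≤ P') :
    ∃ B : Subgroup Q, ¬ B ≤ P' ∧
      ⁅⁅A ⊓ Subgroup.centralizer (A : Set Q), B⁆, B⁆ = ⊥ ∧
      ⁅⁅⁅A, B⁆, B⁆, B⁆ ≤ A ⊓ Subgroup.centralizer (A : Set Q) := by
  classical
  obtain ⟨Zc, hZc⟩ : ∃ Zc : Subgroup Q, Zc = A ⊓ Subgroup.centralizer (A : Set Q) := ⟨_, rfl⟩
  rw [← hZc] at hPA ⊢
  have hZcn : Zc.Normal := by rw [hZc]; infer_instance
  have hZcA : Zc ≤ A := by rw [hZc]; exact inf_le_left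
  have hZcC : Zc ≤ Subgroup.centralizer (A : Set Q) := by rw [hZc]; exact inf_le_right
  have hZcomm : IsMulCommutative ↥Zc := by
    refine ⟨⟨fun a b => ?_⟩⟩
    apply Subtype.ext
    exact (Subgroup.mem_centralizer_iff.mp (hZcC b.2) a (hZcA a.2))
  have hZZ : ⁅Zc, Zc⁆ = ⊥ := abelian_commutator_eq_bot Zc hZcomm
  have hex : ∃ n : ℕ, ¬ (kSeqEven Q n ≤ P' ∧ kSeqOdd Q (n + 1) ≤ P') := not_forall.mp h
  obtain ⟨n, hn, hmin⟩ : ∃ n : ℕ, ¬ (kSeqEven Q n ≤ P' ∧ kSeqOdd Q (n + 1) ≤ P') ∧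
      ∀ m < n, kSeqEven Q m ≤ P' ∧ kSeqOdd Q (m + 1) ≤ P' :=
    ⟨Nat.find hex, Nat.find_spec hex, fun m hm => not_not.mp (Nat.find_min hex hm)⟩
  have hAodd : A ≤ kSeqOdd Q n := by
    cases n with
    | zero => exact le_top
    | succ m =>
      have h1 : A ∈ kUpperStarFamily (kSeqEven Q m) :=
        ⟨hA2, (Subgroup.commutator_mono le_rfl (hmin m (Nat.lt_succ_self m)).1).trans
          (by rw [← hZc]; exact hPA)⟩
      exact le_sSup h1
  by_cases he : kSeqEven Q n ≤ P'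
  · have ho : ¬ kSeqOdd Q (n + 1) ≤ P' := fun h' => hn ⟨he, h'⟩
    have hexB : ∃ B ∈ kUpperStarFamily (kSeqEven Q n), ¬ B ≤ P' := by
      by_contra hcon
      push Not at hcon
      apply ho
      show sSup (kUpperStarFamily (kSeqEven Q n)) ≤ P'
      exact sSup_le hcon
    obtain ⟨B, hB, hBP⟩ := hexB
    by_cases hAe : A ≤ kSeqEven Q n
    · have h1 : ⁅A, B⁆ ≤ Subgroup.centralizer (B : Set Q) := by
        rw [Subgroup.commutator_comm]
        exact (Subgroup.commutator_mono le_rfl hAe).trans (hB.2.trans inf_le_right)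
      have h2 : ⁅⁅A, B⁆, B⁆ = ⊥ := Subgroup.commutator_eq_bot_iff_le_centralizer.mpr h1
      refine ⟨B, hBP, ?_, ?_⟩
      · rw [eq_bot_iff, ← h2]
        exact Subgroup.commutator_mono (Subgroup.commutator_mono hZcA le_rfl) le_rfl
      · rw [h2, Subgroup.commutator_bot_left]; exact bot_le
    · have hAnot : A ∉ kLowerStarFamily (kSeqOdd Q n) := fun hmem => hAe (le_sSup hmem)
      have hexA : ∃ A₁ : Subgroup Q, A₁ ∈ classTwoSubgroups Q ∧ A₁ ≤ kSeqOdd Q n ∧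
          A ≤ Subgroup.normalizer (A₁ : Set Q) ∧ ⁅A, ⁅A₁, A₁⁆⁆ = ⊥ ∧
          ⁅⁅A ⊓ Subgroup.centralizer (A : Set Q), A₁⁆, A₁⁆ = ⊥ ∧
          ¬ ⁅A, A₁⁆ ≤ A ⊓ Subgroup.centralizer (A : Set Q) := by
        by_contra hcon
        apply hAnot
        refine ⟨hA2, ?_, ?_⟩
        · rw [Subgroup.normalizer_eq_top_iff.mpr hAn]; exact le_top
        · intro A₁ h1 h2 h3 h4 h5
          by_contra h6
          exact hcon ⟨A₁, h1, h2, h3, h4, h5, h6⟩
      obtain ⟨A₁, hA₁2, hA₁odd, hAN, hAA₁, hZA₁, hnot⟩ := hexA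
      rw [← hZc] at hZA₁ hnot
      have hA₁P : ¬ A₁ ≤ P' := fun hle => hnot ((Subgroup.commutator_mono le_rfl hle).trans hPA)
      have hA₁cent : ⁅A₁, A₁⁆ ≤ Subgroup.centralizer (A : Set Q) := by
        have h1 := Subgroup.commutator_eq_bot_iff_le_centralizer.mp hAA₁
        intro m hm
        rw [Subgroup.mem_centralizer_iff]
        intro a ha
        exact ((Subgroup.mem_centralizer_iff.mp (h1 ha)) m hm).symm
      refine ⟨A₁, hA₁P, hZA₁, ?_⟩
      have h1 : ⁅A, A₁⁆ ≤ A₁ := by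
        rw [Subgroup.commutator_le]
        intro a ha b hb
        rw [← commutatorElement_inv]
        exact A₁.inv_mem (comm_mem_of_mem_normalizer A₁ hb (hAN ha))
      have h2 : ⁅⁅A, A₁⁆, A₁⁆ ≤ Zc := by
        rw [hZc]
        refine le_inf ?_ ?_
        · exact (Subgroup.commutator_mono (Subgroup.commutator_le_left A A₁) le_rfl).trans
            (Subgroup.commutator_le_left A A₁)
        · exact (Subgroup.commutator_mono h1 le_rfl).trans hA₁cent
      exact (Subgroup.commutator_mono h2 le_rfl).trans (Subgroup.commutator_le_left Zc A₁)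
  · have hexB : ∃ B ∈ kLowerStarFamily (kSeqOdd Q n), ¬ B ≤ P' := by
      by_contra hcon
      push Not at hcon
      apply he
      show sSup (kLowerStarFamily (kSeqOdd Q n)) ≤ P'
      exact sSup_le hcon
    obtain ⟨B, hB, hBP⟩ := hexB
    have hBZ : ⁅B, Zc⁆ ≤ B ⊓ Subgroup.centralizer (B : Set Q) := by
      refine hB.2.2 Zc (normal_abelian_mem_classTwo Zc hZcomm) (hZcA.trans hAodd) ?_ ?_ ?_
      · rw [Subgroup.normalizer_eq_top_iff.mpr hZcn]; exact le_top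
      · rw [hZZ]; exact Subgroup.commutator_bot_right B
      · rw [eq_bot_iff, ← hZZ]
        exact Subgroup.commutator_mono (Subgroup.commutator_le_right _ Zc) le_rfl
    refine ⟨B, hBP, ?_, ?_⟩
    · rw [Subgroup.commutator_eq_bot_iff_le_centralizer, Subgroup.commutator_comm]
      exact hBZ.trans inf_le_right
    · have h1 : ⁅A, B⁆ ≤ B := by
        rw [Subgroup.commutator_le]
        intro a ha b hb
        rw [← commutatorElement_inv]
        exact B.inv_mem (comm_mem_of_mem_normalizer B hb (hB.2.1 (hAodd ha)))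
      have h2 : ⁅⁅A, B⁆, B⁆ ≤ Subgroup.centralizer (B : Set Q) :=
        (Subgroup.commutator_mono h1 le_rfl).trans hB.1
      rw [Subgroup.commutator_eq_bot_iff_le_centralizer.mpr h2]
      exact bot_le

end ksub

section three
variable {G : Type*} [Group G]

theorem le_normalizer_of_conj_mem (H N : Subgroup G)
    (h : ∀ t ∈ H, ∀ m ∈ N, t * m * t⁻¹ ∈ N) : H ≤ Subgroup.normalizer (N : Set G) := by
  intro t ht
  rw [Subgroup.mem_normalizer_iff]
  intro m
  refine ⟨h t ht m, fun hm => ?_⟩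
  have h1 := h t⁻¹ (H.inv_mem ht) _ hm
  have e : t⁻¹ * (t * m * t⁻¹) * t⁻¹⁻¹ = m := by group
  rwa [e] at h1

/-- The three subgroups lemma modulo a subgroup normalized by the three subgroups. -/
theorem three_sub_norm (H₁ H₂ H₃ N : Subgroup G)
    (h1n : H₁ ≤ Subgroup.normalizer (N : Set G)) (h2n : H₂ ≤ Subgroup.normalizer (N : Set G))
    (h3n : H₃ ≤ Subgroup.normalizer (N : Set G))
    (hA : ⁅⁅H₂, H₃⁆, H₁⁆ ≤ N) (hB : ⁅⁅H₃, H₁⁆, H₂⁆ ≤ N) : ⁅⁅H₁, H₂⁆, H₃⁆ ≤ N := by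
  have c1 : ∀ g ∈ Subgroup.normalizer (N : Set G), ∀ n ∈ N, g * n * g⁻¹ ∈ N :=
    fun g hg n hn => (Subgroup.mem_normalizer_iff.mp hg n).mp hn
  have key : ∀ x ∈ H₁, ∀ y ∈ H₂, ∀ z ∈ H₃, ⁅z, ⁅x, y⁆⁆ ∈ N := by
    intro x hx y hy z hz
    have e : ⁅z, ⁅x, y⁆⁆ =
        (x * (z * ⁅y, ⁅z⁻¹, x⁻¹⁆⁆⁻¹ * z⁻¹) * x⁻¹) *
          (x * (y * ⁅x⁻¹, ⁅y⁻¹, z⁆⁆⁻¹ * y⁻¹) * x⁻¹) := by
      simp only [commutatorElement_def]; group
    have h1 : ⁅y, ⁅z⁻¹, x⁻¹⁆⁆⁻¹ ∈ N := by
      rw [commutatorElement_inv]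
      exact hB (Subgroup.commutator_mem_commutator
        (Subgroup.commutator_mem_commutator (H₃.inv_mem hz) (H₁.inv_mem hx)) hy)
    have h2 : ⁅x⁻¹, ⁅y⁻¹, z⁆⁆⁻¹ ∈ N := by
      rw [commutatorElement_inv]
      exact hA (Subgroup.commutator_mem_commutator
        (Subgroup.commutator_mem_commutator (H₂.inv_mem hy) hz) (H₁.inv_mem hx))
    rw [e]
    exact N.mul_mem (c1 x (h1n hx) _ (c1 z (h3n hz) _ h1)) (c1 x (h1n hx) _ (c1 y (h2n hy) _ h2))
  have hK : ∀ w ∈ ⁅H₁, H₂⁆, w ∈ Subgroup.normalizer (N : Set G) ∧ ∀ z ∈ H₃, ⁅z, w⁆ ∈ N := by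
    intro w hw
    rw [Subgroup.commutator_def] at hw
    induction hw using Subgroup.closure_induction with
    | mem g hg =>
      obtain ⟨x, hx, y, hy, rfl⟩ := hg
      refine ⟨?_, fun z hz => key x hx y hy z hz⟩
      rw [commutatorElement_def]
      exact Subgroup.mul_mem _ (Subgroup.mul_mem _ (Subgroup.mul_mem _ (h1n hx) (h2n hy))
        (Subgroup.inv_mem _ (h1n hx))) (Subgroup.inv_mem _ (h2n hy))
    | one =>
      exact ⟨Subgroup.one_mem _, fun z _ => by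
        rw [commutatorElement_one_right]; exact N.one_mem⟩
    | mul a b _ _ iha ihb =>
      refine ⟨Subgroup.mul_mem _ iha.1 ihb.1, fun z hz => ?_⟩
      have e : ⁅z, a * b⁆ = ⁅z, a⁆ * (a * ⁅z, b⁆ * a⁻¹) := by
        simp only [commutatorElement_def]; group
      rw [e]
      exact N.mul_mem (iha.2 z hz) (c1 a iha.1 _ (ihb.2 z hz))
    | inv a _ iha =>
      refine ⟨Subgroup.inv_mem _ iha.1, fun z hz => ?_⟩
      have e : ⁅z, a⁻¹⁆ = a⁻¹ * ⁅z, a⁆⁻¹ * a⁻¹⁻¹ := by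
        simp only [commutatorElement_def]; group
      rw [e]
      exact c1 a⁻¹ (Subgroup.inv_mem _ iha.1) _ (N.inv_mem (iha.2 z hz))
  rw [Subgroup.commutator_le]
  intro w hw z hz
  rw [← commutatorElement_inv]
  exact N.inv_mem ((hK w hw).2 z hz)

theorem commutator_sup_le_of_normal (X V H : Subgroup G) [hV : V.Normal] :
    ⁅X ⊔ V, H⁆ ≤ ⁅X, H⁆ ⊔ V := by
  have hVb : V.map (QuotientGroup.mk' V) = ⊥ := by
    rw [Subgroup.map_eq_bot_iff, QuotientGroup.ker_mk']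
  have h1 : (⁅X ⊔ V, H⁆).map (QuotientGroup.mk' V) = (⁅X, H⁆).map (QuotientGroup.mk' V) := by
    rw [Subgroup.map_commutator, Subgroup.map_commutator, Subgroup.map_sup, hVb, sup_bot_eq]
  calc ⁅X ⊔ V, H⁆ ≤ ((⁅X ⊔ V, H⁆).map (QuotientGroup.mk' V)).comap (QuotientGroup.mk' V) :=
        Subgroup.le_comap_map _ _
    _ = ((⁅X, H⁆).map (QuotientGroup.mk' V)).comap (QuotientGroup.mk' V) := by rw [h1]
    _ = ⁅X, H⁆ ⊔ (QuotientGroup.mk' V).ker := Subgroup.comap_map_eq _ _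
    _ = ⁅X, H⁆ ⊔ V := by rw [QuotientGroup.ker_mk']

theorem iterCommutator_mono_left (X X' H : Subgroup G) (h : X ≤ X') (n : ℕ) :
    iterCommutator X H n ≤ iterCommutator X' H n := by
  induction n with
  | zero => exact h
  | succ n ih => exact Subgroup.commutator_mono ih le_rfl

theorem iterCommutator_le_of_normal (X H : Subgroup G) [X.Normal] (n : ℕ) :
    iterCommutator X H n ≤ X := by
  induction n with
  | zero => exact le_rfl
  | succ n ih => exact (Subgroup.commutator_mono ih le_rfl).trans (Subgroup.commutator_le_left X H)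

theorem iterCommutator_sup_le (X V H : Subgroup G) [V.Normal] (n : ℕ) :
    iterCommutator (X ⊔ V) H n ≤ iterCommutator X H n ⊔ V := by
  induction n with
  | zero => exact le_rfl
  | succ n ih =>
    exact (Subgroup.commutator_mono ih le_rfl).trans (commutator_sup_le_of_normal _ V H)

/-- The subgroup of `M` centralized by `Hg` modulo the normal subgroup `M'`. -/
def centMod (M Hg M' : Subgroup G) (hM' : M'.Normal) : Subgroup G where
  carrier := {m | m ∈ M ∧ ∀ h ∈ Hg, ⁅m, h⁆ ∈ M'}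
  one_mem' := ⟨M.one_mem, fun h _ => by rw [commutatorElement_one_left]; exact M'.one_mem⟩
  mul_mem' := by
    rintro a b ⟨ha, ha'⟩ ⟨hb, hb'⟩
    refine ⟨M.mul_mem ha hb, fun h hh => ?_⟩
    rw [comm_mul_left']
    exact M'.mul_mem (hM'.conj_mem _ (hb' h hh) a) (ha' h hh)
  inv_mem' := by
    rintro a ⟨ha, ha'⟩
    refine ⟨M.inv_mem ha, fun h hh => ?_⟩
    rw [comm_inv_left']
    have h1 := hM'.conj_mem _ (M'.inv_mem (ha' h hh)) a⁻¹
    simpa using h1

/-- The chief factor step: if `[M, Hg; 4] ≤ M'`, a chief factor `U/V` meeting `M` nontrivially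
modulo `V` but not `M'` satisfies `[U, Hg; 4] ≤ V`. -/
theorem chief_step (U V M M' Hg : Subgroup G) (hUV : IsChiefFactor U V) [hMn : M.Normal]
    (h4 : iterCommutator M Hg 4 ≤ M') (hM' : U ⊓ M' ≤ V) (hM : ¬ U ⊓ M ≤ V) :
    iterCommutator U Hg 4 ≤ V := by
  obtain ⟨hVU, hUn, hVn, hch⟩ := hUV
  haveI := hUn
  haveI := hVn
  have hN : (U ⊓ M) ⊔ V = U := by
    rcases hch ((U ⊓ M) ⊔ V) inferInstance le_sup_right (sup_le inf_le_left hVU.le) with h | h
    · exact absurd (le_sup_left.trans (le_of_eq h)) hM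
    · exact h
  calc iterCommutator U Hg 4 = iterCommutator ((U ⊓ M) ⊔ V) Hg 4 := by rw [hN]
    _ ≤ iterCommutator (U ⊓ M) Hg 4 ⊔ V := iterCommutator_sup_le _ V Hg 4
    _ ≤ V := sup_le ((le_inf
        ((iterCommutator_mono_left _ _ Hg inf_le_left 4).trans (iterCommutator_le_of_normal U Hg 4))
        ((iterCommutator_mono_left _ _ Hg inf_le_right 4).trans h4)).trans hM') le_rfl

end three

end Cfsg.Agent.Lib.helper10
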