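import Cfsg.Agent.Lib.helper10.KQuart

set_option autoImplicit false

namespace Cfsg.Agent.Lib.helper10

open Cfsg
open scoped commutatorElement

section quartic
variable {G : Type*} [Group G]

/-- The quartic action on the centralizer of `Z = Z(A)`: the fourth commutator of `C` with `Hg`
centralizes `A`. -/
theorem quartic_cent (A Z C Hg : Subgroup G) [hAn : A.Normal] [hZn : Z.Normal] [hCn : C.Normal]
    (hZA : Z ≤ Subgroup.centralizer (A : Set G)) (hZC : Z ≤ Subgroup.centralizer (C : Set G))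
    (hAC : ⁅A, C⁆ ≤ Z)
    (hq : ⁅⁅Z, Hg⁆, Hg⁆ = ⊥) (hc : ⁅⁅⁅A, Hg⁆, Hg⁆, Hg⁆ ≤ Z) :
    ⁅iterCommutator C Hg 4, A⁆ = ⊥ := by
  obtain ⟨Z1, hZ1⟩ : ∃ Z1 : Subgroup G, Z1 = ⁅Z, Hg⁆ := ⟨_, rfl⟩
  obtain ⟨A1, hA1⟩ : ∃ A1 : Subgroup G, A1 = ⁅A, Hg⁆ := ⟨_, rfl⟩
  obtain ⟨A2, hA2⟩ : ∃ A2 : Subgroup G, A2 = ⁅A1, Hg⁆ := ⟨_, rfl⟩
  obtain ⟨B1, hB1⟩ : ∃ B1 : Subgroup G, B1 = ⁅C, Hg⁆ := ⟨_, rfl⟩
  obtain ⟨B2, hB2⟩ : ∃ B2 : Subgroup G, B2 = ⁅B1, Hg⁆ := ⟨_, rfl⟩
  obtain ⟨B3, hB3⟩ : ∃ B3 : Subgroup G, B3 = ⁅B2, Hg⁆ := ⟨_, rfl⟩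
  have hgoal : iterCommutator C Hg 4 = ⁅B3, Hg⁆ := by rw [hB3, hB2, hB1]; rfl
  rw [hgoal]
  have hA1A : A1 ≤ A := by rw [hA1]; exact Subgroup.commutator_le_left A Hg
  have hA2A : A2 ≤ A := by
    rw [hA2]
    exact (Subgroup.commutator_mono hA1A le_rfl).trans (Subgroup.commutator_le_left A Hg)
  have hA3Z : ⁅A2, Hg⁆ ≤ Z := by rw [hA2, hA1]; exact hc
  have hB1C : B1 ≤ C := by rw [hB1]; exact Subgroup.commutator_le_left C Hg
  have hB2C : B2 ≤ C := by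
    rw [hB2]
    exact (Subgroup.commutator_mono hB1C le_rfl).trans (Subgroup.commutator_le_left C Hg)
  have hB3C : B3 ≤ C := by
    rw [hB3]
    exact (Subgroup.commutator_mono hB2C le_rfl).trans (Subgroup.commutator_le_left C Hg)
  have hZ1Z : Z1 ≤ Z := by rw [hZ1]; exact Subgroup.commutator_le_left Z Hg
  have hZ1Hg : ⁅Z1, Hg⁆ = ⊥ := by rw [hZ1]; exact hq
  have hnA : A ≤ Subgroup.normalizer (Z1 : Set G) := by
    have h1 : A ≤ Subgroup.centralizer (Z : Set G) := Subgroup.le_centralizer_iff.mp hZA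
    exact (h1.trans (Subgroup.centralizer_le (SetLike.coe_subset_coe.mpr hZ1Z))).trans
      (Subgroup.centralizer_le_normalizer _)
  have hnC : C ≤ Subgroup.normalizer (Z1 : Set G) := by
    have h1 : C ≤ Subgroup.centralizer (Z : Set G) := Subgroup.le_centralizer_iff.mp hZC
    exact (h1.trans (Subgroup.centralizer_le (SetLike.coe_subset_coe.mpr hZ1Z))).trans
      (Subgroup.centralizer_le_normalizer _)
  have hnH : Hg ≤ Subgroup.normalizer (Z1 : Set G) := by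
    have h1 : Z1 ≤ Subgroup.centralizer (Hg : Set G) :=
      Subgroup.commutator_eq_bot_iff_le_centralizer.mp hZ1Hg
    exact (Subgroup.le_centralizer_iff.mp h1).trans (Subgroup.centralizer_le_normalizer _)
  have hZCbot : ⁅Z, C⁆ = ⊥ := Subgroup.commutator_eq_bot_iff_le_centralizer.mpr hZC
  -- (i)
  have h_i : ⁅B1, A2⁆ ≤ Z1 := by
    rw [hB1]
    refine three_sub_norm C Hg A2 Z1 hnC hnH (hA2A.trans hnA) ?_ ?_
    · rw [Subgroup.commutator_comm Hg A2]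
      calc ⁅⁅A2, Hg⁆, C⁆ ≤ ⁅Z, C⁆ := Subgroup.commutator_mono hA3Z le_rfl
        _ = ⊥ := hZCbot
        _ ≤ Z1 := bot_le
    · rw [hZ1]
      exact Subgroup.commutator_mono ((Subgroup.commutator_mono hA2A le_rfl).trans hAC) le_rfl
  -- (ii)
  have h_ii : ⁅B2, A1⁆ ≤ Z1 := by
    rw [hB2]
    refine three_sub_norm B1 Hg A1 Z1 (hB1C.trans hnC) hnH (hA1A.trans hnA) ?_ ?_
    · rw [Subgroup.commutator_comm Hg A1, ← hA2, Subgroup.commutator_comm A2 B1]
      exact h_i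
    · rw [hZ1]
      exact Subgroup.commutator_mono ((Subgroup.commutator_mono hA1A hB1C).trans hAC) le_rfl
  -- (iii)
  have h_iii : ⁅B2, A2⁆ = ⊥ := by
    rw [hB2]
    apply Subgroup.commutator_commutator_eq_bot_of_rotate
    · rw [eq_bot_iff, Subgroup.commutator_comm Hg A2]
      calc ⁅⁅A2, Hg⁆, B1⁆ ≤ ⁅Z, C⁆ := Subgroup.commutator_mono hA3Z hB1C
        _ = ⊥ := hZCbot
    · rw [eq_bot_iff, ← hZ1Hg, Subgroup.commutator_comm A2 B1]
      exact Subgroup.commutator_mono h_i le_rfl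
  -- (iv)
  have h_iv : ⁅B3, A⁆ ≤ Z1 := by
    rw [hB3]
    refine three_sub_norm B2 Hg A Z1 (hB2C.trans hnC) hnH hnA ?_ ?_
    · rw [Subgroup.commutator_comm Hg A, ← hA1, Subgroup.commutator_comm A1 B2]
      exact h_ii
    · rw [hZ1]
      exact Subgroup.commutator_mono ((Subgroup.commutator_mono le_rfl hB2C).trans hAC) le_rfl
  -- (v)
  have h_v : ⁅B3, A1⁆ = ⊥ := by
    rw [hB3]
    apply Subgroup.commutator_commutator_eq_bot_of_rotate
    · rw [Subgroup.commutator_comm Hg A1, ← hA2, Subgroup.commutator_comm A2 B2]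
      exact h_iii
    · rw [eq_bot_iff, ← hZ1Hg, Subgroup.commutator_comm A1 B2]
      exact Subgroup.commutator_mono h_ii le_rfl
  -- (vi)
  apply Subgroup.commutator_commutator_eq_bot_of_rotate
  · rw [Subgroup.commutator_comm Hg A, ← hA1, Subgroup.commutator_comm A1 B3]
    exact h_v
  · rw [eq_bot_iff, ← hZ1Hg, Subgroup.commutator_comm A B3]
    exact Subgroup.commutator_mono h_iv le_rfl

/-- The cubic step along the Engel-type filtration of `T` over the abelian normal subgroup `Z`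
on which `Hg` acts quadratically. -/
theorem cubic_engel_step (Z T M M' E Hg : Subgroup G) [hZn : Z.Normal] [hMn : M.Normal]
    [hM'n : M'.Normal] [hEn : E.Normal]
    (hMZ : M ≤ Z) (hM'M : M' ≤ M) (hMT : ⁅M, T⁆ ≤ M') (hZT : Z ≤ T) (hET : E ≤ T)
    (hZE : ⁅Z, E⁆ ≤ M) (hq : ⁅⁅Z, Hg⁆, Hg⁆ = ⊥) :
    ⁅iterCommutator E Hg 3, Z⁆ ≤ M' := by
  obtain ⟨M1, hM1⟩ : ∃ M1 : Subgroup G, M1 = centMod M Hg M' hM'n := ⟨_, rfl⟩
  have hM1mem : ∀ m, m ∈ M1 ↔ m ∈ M ∧ ∀ h ∈ Hg, ⁅m, h⁆ ∈ M' := by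
    intro m; rw [hM1]; exact Iff.rfl
  obtain ⟨Z1, hZ1⟩ : ∃ Z1 : Subgroup G, Z1 = ⁅Z, Hg⁆ := ⟨_, rfl⟩
  obtain ⟨F1, hF1⟩ : ∃ F1 : Subgroup G, F1 = ⁅E, Hg⁆ := ⟨_, rfl⟩
  obtain ⟨F2, hF2⟩ : ∃ F2 : Subgroup G, F2 = ⁅F1, Hg⁆ := ⟨_, rfl⟩
  have hgoal : iterCommutator E Hg 3 = ⁅F2, Hg⁆ := by rw [hF2, hF1]; rfl
  rw [hgoal]
  have hZ1Z : Z1 ≤ Z := by rw [hZ1]; exact Subgroup.commutator_le_left Z Hg
  have hZ1Hg : ⁅Z1, Hg⁆ = ⊥ := by rw [hZ1]; exact hq
  have hF1E : F1 ≤ E := by rw [hF1]; exact Subgroup.commutator_le_left E Hg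
  have hF2E : F2 ≤ E := by
    rw [hF2]
    exact (Subgroup.commutator_mono hF1E le_rfl).trans (Subgroup.commutator_le_left E Hg)
  have hM'M1 : M' ≤ M1 := fun m hm =>
    (hM1mem m).mpr ⟨hM'M hm, fun h _ => commElt_mem_left_normal M' hm h⟩
  have hMHg : ⁅M, Hg⁆ ≤ M1 := by
    rw [Subgroup.commutator_le]
    intro m hm h hh
    refine (hM1mem _).mpr ⟨(Subgroup.commutator_le_left M Hg)
      (Subgroup.commutator_mem_commutator hm hh), fun h' hh' => ?_⟩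
    have h1 : ⁅⁅m, h⁆, h'⁆ ∈ ⁅⁅Z, Hg⁆, Hg⁆ :=
      Subgroup.commutator_mem_commutator (Subgroup.commutator_mem_commutator (hMZ hm) hh) hh'
    rw [hq, Subgroup.mem_bot] at h1
    rw [h1]; exact M'.one_mem
  have hM1Hg : ⁅M1, Hg⁆ ≤ M' := by
    rw [Subgroup.commutator_le]
    exact fun m hm h hh => ((hM1mem m).mp hm).2 h hh
  have hM1M : M1 ≤ M := fun m hm => ((hM1mem m).mp hm).1
  have hTconj : ∀ t ∈ T, ∀ m ∈ M1, t * m * t⁻¹ ∈ M1 := by
    intro t ht m hm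
    have e : t * m * t⁻¹ = ⁅t, m⁆ * m := by simp [commutatorElement_def]
    rw [e]
    refine M1.mul_mem (hM'M1 (hMT ?_)) hm
    rw [← commutatorElement_inv]
    exact Subgroup.inv_mem _ (Subgroup.commutator_mem_commutator (hM1M hm) ht)
  have hHconj : ∀ h ∈ Hg, ∀ m ∈ M1, h * m * h⁻¹ ∈ M1 := by
    intro h hh m hm
    obtain ⟨hmM, hm'⟩ := (hM1mem m).mp hm
    refine (hM1mem _).mpr ⟨hMn.conj_mem m hmM h, fun h' hh' => ?_⟩
    rw [comm_conj_left]
    exact hM'n.conj_mem _ (hm' _ (Hg.mul_mem (Hg.mul_mem (Hg.inv_mem hh) hh') hh)) h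
  have hnT : T ≤ Subgroup.normalizer (M1 : Set G) := le_normalizer_of_conj_mem T M1 hTconj
  have hnH : Hg ≤ Subgroup.normalizer (M1 : Set G) := le_normalizer_of_conj_mem Hg M1 hHconj
  have hnM' : ∀ H : Subgroup G, H ≤ Subgroup.normalizer (M' : Set G) := fun H => by
    rw [Subgroup.normalizer_eq_top_iff.mpr hM'n]; exact le_top
  have hHgZ1 : ⁅Hg, Z1⁆ = ⊥ := by rw [Subgroup.commutator_comm]; exact hZ1Hg
  -- (a)
  have h_a : ⁅F1, Z1⁆ ≤ M1 := by
    rw [hF1]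
    refine three_sub_norm E Hg Z1 M1 (hET.trans hnT) hnH ((hZ1Z.trans hZT).trans hnT) ?_ ?_
    · rw [hHgZ1, Subgroup.commutator_bot_left]; exact bot_le
    · exact (Subgroup.commutator_mono ((Subgroup.commutator_mono hZ1Z le_rfl).trans hZE)
        le_rfl).trans hMHg
  -- (b)
  have h_b : ⁅F2, Z⁆ ≤ M1 := by
    rw [hF2]
    refine three_sub_norm F1 Hg Z M1 ((hF1E.trans hET).trans hnT) hnH (hZT.trans hnT) ?_ ?_
    · rw [Subgroup.commutator_comm Hg Z, ← hZ1, Subgroup.commutator_comm Z1 F1]; exact h_a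
    · exact (Subgroup.commutator_mono ((Subgroup.commutator_mono le_rfl hF1E).trans hZE)
        le_rfl).trans hMHg
  -- (c)
  have h_c : ⁅F2, Z1⁆ ≤ M' := by
    rw [hF2]
    refine three_sub_norm F1 Hg Z1 M' (hnM' _) (hnM' _) (hnM' _) ?_ ?_
    · rw [hHgZ1, Subgroup.commutator_bot_left]; exact bot_le
    · rw [Subgroup.commutator_comm Z1 F1]
      exact (Subgroup.commutator_mono h_a le_rfl).trans hM1Hg
  -- (d)
  refine three_sub_norm F2 Hg Z M' (hnM' _) (hnM' _) (hnM' _) ?_ ?_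
  · rw [Subgroup.commutator_comm Hg Z, ← hZ1, Subgroup.commutator_comm Z1 F2]; exact h_c
  · rw [Subgroup.commutator_comm Z F2]
    exact (Subgroup.commutator_mono h_b le_rfl).trans hM1Hg

variable [Finite G] {p : ℕ} [Fact p.Prime]

/-- The quartic action on chief factors: if `A` is a critical-type subgroup of the normal
`p`-subgroup `T` and `Hg` acts quadratically on `Z(A)` and cubically on `A` modulo `Z(A)`, then
`[U, Hg; 4] ≤ V` for every chief factor `U/V` of `G` with `U ≤ T`. -/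
theorem quartic_chief (T A Hg : Subgroup G) [hTn : T.Normal] [hAn : A.Normal]
    (hTp : IsPGroup p T) (hAT : A ≤ T)
    (hTA : ⁅A, T⁆ ≤ A ⊓ Subgroup.centralizer (A : Set G))
    (hCA : T ⊓ Subgroup.centralizer (A : Set G) ≤ A)
    (hq : ⁅⁅A ⊓ Subgroup.centralizer (A : Set G), Hg⁆, Hg⁆ = ⊥)
    (hc : ⁅⁅⁅A, Hg⁆, Hg⁆, Hg⁆ ≤ A ⊓ Subgroup.centralizer (A : Set G)) :
    ∀ U V : Subgroup G, IsChiefFactor U V → U ≤ T → iterCommutator U Hg 4 ≤ V := by
  classical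
  obtain ⟨Z, hZ⟩ : ∃ Z : Subgroup G, Z = A ⊓ Subgroup.centralizer (A : Set G) := ⟨_, rfl⟩
  rw [← hZ] at hTA hq hc
  haveI hZn : Z.Normal := by rw [hZ]; infer_instance
  have hZA : Z ≤ A := by rw [hZ]; exact inf_le_left
  have hZC : Z ≤ Subgroup.centralizer (A : Set G) := by rw [hZ]; exact inf_le_right
  have hZT : Z ≤ T := hZA.trans hAT
  have hstep : ∀ M M' : Subgroup G, M.Normal → iterCommutator M Hg 4 ≤ M' →
      (∀ U V : Subgroup G, IsChiefFactor U V → ¬ U ⊓ M' ≤ V → iterCommutator U Hg 4 ≤ V) →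
      ∀ U V : Subgroup G, IsChiefFactor U V → ¬ U ⊓ M ≤ V → iterCommutator U Hg 4 ≤ V := by
    intro M M' hMn h4 hQ U V hUV hUM
    by_cases h : U ⊓ M' ≤ V
    · haveI := hMn
      exact chief_step U V M M' Hg hUV h4 h hUM
    · exact hQ U V hUV h
  have hQbot : ∀ U V : Subgroup G, IsChiefFactor U V → ¬ U ⊓ (⊥ : Subgroup G) ≤ V →
      iterCommutator U Hg 4 ≤ V := by
    intro U V _ h
    exact absurd (by rw [inf_bot_eq]; exact bot_le) h
  have hQZ : ∀ U V : Subgroup G, IsChiefFactor U V → ¬ U ⊓ Z ≤ V →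
      iterCommutator U Hg 4 ≤ V := by
    refine hstep Z ⊥ hZn ?_ hQbot
    have h2 : iterCommutator Z Hg 2 = ⊥ := hq
    show ⁅⁅iterCommutator Z Hg 2, Hg⁆, Hg⁆ ≤ ⊥
    rw [h2, Subgroup.commutator_bot_left, Subgroup.commutator_bot_left]
  obtain ⟨K, hK⟩ := exists_iterCommutator_eq_bot Z T hTp hZT
  have hMn : ∀ t, (iterCommutator Z T t).Normal := fun t => iterCommutator_normal Z T t
  obtain ⟨E, hE⟩ : ∃ E : ℕ → Subgroup G,
      ∀ t, E t = engelT Z T (iterCommutator Z T t) (hMn t) := ⟨_, fun t => rfl⟩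
  have hEmem : ∀ t x, x ∈ E t ↔
      x ∈ T ∧ ∀ z ∈ Z, z * x * z⁻¹ * x⁻¹ ∈ iterCommutator Z T t := by
    intro t x; rw [hE]; exact Iff.rfl
  have hEn : ∀ t, (E t).Normal := by
    intro t; rw [hE]; exact engelT_normal Z T _ hZn hTn (hMn t)
  have hET : ∀ t, E t ≤ T := fun t x hx => ((hEmem t x).mp hx).1
  have hZE : ∀ t, ⁅Z, E t⁆ ≤ iterCommutator Z T t := by
    intro t
    rw [Subgroup.commutator_le]
    intro z hz x hx
    exact ((hEmem t x).mp hx).2 z hz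
  have hEle : ∀ t (F : Subgroup G), F ≤ T → ⁅F, Z⁆ ≤ iterCommutator Z T t → F ≤ E t := by
    intro t F hFT hFZ x hx
    refine (hEmem t x).mpr ⟨hFT hx, fun z hz => ?_⟩
    have h1 : ⁅x, z⁆ ∈ iterCommutator Z T t := hFZ (Subgroup.commutator_mem_commutator hx hz)
    have e : z * x * z⁻¹ * x⁻¹ = ⁅x, z⁆⁻¹ := by rw [commutatorElement_inv]; rfl
    rw [e]; exact Subgroup.inv_mem _ h1
  have hMZ : ∀ t, iterCommutator Z T t ≤ Z := fun t => iterCommutator_le_of_normal Z T t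
  have hMM : ∀ t, iterCommutator Z T (t + 1) ≤ iterCommutator Z T t := by
    intro t
    haveI := hMn t
    exact Subgroup.commutator_le_left _ T
  have hQC : ∀ U V : Subgroup G, IsChiefFactor U V → ¬ U ⊓ E K ≤ V →
      iterCommutator U Hg 4 ≤ V := by
    refine hstep (E K) Z (hEn K) ?_ hQZ
    haveI := hEn K
    have hZEK : Z ≤ Subgroup.centralizer ((E K : Subgroup G) : Set G) := by
      rw [← Subgroup.commutator_eq_bot_iff_le_centralizer, eq_bot_iff, ← hK]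
      exact hZE K
    have h1 : ⁅iterCommutator (E K) Hg 4, A⁆ = ⊥ :=
      quartic_cent A Z (E K) Hg hZC hZEK
        ((Subgroup.commutator_mono le_rfl (hET K)).trans hTA) hq hc
    have h2 : iterCommutator (E K) Hg 4 ≤ Subgroup.centralizer (A : Set G) :=
      Subgroup.commutator_eq_bot_iff_le_centralizer.mp h1
    have h3 : iterCommutator (E K) Hg 4 ≤ T :=
      (iterCommutator_le_of_normal (E K) Hg 4).trans (hET K)
    rw [hZ]
    exact le_inf ((le_inf h3 h2).trans hCA) h2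
  have hQE : ∀ j t, t + j = K → ∀ U V : Subgroup G, IsChiefFactor U V → ¬ U ⊓ E t ≤ V →
      iterCommutator U Hg 4 ≤ V := by
    intro j
    induction j with
    | zero =>
      intro t ht
      have htK : t = K := by omega
      rw [htK]
      exact hQC
    | succ j ih =>
      intro t ht
      refine hstep (E t) (E (t + 1)) (hEn t) ?_ (ih (t + 1) (by omega))
      haveI := hEn t
      haveI := hEn (t + 1)
      haveI := hMn t
      haveI := hMn (t + 1)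
      have h3 : ⁅iterCommutator (E t) Hg 3, Z⁆ ≤ iterCommutator Z T (t + 1) :=
        cubic_engel_step Z T (iterCommutator Z T t) (iterCommutator Z T (t + 1)) (E t) Hg
          (hMZ t) (hMM t) le_rfl hZT (hET t) (hZE t) hq
      have h4 : iterCommutator (E t) Hg 3 ≤ E (t + 1) :=
        hEle (t + 1) _ ((iterCommutator_le_of_normal (E t) Hg 3).trans (hET t)) h3
      exact (Subgroup.commutator_mono h4 le_rfl).trans (Subgroup.commutator_le_left (E (t + 1)) Hg)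
  intro U V hUV hUT
  apply hQE K 0 (by omega) U V hUV
  intro hle
  have hTE0 : T ≤ E 0 := by
    intro x hx
    refine (hEmem 0 x).mpr ⟨hx, fun z hz => ?_⟩
    show z * x * z⁻¹ * x⁻¹ ∈ Z
    have e : z * x * z⁻¹ * x⁻¹ = z * (x * z⁻¹ * x⁻¹) := by group
    rw [e]; exact Z.mul_mem hz (hZn.conj_mem _ (Z.inv_mem hz) x)
  have h1 : U ≤ V := (le_inf le_rfl (hUT.trans hTE0)).trans hle
  exact (not_le_of_gt hUV.1) h1

end quartic

end Cfsg.Agent.Lib.helper10
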