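import Mathlib
import Cfsg.Prelude.Def_LocalEven
import Cfsg.Agent.Lib.helper14.Basic

set_option autoImplicit false

namespace Cfsg.Agent.Lib.helper10

open Cfsg
open scoped commutatorElement

universe u

/-- Unpacked `p`-stability: for every `p`-subgroup `P` there is a subgroup `O` containing every
element of `N(P)` acting quadratically on `P`, all of whose `p'`-elements centralize `P`. -/
def PSU (p : ℕ) (H : Type*) [Group H] : Prop :=
  ∀ P : Subgroup H, IsPGroup p P → ∃ O : Subgroup H,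
    (∀ g ∈ Subgroup.normalizer (P : Set H), (∀ x ∈ P, Commute ⁅x, g⁆ g) → g ∈ O) ∧
    (∀ u ∈ O, (orderOf u).Coprime p → u ∈ Subgroup.centralizer (P : Set H))

theorem comm_zpow_of_commute {H : Type*} [Group H] {x g : H} (h : Commute ⁅x, g⁆ g) (k : ℤ) :
    ⁅x, g ^ k⁆ = ⁅x, g⁆ ^ k := by
  have e1 : x * g * x⁻¹ = ⁅x, g⁆ * g := by rw [commutatorElement_def]; group
  have e2 : x * g ^ k * x⁻¹ = (x * g * x⁻¹) ^ k := conj_zpow.symm
  rw [commutatorElement_def, e2, e1, h.mul_zpow]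
  group

theorem quadratic_commutator_eq_bot {H : Type*} [Group H] (P : Subgroup H) (g : H)
    (hq : ∀ x ∈ P, Commute ⁅x, g⁆ g) :
    ⁅⁅P, Subgroup.zpowers g⁆, Subgroup.zpowers g⁆ = ⊥ := by
  rw [Subgroup.commutator_eq_bot_iff_le_centralizer, Subgroup.commutator_le]
  rintro x hx _ ⟨k, rfl⟩
  rw [Subgroup.mem_centralizer_iff]
  rintro _ ⟨j, rfl⟩
  show g ^ j * ⁅x, g ^ k⁆ = ⁅x, g ^ k⁆ * g ^ j
  rw [comm_zpow_of_commute (hq x hx)]
  exact ((hq x hx).zpow_zpow k j).eq.symm

theorem psu_of_stable {H : Type*} [Group H] [Finite H] {p : ℕ} [Fact p.Prime]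
    (hst : IsNormalizerPStable p H) : PSU p H := by
  intro P hP
  refine ⟨((pCore p (↥(Subgroup.normalizer (P : Set H)) ⧸
      (Subgroup.centralizer (P : Set H)).subgroupOf (Subgroup.normalizer (P : Set H)))).comap
      (QuotientGroup.mk' ((Subgroup.centralizer (P : Set H)).subgroupOf
        (Subgroup.normalizer (P : Set H))))).map (Subgroup.normalizer (P : Set H)).subtype,
    ?_, ?_⟩
  · intro g hg hq
    exact ⟨⟨g, hg⟩, hst P hP g hg (quadratic_commutator_eq_bot P g hq), rfl⟩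
  · rintro _ ⟨u, hu, rfl⟩ hcop
    have hu' : QuotientGroup.mk' ((Subgroup.centralizer (P : Set H)).subgroupOf
        (Subgroup.normalizer (P : Set H))) u ∈ pCore p _ := hu
    have hpc := Cfsg.Agent.Lib.helper14.isPGroup_pCore p (↥(Subgroup.normalizer (P : Set H)) ⧸
      (Subgroup.centralizer (P : Set H)).subgroupOf (Subgroup.normalizer (P : Set H)))
    obtain ⟨k, hk⟩ := hpc ⟨_, hu'⟩
    have hk' : (QuotientGroup.mk' ((Subgroup.centralizer (P : Set H)).subgroupOf
        (Subgroup.normalizer (P : Set H))) u) ^ p ^ k = 1 := by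
      have := congrArg Subtype.val hk
      simpa using this
    have h1 : orderOf (QuotientGroup.mk' ((Subgroup.centralizer (P : Set H)).subgroupOf
        (Subgroup.normalizer (P : Set H))) u) ∣ p ^ k := orderOf_dvd_of_pow_eq_one hk'
    have h2 : orderOf (QuotientGroup.mk' ((Subgroup.centralizer (P : Set H)).subgroupOf
        (Subgroup.normalizer (P : Set H))) u) ∣ orderOf (u : H) := by
      rw [Subgroup.orderOf_coe]
      exact orderOf_map_dvd _ u
    have h3 : orderOf (QuotientGroup.mk' ((Subgroup.centralizer (P : Set H)).subgroupOf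
        (Subgroup.normalizer (P : Set H))) u) = 1 :=
      Nat.eq_one_of_dvd_coprimes (hcop.pow_right k) h2 h1
    rw [orderOf_eq_one_iff] at h3
    have h4 : u ∈ (Subgroup.centralizer (P : Set H)).subgroupOf
        (Subgroup.normalizer (P : Set H)) := by
      rw [← QuotientGroup.eq_one_iff]; exact h3
    exact Subgroup.mem_subgroupOf.mp h4

theorem psu_of_equiv {A B : Type*} [Group A] [Group B] {p : ℕ} (e : A ≃* B) (h : PSU p A) :
    PSU p B := by
  intro P hP
  obtain ⟨O, h1, h2⟩ := h (P.comap e.toMonoidHom)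
    (hP.comap_of_injective e.toMonoidHom e.injective)
  refine ⟨O.map e.toMonoidHom, ?_, ?_⟩
  · intro g hg hq
    refine ⟨e.symm g, h1 _ ?_ ?_, by simp⟩
    · rw [Subgroup.mem_normalizer_iff]
      intro a
      have := (Subgroup.mem_normalizer_iff.mp hg) (e a)
      simpa [Subgroup.mem_comap] using this
    · intro x hx
      have hx' : e x ∈ P := hx
      have := hq (e x) hx'
      have h3 : Commute (e.symm ⁅e x, g⁆) (e.symm g) := this.map e.symm.toMonoidHom
      rw [map_commutatorElement] at h3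
      simpa using h3
  · rintro _ ⟨u, hu, rfl⟩ hcop
    have hcop' : (orderOf u).Coprime p := by
      have : orderOf (e u) = orderOf u := MulEquiv.orderOf_eq e u
      rw [← this]; exact hcop
    have h3 := h2 u hu hcop'
    refine Subgroup.mem_centralizer_iff.mpr ?_
    intro y hy
    have hy' : e.symm y ∈ P.comap e.toMonoidHom := by
      show e (e.symm y) ∈ P
      simpa using hy
    have := Subgroup.mem_centralizer_iff.mp h3 _ hy'
    have h4 := congrArg e this
    simpa using h4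

/-- The section form of `p`-stability, in terms of subgroups of `G`. -/
theorem sec_ps {G : Type u} [Group G] [Finite G] {p : ℕ} [Fact p.Prime]
    (hPS : ∀ (K R : Subgroup G) [(R.subgroupOf K).Normal], PSU p (↥K ⧸ R.subgroupOf K))
    (K R P : Subgroup G) (hPK : P ≤ K) (hKP : K ≤ Subgroup.normalizer (P : Set G))
    (hKR : K ≤ Subgroup.normalizer (R : Set G)) (hPp : IsPGroup p P) (Γ : Set G)
    (hΓK : Γ ⊆ K) (hq : ∀ g ∈ Γ, ∀ x ∈ P, ⁅⁅x, g⁆, g⁆ ∈ R) :
    ∀ u ∈ Subgroup.closure Γ, (orderOf u).Coprime p → ∀ x ∈ P, ⁅x, u⁆ ∈ R := by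
  classical
  have hRn : (R.subgroupOf K).Normal := by
    refine ⟨fun r hr k => ?_⟩
    rw [Subgroup.mem_subgroupOf] at hr ⊢
    have := (Subgroup.mem_normalizer_iff.mp (hKR k.2) (r : G)).mp hr
    simpa using this
  obtain ⟨π, hπ⟩ : ∃ π : ↥K →* ↥K ⧸ R.subgroupOf K, π = QuotientGroup.mk' (R.subgroupOf K) :=
    ⟨_, rfl⟩
  have hker : ∀ y : ↥K, π y = 1 ↔ (y : G) ∈ R := by
    intro y
    rw [hπ, QuotientGroup.mk'_apply, QuotientGroup.eq_one_iff, Subgroup.mem_subgroupOf]
  obtain ⟨Pb, hPb⟩ : ∃ Pb : Subgroup (↥K ⧸ R.subgroupOf K), Pb = (P.subgroupOf K).map π :=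
    ⟨_, rfl⟩
  have hPbp : IsPGroup p Pb := by
    rw [hPb]
    exact (hPp.comap_subtype).map π
  obtain ⟨O, hO1, hO2⟩ := hPS K R Pb hPbp
  have key : ∀ u ∈ Subgroup.closure Γ, ∃ hu : u ∈ K, π ⟨u, hu⟩ ∈ O := by
    intro u hu
    induction hu using Subgroup.closure_induction with
    | mem g hg =>
      refine ⟨hΓK hg, hO1 _ ?_ ?_⟩
      · rw [hPb]
        apply Subgroup.le_normalizer_map
        refine ⟨⟨g, hΓK hg⟩, ?_, rfl⟩
        refine Subgroup.mem_normalizer_iff.mpr ?_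
        intro a
        rw [Subgroup.mem_subgroupOf, Subgroup.mem_subgroupOf]
        exact (Subgroup.mem_normalizer_iff.mp (hKP (hΓK hg)) (a : G))
      · intro xb hxb
        rw [hPb] at hxb
        obtain ⟨x, hx, rfl⟩ := hxb
        have hx : (x : G) ∈ P := Subgroup.mem_subgroupOf.mp hx
        rw [← commutatorElement_eq_one_iff_commute, ← map_commutatorElement,
          ← map_commutatorElement, hker]
        exact hq g hg (x : G) hx
    | one => exact ⟨K.one_mem, by
        have : (⟨1, K.one_mem⟩ : ↥K) = 1 := rfl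
        rw [this, map_one]; exact O.one_mem⟩
    | mul a b _ _ iha ihb =>
      obtain ⟨ha, ha'⟩ := iha
      obtain ⟨hb, hb'⟩ := ihb
      refine ⟨K.mul_mem ha hb, ?_⟩
      have : (⟨a * b, K.mul_mem ha hb⟩ : ↥K) = ⟨a, ha⟩ * ⟨b, hb⟩ := rfl
      rw [this, map_mul]; exact O.mul_mem ha' hb'
    | inv a _ iha =>
      obtain ⟨ha, ha'⟩ := iha
      refine ⟨K.inv_mem ha, ?_⟩
      have : (⟨a⁻¹, K.inv_mem ha⟩ : ↥K) = (⟨a, ha⟩ : ↥K)⁻¹ := rfl
      rw [this, map_inv]; exact O.inv_mem ha'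
  intro u hu hcop x hx
  obtain ⟨huK, huO⟩ := key u hu
  have hord : (orderOf (π ⟨u, huK⟩)).Coprime p := by
    refine Nat.Coprime.coprime_dvd_left ?_ hcop
    have := orderOf_map_dvd π (⟨u, huK⟩ : ↥K)
    rwa [Subgroup.orderOf_mk] at this
  have hc := hO2 _ huO hord
  have hxb : π ⟨x, hPK hx⟩ ∈ Pb := by
    rw [hPb]
    exact ⟨⟨x, hPK hx⟩, Subgroup.mem_subgroupOf.mpr hx, rfl⟩
  have h5 := Subgroup.mem_centralizer_iff.mp hc _ hxb
  have h6 : π ⁅(⟨x, hPK hx⟩ : ↥K), ⟨u, huK⟩⁆ = 1 := by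
    rw [map_commutatorElement, commutatorElement_eq_one_iff_commute]
    exact h5
  exact (hker _).mp h6

/-- Coprime action, elementwise. -/
theorem comm_eq_one_of_coprime {G : Type*} [Group G] {p : ℕ} [Fact p.Prime] {x u : G}
    (hc : ∃ k : ℕ, ⁅x, u⁆ ^ p ^ k = 1) (hu : (orderOf u).Coprime p)
    (hcomm : Commute ⁅x, u⁆ u) : ⁅x, u⁆ = 1 := by
  obtain ⟨k, hk⟩ := hc
  have e1 : x * u * x⁻¹ = ⁅x, u⁆ * u := by rw [commutatorElement_def]; group
  have e2 : (x * u * x⁻¹) ^ orderOf u = 1 := by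
    rw [conj_pow, pow_orderOf_eq_one]; group
  rw [e1, hcomm.mul_pow, pow_orderOf_eq_one, mul_one] at e2
  have h1 : orderOf ⁅x, u⁆ ∣ orderOf u := orderOf_dvd_of_pow_eq_one e2
  have h2 : orderOf ⁅x, u⁆ ∣ p ^ k := orderOf_dvd_of_pow_eq_one hk
  have h3 : orderOf ⁅x, u⁆ = 1 := Nat.eq_one_of_dvd_coprimes (hu.pow_right k) h1 h2
  exact orderOf_eq_one_iff.mp h3

/-- Some `p`-power power of an element of a finite group has order prime to `p`. -/
theorem exists_pow_coprime {G : Type*} [Group G] [Finite G] (p : ℕ) [hp : Fact p.Prime] (g : G) :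
    ∃ k : ℕ, (orderOf (g ^ p ^ k)).Coprime p := by
  obtain ⟨k, m, hm, hkm⟩ := Nat.exists_eq_pow_mul_and_not_dvd (orderOf_pos g).ne' p hp.out.ne_one
  refine ⟨k, ?_⟩
  have h1 : orderOf (g ^ p ^ k) = m := by
    rw [orderOf_pow_of_dvd (pow_ne_zero k hp.out.ne_zero) (by rw [hkm]; exact dvd_mul_right _ _), hkm]
    exact Nat.mul_div_cancel_left m (pow_pos hp.out.pos k)
  rw [h1]
  exact ((Nat.Prime.coprime_iff_not_dvd hp.out).mpr hm).symm

end Cfsg.Agent.Lib.helper10
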