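import Cfsg.Agent.Lib.helper10.KStab1

set_option autoImplicit false

namespace Cfsg.Agent.Lib.helper10

open Cfsg
open scoped commutatorElement

universe u

section np
variable {G : Type*} [Group G] [Finite G] {p : ℕ} [Fact p.Prime]

/-- A normal subgroup acting as a `p`-group on a "chief factor" `X/Y` of `p`-power order acts
trivially on it. -/
theorem np_lemma (X Y O : Subgroup G) [hXn : X.Normal] [hYn : Y.Normal] [hOn : O.Normal]
    (hXp : IsPGroup p X) (hYX : Y ≤ X) (hne : Y ≠ X)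
    (hmin : ∀ X₁ : Subgroup G, X₁.Normal → X₁ ≤ X → X₁ ≠ X → X₁ ≤ Y)
    (hO : ∀ u ∈ O, (orderOf u).Coprime p → ∀ x ∈ X, ⁅x, u⁆ ∈ Y) :
    ∀ o ∈ O, ∀ x ∈ X, ⁅x, o⁆ ∈ Y := by
  classical
  obtain ⟨π, hπ⟩ : ∃ π : G →* G ⧸ Y, π = QuotientGroup.mk' Y := ⟨_, rfl⟩
  have hπs : Function.Surjective π := by rw [hπ]; exact QuotientGroup.mk'_surjective Y
  have hker : ∀ y : G, π y = 1 ↔ y ∈ Y := by
    intro y
    rw [hπ, QuotientGroup.mk'_apply, QuotientGroup.eq_one_iff]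
  obtain ⟨Xb, hXb⟩ : ∃ Xb : Subgroup (G ⧸ Y), Xb = X.map π := ⟨_, rfl⟩
  have hXbmem : ∀ y : G ⧸ Y, y ∈ Xb ↔ ∃ x ∈ X, π x = y := by
    intro y
    rw [hXb]
    exact Subgroup.mem_map
  haveI hXbn : Xb.Normal := by rw [hXb]; exact hXn.map π hπs
  have hXbp : IsPGroup p Xb := by rw [hXb]; exact hXp.map π
  obtain ⟨φ, hφ⟩ : ∃ φ : ↥O →* MulAut ↥Xb,
      φ = (MulAut.conjNormal (H := Xb)).comp (π.comp O.subtype) := ⟨_, rfl⟩
  have hφa : ∀ (o : ↥O) (v : ↥Xb), ((φ o v : ↥Xb) : G ⧸ Y) = π o * v * (π o)⁻¹ := by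
    intro o v
    rw [hφ]
    exact MulAut.conjNormal_apply _ _
  -- `p'`-elements act trivially
  have hφ1 : ∀ u : ↥O, (orderOf u).Coprime p → φ u = 1 := by
    intro u hu
    ext v
    rw [hφa, MulAut.one_apply]
    obtain ⟨x, hx, hxv⟩ : ∃ x ∈ X, π x = (v : G ⧸ Y) := (hXbmem _).mp v.2
    have h1 : ⁅x, (u : G)⁆ ∈ Y := hO u u.2 (by rwa [Subgroup.orderOf_coe]) x hx
    have h2 : π ⁅x, (u : G)⁆ = 1 := (hker _).mpr h1
    rw [map_commutatorElement, commutatorElement_eq_one_iff_commute] at h2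
    rw [← hxv]
    show π (u : G) * π x * (π (u : G))⁻¹ = π x
    rw [← h2.eq, mul_inv_cancel_right]
  have hRp : IsPGroup p ↥φ.range := by
    rintro ⟨_, ⟨o, rfl⟩⟩
    obtain ⟨k, hk⟩ := exists_pow_coprime p o
    refine ⟨k, ?_⟩
    apply Subtype.ext
    show (φ o) ^ p ^ k = 1
    rw [← map_pow]
    exact hφ1 _ hk
  -- a nontrivial fixed point
  obtain ⟨x₁, hx₁X, hx₁Y⟩ : ∃ x ∈ X, x ∉ Y := by
    by_contra hcon
    push Not at hcon
    exact hne (le_antisymm hYX hcon)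
  have hdvd : p ∣ Nat.card ↥Xb := by
    rcases hXbp.card_eq_or_dvd with h | h
    · exfalso
      have hsub : Subsingleton ↥Xb := (Nat.card_eq_one_iff_unique.mp h).1
      have h1 : (⟨π x₁, (hXbmem _).mpr ⟨x₁, hx₁X, rfl⟩⟩ : ↥Xb) = 1 := Subsingleton.elim _ _
      have h2 : π x₁ = 1 := congrArg Subtype.val h1
      exact hx₁Y ((hker _).mp h2)
    · exact h
  have hfix1 : (1 : ↥Xb) ∈ MulAction.fixedPoints ↥φ.range ↥Xb := by
    intro r
    show (r : MulAut ↥Xb) (1 : ↥Xb) = 1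
    exact map_one _
  obtain ⟨v, hv, hv1⟩ := hRp.exists_fixed_point_of_prime_dvd_card_of_fixed_point ↥Xb hdvd hfix1
  obtain ⟨x₀, hx₀, hx₀v⟩ : ∃ x ∈ X, π x = (v : G ⧸ Y) := (hXbmem _).mp v.2
  have hx₀Y : x₀ ∉ Y := by
    intro h
    apply hv1
    apply Subtype.ext
    show (1 : G ⧸ Y) = (v : G ⧸ Y)
    rw [← hx₀v, (hker _).mpr h]
  have hcomm : ∀ o ∈ O, π o * π x₀ = π x₀ * π o := by
    intro o ho
    have h1 : (⟨φ ⟨o, ho⟩, ⟨⟨o, ho⟩, rfl⟩⟩ : ↥φ.range) • v = v := hv _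
    have h2 : φ ⟨o, ho⟩ v = v := h1
    have h3 := congrArg Subtype.val h2
    rw [hφa, ← hx₀v] at h3
    have h4 : π o * π x₀ * (π o)⁻¹ = π x₀ := h3
    calc π o * π x₀ = (π o * π x₀ * (π o)⁻¹) * π o := by group
      _ = π x₀ * π o := by rw [h4]
  -- the subgroup of `X` centralized by `O` modulo `Y`
  obtain ⟨Ob, hOb⟩ : ∃ Ob : Subgroup (G ⧸ Y), Ob = O.map π := ⟨_, rfl⟩
  haveI hObn : Ob.Normal := by rw [hOb]; exact hOn.map π hπs
  obtain ⟨X₁, hX₁⟩ : ∃ X₁ : Subgroup G,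
      X₁ = X ⊓ (Subgroup.centralizer (Ob : Set (G ⧸ Y))).comap π := ⟨_, rfl⟩
  have hX₁n : X₁.Normal := by
    rw [hX₁]
    haveI : ((Subgroup.centralizer (Ob : Set (G ⧸ Y))).comap π).Normal :=
      Subgroup.Normal.comap inferInstance π
    infer_instance
  have hX₁X : X₁ ≤ X := by rw [hX₁]; exact inf_le_left
  have hx₀X₁ : x₀ ∈ X₁ := by
    rw [hX₁]
    refine ⟨hx₀, ?_⟩
    show π x₀ ∈ Subgroup.centralizer (Ob : Set (G ⧸ Y))
    rw [Subgroup.mem_centralizer_iff]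
    intro y hy
    rw [hOb] at hy
    obtain ⟨o, ho, rfl⟩ := hy
    exact hcomm o ho
  have hX₁eq : X₁ = X := by
    by_contra hcon
    exact hx₀Y (hmin X₁ hX₁n hX₁X hcon hx₀X₁)
  intro o ho x hx
  have hxX₁ : x ∈ X₁ := by rw [hX₁eq]; exact hx
  rw [hX₁] at hxX₁
  have h1 : π x ∈ Subgroup.centralizer (Ob : Set (G ⧸ Y)) := hxX₁.2
  have h2 := Subgroup.mem_centralizer_iff.mp h1 (π o) (by rw [hOb]; exact ⟨o, ho, rfl⟩)
  rw [← hker, map_commutatorElement, commutatorElement_eq_one_iff_commute]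
  exact h2.symm

end np

section ppgen
variable {G : Type*} [Group G]

/-- The subgroup generated by the `p'`-elements of `N`. -/
def ppGen (p : ℕ) (N : Subgroup G) : Subgroup G :=
  Subgroup.closure {u | u ∈ N ∧ (orderOf u).Coprime p}

theorem ppGen_le (p : ℕ) (N : Subgroup G) : ppGen p N ≤ N := by
  unfold ppGen
  rw [Subgroup.closure_le]
  exact fun u hu => hu.1

theorem mem_ppGen {p : ℕ} {N : Subgroup G} {u : G} (hu : u ∈ N) (hc : (orderOf u).Coprime p) :
    u ∈ ppGen p N :=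
  Subgroup.subset_closure ⟨hu, hc⟩

theorem orderOf_conj' (g u : G) : orderOf (g * u * g⁻¹) = orderOf u := by
  have := MulEquiv.orderOf_eq (MulAut.conj g) u
  simpa using this

theorem ppGen_conj_mem (p : ℕ) (N : Subgroup G) (g : G)
    (hg : ∀ n ∈ N, g * n * g⁻¹ ∈ N) : ∀ n ∈ ppGen p N, g * n * g⁻¹ ∈ ppGen p N := by
  intro n hn
  unfold ppGen at hn ⊢
  induction hn using Subgroup.closure_induction with
  | mem u hu =>
    exact Subgroup.subset_closure ⟨hg u hu.1, by rw [orderOf_conj']; exact hu.2⟩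
  | one => simp
  | mul a b _ _ iha ihb =>
    have : g * (a * b) * g⁻¹ = (g * a * g⁻¹) * (g * b * g⁻¹) := by group
    rw [this]; exact Subgroup.mul_mem _ iha ihb
  | inv a _ iha =>
    have : g * a⁻¹ * g⁻¹ = (g * a * g⁻¹)⁻¹ := by group
    rw [this]; exact Subgroup.inv_mem _ iha

theorem ppGen_normal (p : ℕ) (N : Subgroup G) [hN : N.Normal] : (ppGen p N).Normal :=
  ⟨fun n hn g => ppGen_conj_mem p N g (fun n hn => hN.conj_mem n hn g) n hn⟩

theorem exists_pow_mem_ppGen [Finite G] (p : ℕ) [Fact p.Prime] (N : Subgroup G) (g : G)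
    (hg : g ∈ N) : ∃ k : ℕ, g ^ p ^ k ∈ ppGen p N ∧ (orderOf (g ^ p ^ k)).Coprime p := by
  obtain ⟨k, hk⟩ := exists_pow_coprime p g
  exact ⟨k, mem_ppGen (N.pow_mem hg _) hk, hk⟩

end ppgen

section e0
variable {G : Type*} [Group G] [Finite G] {p : ℕ} [Fact p.Prime]

theorem pow_prime_pow_card_eq_one {x : G} (hx : ∃ j : ℕ, x ^ p ^ j = 1) :
    x ^ p ^ Nat.card G = 1 := by
  obtain ⟨j, hj⟩ := hx
  obtain ⟨i, -, hi⟩ := (Nat.dvd_prime_pow (Fact.out (p := p.Prime))).mp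
    (orderOf_dvd_of_pow_eq_one hj)
  have h1 : p ^ i ≤ Nat.card G := by
    rw [← hi]; exact orderOf_le_card
  have h2 : i < p ^ i := Nat.lt_pow_self (Fact.out (p := p.Prime)).one_lt
  have h3 : i ≤ Nat.card G := by omega
  apply orderOf_dvd_iff_pow_eq_one.mp
  rw [hi]
  exact pow_dvd_pow p h3

/-- A subgroup generated by `p`-elements, all of whose `p'`-elements commute with the
generators, is a `p`-group. -/
theorem isPGroup_of_gen (H : Subgroup G) (k : Set G) (hk : H = Subgroup.closure k)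
    (hkp : ∀ x ∈ k, ∃ j : ℕ, x ^ p ^ j = 1)
    (hcent : ∀ u ∈ H, (orderOf u).Coprime p → ∀ x ∈ k, Commute u x) : IsPGroup p H := by
  classical
  subst hk
  -- `p'`-elements are central
  have hcen : ∀ u : ↥(Subgroup.closure k), (orderOf (u : G)).Coprime p →
      u ∈ Subgroup.center ↥(Subgroup.closure k) := by
    intro u hu
    rw [Subgroup.mem_center_iff]
    intro y
    have h1 : (y : G) ∈ Subgroup.centralizer ({(u : G)} : Set G) := by
      have h2 : Subgroup.closure k ≤ Subgroup.centralizer ({(u : G)} : Set G) := by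
        rw [Subgroup.closure_le]
        intro x hx
        refine Subgroup.mem_centralizer_iff.mpr ?_
        intro z hz
        rw [Set.mem_singleton_iff] at hz
        rw [hz]
        exact (hcent u u.2 hu x hx).eq
      exact h2 y.2
    have h3 := Subgroup.mem_centralizer_iff.mp h1 (u : G) rfl
    apply Subtype.ext
    exact h3.symm
  have hq : IsPGroup p (↥(Subgroup.closure k) ⧸ Subgroup.center ↥(Subgroup.closure k)) := by
    intro q
    induction q using QuotientGroup.induction_on with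
    | H h =>
      obtain ⟨a, ha⟩ := exists_pow_coprime p (h : G)
      refine ⟨a, ?_⟩
      rw [← QuotientGroup.mk_pow, QuotientGroup.eq_one_iff]
      exact hcen (h ^ p ^ a) (by simpa using ha)
  obtain ⟨c, hc⟩ := IsPGroup.iff_card.mp hq
  have hidx : (Subgroup.center ↥(Subgroup.closure k)).index = p ^ c := by
    rw [Subgroup.index_eq_card]; exact hc
  obtain ⟨ψ, hψ⟩ : ∃ ψ : ↥(Subgroup.center ↥(Subgroup.closure k)) →* ↥(Subgroup.closure k),
      ∀ z, ψ z = (z : ↥(Subgroup.closure k)) ^ p ^ Nat.card G := by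
    refine ⟨{ toFun := fun z => (z : ↥(Subgroup.closure k)) ^ p ^ Nat.card G
              map_one' := by simp
              map_mul' := fun a b => ?_ }, fun z => rfl⟩
    show ((a * b : ↥(Subgroup.center ↥(Subgroup.closure k))) : ↥(Subgroup.closure k)) ^ _ = _
    rw [Subgroup.coe_mul]
    have hcm : Commute (a : ↥(Subgroup.closure k)) (b : ↥(Subgroup.closure k)) :=
      (Subgroup.mem_center_iff.mp a.2 b).symm
    exact hcm.mul_pow _
  obtain ⟨τ, hτ⟩ : ∃ τ : ↥(Subgroup.closure k) →* ↥(Subgroup.closure k),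
      τ = ψ.comp (MonoidHom.transferCenterPow ↥(Subgroup.closure k)) := ⟨_, rfl⟩
  have hτa : ∀ h : ↥(Subgroup.closure k),
      ((τ h : ↥(Subgroup.closure k)) : G) = ((h : G) ^ p ^ c) ^ p ^ Nat.card G := by
    intro h
    rw [hτ, MonoidHom.comp_apply, hψ, MonoidHom.transferCenterPow_apply, hidx]
    rfl
  have hτ1 : τ = 1 := by
    apply MonoidHom.eq_of_eqOn_dense (Subgroup.closure_closure_coe_preimage (k := k))
    intro x hx
    have hx' : (x : G) ∈ k := hx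
    show τ x = 1
    apply Subtype.ext
    rw [hτa]
    show ((x : G) ^ p ^ c) ^ p ^ Nat.card G = 1
    rw [← pow_mul, mul_comm, pow_mul, pow_prime_pow_card_eq_one (hkp _ hx'), one_pow]
  intro h
  refine ⟨c + Nat.card G, ?_⟩
  apply Subtype.ext
  have h1 := hτa h
  rw [hτ1] at h1
  show (h : G) ^ p ^ (c + Nat.card G) = 1
  rw [pow_add, pow_mul]
  exact h1.symm

end e0

end Cfsg.Agent.Lib.helper10
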