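import Cfsg.Agent.Lib.helper10.KStab2

set_option autoImplicit false

namespace Cfsg.Agent.Lib.helper10

open Cfsg
open scoped commutatorElement

universe u

section ident
variable {G : Type*} [Group G]

theorem comm_conj_right (c x b : G) : ⁅x, c * b * c⁻¹⁆ = c * ⁅c⁻¹ * x * c, b⁆ * c⁻¹ := by
  simp only [commutatorElement_def]; group

theorem comm_conj_left (c x a : G) : ⁅c * x * c⁻¹, a⁆ = c * ⁅x, c⁻¹ * a * c⁆ * c⁻¹ := by
  simp only [commutatorElement_def]; group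

theorem comm_comm_conj (c x b : G) :
    ⁅⁅x, c * b * c⁻¹⁆, c * b * c⁻¹⁆ = c * ⁅⁅c⁻¹ * x * c, b⁆, b⁆ * c⁻¹ := by
  simp only [commutatorElement_def]; group

theorem comm_mul_left' (x x' a : G) : ⁅x * x', a⁆ = x * ⁅x', a⁆ * x⁻¹ * ⁅x, a⁆ := by
  simp only [commutatorElement_def]; group

theorem comm_inv_left' (x a : G) : ⁅x⁻¹, a⁆ = x⁻¹ * ⁅x, a⁆⁻¹ * x := by
  simp only [commutatorElement_def]; group

theorem closure_conj_mem (Γ : Set G) (g : G) (hg : ∀ y ∈ Γ, g * y * g⁻¹ ∈ Γ) :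
    ∀ l ∈ Subgroup.closure Γ, g * l * g⁻¹ ∈ Subgroup.closure Γ := by
  intro l hl
  induction hl using Subgroup.closure_induction with
  | mem y hy => exact Subgroup.subset_closure (hg y hy)
  | one => simp
  | mul a b _ _ iha ihb =>
    have : g * (a * b) * g⁻¹ = (g * a * g⁻¹) * (g * b * g⁻¹) := by group
    rw [this]; exact Subgroup.mul_mem _ iha ihb
  | inv a _ iha =>
    have : g * a⁻¹ * g⁻¹ = (g * a * g⁻¹)⁻¹ := by group
    rw [this]; exact Subgroup.inv_mem _ iha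

theorem mem_normalizer_of_forall_conj [Finite G] (K : Subgroup G) (g : G)
    (h : ∀ w ∈ K, g * w * g⁻¹ ∈ K) : g ∈ Subgroup.normalizer (K : Set G) := by
  rw [Subgroup.mem_normalizer_iff]
  intro x
  refine ⟨h x, fun hx => ?_⟩
  let f : K → K := fun w => ⟨g * w * g⁻¹, h w w.2⟩
  have hinj : Function.Injective f := by
    intro a b hab
    have := congrArg Subtype.val hab
    apply Subtype.ext
    have h2 : g * (a : G) * g⁻¹ = g * (b : G) * g⁻¹ := this
    exact mul_left_cancel (mul_right_cancel h2)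
  obtain ⟨w, hw⟩ := (Finite.injective_iff_surjective.mp hinj) ⟨_, hx⟩
  have h3 : g * (w : G) * g⁻¹ = g * x * g⁻¹ := congrArg Subtype.val hw
  have h4 : (w : G) = x := mul_left_cancel (mul_right_cancel h3)
  rw [← h4]; exact w.2

theorem eq_one_of_pow_of_coprime {p : ℕ} {u : G} (hu : (orderOf u).Coprime p)
    (h : ∃ k : ℕ, u ^ p ^ k = 1) : u = 1 := by
  obtain ⟨k, hk⟩ := h
  have h1 : orderOf u ∣ p ^ k := orderOf_dvd_of_pow_eq_one hk
  have h2 : orderOf u = 1 := Nat.eq_one_of_dvd_coprimes (hu.pow_right k) dvd_rfl h1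
  exact orderOf_eq_one_iff.mp h2

theorem ppGen_le_centralizer {p : ℕ} (N X : Subgroup G)
    (h : ∀ u ∈ N, (orderOf u).Coprime p → u ∈ Subgroup.centralizer (X : Set G)) :
    ppGen p N ≤ Subgroup.centralizer (X : Set G) := by
  unfold ppGen
  rw [Subgroup.closure_le]
  exact fun u hu => h u hu.1 hu.2

end ident

section minx
variable {G : Type u} [Group G] [Finite G] {p : ℕ} [Fact p.Prime]

/-- The minimal normal subgroup of `O_p(G)` not centralized by the `p'`-generated part of the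
normal closure of a `p`-subgroup `B` not contained in `O_p(G)`. -/
theorem exists_minX
    (hC : Subgroup.centralizer ((pCore p G : Subgroup G) : Set G) ≤ pCore p G)
    (B : Subgroup G) (hBT : ¬ B ≤ pCore p G) :
    ∃ X Y : Subgroup G, X.Normal ∧ Y.Normal ∧ Y ≤ X ∧ Y ≠ X ∧ X ≤ pCore p G ∧
      (∀ X₁ : Subgroup G, X₁.Normal → X₁ ≤ X → X₁ ≠ X → X₁ ≤ Y) ∧
      Y ≤ Subgroup.centralizer
        ((ppGen p (Subgroup.normalClosure (B : Set G)) : Subgroup G) : Set G) ∧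
      ¬ ppGen p (Subgroup.normalClosure (B : Set G)) ≤ Subgroup.centralizer (X : Set G) ∧
      Y ≤ Subgroup.centralizer (X : Set G) := by
  classical
  obtain ⟨T, hT⟩ : ∃ T : Subgroup G, T = pCore p G := ⟨_, rfl⟩
  rw [← hT] at hC hBT ⊢
  have hTn : T.Normal := by rw [hT]; exact Cfsg.Agent.Lib.helper14.pCore_normal' p G
  have hTp : IsPGroup p T := by rw [hT]; exact Cfsg.Agent.Lib.helper14.isPGroup_pCore p G
  obtain ⟨N, hN⟩ : ∃ N : Subgroup G, N = Subgroup.normalClosure (B : Set G) := ⟨_, rfl⟩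
  rw [← hN]
  have hNn : N.Normal := by rw [hN]; exact Subgroup.normalClosure_normal
  obtain ⟨N₀, hN₀⟩ : ∃ N₀ : Subgroup G, N₀ = ppGen p N := ⟨_, rfl⟩
  rw [← hN₀]
  have hN₀n : N₀.Normal := by rw [hN₀]; exact ppGen_normal p N
  -- `N₀` does not centralize `T`
  have hN₀T : ¬ N₀ ≤ Subgroup.centralizer (T : Set G) := by
    intro hle
    apply hBT
    have hNp : IsPGroup p N := by
      intro g
      obtain ⟨k, hk, -⟩ := exists_pow_mem_ppGen p N (g : G) g.2
      rw [← hN₀] at hk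
      obtain ⟨j, hj⟩ := hTp ⟨_, hC (hle hk)⟩
      refine ⟨k + j, ?_⟩
      apply Subtype.ext
      have hj' : ((g : G) ^ p ^ k) ^ p ^ j = 1 := congrArg Subtype.val hj
      show (g : G) ^ p ^ (k + j) = 1
      rw [pow_add, pow_mul]; exact hj'
    have h1 : N ≤ T := by rw [hT]; exact Cfsg.Agent.Lib.helper14.le_pCore hNn hNp
    have h0 : B ≤ N := by rw [hN]; exact Subgroup.le_normalClosure
    exact h0.trans h1
  -- choose `X` of minimal order
  have hex : ∃ n : ℕ, ∃ X : Subgroup G, X.Normal ∧ X ≤ T ∧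
      ¬ N₀ ≤ Subgroup.centralizer (X : Set G) ∧ Nat.card X = n :=
    ⟨_, T, hTn, le_rfl, hN₀T, rfl⟩
  obtain ⟨X, hXn, hXT, hXN, hXcard⟩ := Nat.find_spec hex
  have hXmin : ∀ X₁ : Subgroup G, X₁.Normal → X₁ ≤ X → X₁ ≠ X →
      N₀ ≤ Subgroup.centralizer (X₁ : Set G) := by
    intro X₁ hX₁n hX₁X hne
    by_contra hcon
    have hlt : Nat.card X₁ < Nat.find hex := by
      rw [← hXcard]
      by_contra hge
      push Not at hge
      exact hne (Subgroup.eq_of_le_of_card_ge hX₁X hge)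
    exact Nat.find_min hex hlt ⟨X₁, hX₁n, hX₁X.trans hXT, hcon, rfl⟩
  have := hXn
  have hXp : IsPGroup p X := hTp.to_le hXT
  obtain ⟨Y, hY⟩ : ∃ Y : Subgroup G, Y = X ⊓ Subgroup.centralizer (N₀ : Set G) := ⟨_, rfl⟩
  have hYn : Y.Normal := by rw [hY]; infer_instance
  have hYX : Y ≤ X := by rw [hY]; exact inf_le_left
  have hYN : Y ≤ Subgroup.centralizer (N₀ : Set G) := by rw [hY]; exact inf_le_right
  have hYne : Y ≠ X := by
    intro h
    apply hXN
    rw [Subgroup.le_centralizer_iff]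
    rw [← h]; exact hYN
  have hmin : ∀ X₁ : Subgroup G, X₁.Normal → X₁ ≤ X → X₁ ≠ X → X₁ ≤ Y := by
    intro X₁ hX₁n hX₁X hne
    rw [hY]
    exact le_inf hX₁X (Subgroup.le_centralizer_iff.mp (hXmin X₁ hX₁n hX₁X hne))
  refine ⟨X, Y, hXn, hYn, hYX, hYne, hXT, hmin, hYN, hXN, ?_⟩
  -- `Y ≤ Z(X)`
  have := hYn
  have hX₂X : ⁅N₀, X⁆ ≤ X := Subgroup.commutator_le_right N₀ X
  by_cases hX₂ : ⁅N₀, X⁆ = X
  · have h1 : ⁅⁅X, Y⁆, N₀⁆ = ⊥ := by
      rw [eq_bot_iff]
      calc ⁅⁅X, Y⁆, N₀⁆ ≤ ⁅Y, N₀⁆ :=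
            Subgroup.commutator_mono (Subgroup.commutator_le_right X Y) le_rfl
        _ = ⊥ := Subgroup.commutator_eq_bot_iff_le_centralizer.mpr hYN
    have h2 : ⁅⁅Y, N₀⁆, X⁆ = ⊥ := by
      rw [Subgroup.commutator_eq_bot_iff_le_centralizer.mpr hYN]
      exact Subgroup.commutator_bot_left X
    have h3 : ⁅⁅N₀, X⁆, Y⁆ = ⊥ := Subgroup.commutator_commutator_eq_bot_of_rotate h1 h2
    rw [hX₂, Subgroup.commutator_eq_bot_iff_le_centralizer] at h3
    exact Subgroup.le_centralizer_iff.mp h3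
  · exfalso
    apply hXN
    have h1 : ⁅N₀, X⁆ ≤ Y := hmin _ inferInstance hX₂X hX₂
    rw [hN₀]
    apply ppGen_le_centralizer
    intro w hw hwc
    rw [Subgroup.mem_centralizer_iff]
    intro x hx
    have hwN₀ : w ∈ N₀ := by rw [hN₀]; exact mem_ppGen hw hwc
    have h2 : ⁅w, x⁆ ∈ Y := h1 (Subgroup.commutator_mem_commutator hwN₀ hx)
    have h3 : ⁅x, w⁆ ∈ Y := by
      rw [← commutatorElement_inv]; exact Y.inv_mem h2
    have h4 : Commute ⁅x, w⁆ w :=
      (Subgroup.mem_centralizer_iff.mp (hYN h3) w hwN₀).symm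
    have h5 : ⁅x, w⁆ = 1 := by
      apply comm_eq_one_of_coprime (p := p) _ hwc h4
      obtain ⟨k, hk⟩ := hXp ⟨_, hYX h3⟩
      exact ⟨k, congrArg Subtype.val hk⟩
    rw [commutatorElement_eq_one_iff_commute] at h5
    exact h5.eq

end minx

end Cfsg.Agent.Lib.helper10
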