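import Cfsg.Agent.Lib.helper10.KStab3

set_option autoImplicit false

namespace Cfsg.Agent.Lib.helper10

open Cfsg
open scoped commutatorElement

universe u

section core
variable {G : Type u} [Group G] [Finite G] {p : ℕ} [Fact p.Prime]

/-- `p'`-elements of the normal closure of `B₂` act trivially on `X/Y` if the elements of `B₂`
act quadratically on it. -/
theorem quad_closure
    (hPS : ∀ (K R : Subgroup G) [(R.subgroupOf K).Normal], PSU p (↥K ⧸ R.subgroupOf K))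
    (B₂ X Y : Subgroup G) [hXn : X.Normal] [hYn : Y.Normal] (hXp : IsPGroup p X)
    (hq : ∀ b ∈ B₂, ∀ x ∈ X, ⁅⁅x, b⁆, b⁆ ∈ Y) :
    ∀ u ∈ Subgroup.normalClosure (B₂ : Set G), (orderOf u).Coprime p →
      ∀ x ∈ X, ⁅x, u⁆ ∈ Y := by
  refine sec_ps hPS ⊤ Y X le_top (Subgroup.normalizer_eq_top_iff.mpr hXn).ge
    (Subgroup.normalizer_eq_top_iff.mpr hYn).ge hXp (Group.conjugatesOfSet (B₂ : Set G))
    (fun _ _ => Subgroup.mem_top _) ?_
  intro g hg x hx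
  obtain ⟨b, hb, hconj⟩ := Group.mem_conjugatesOfSet_iff.mp hg
  obtain ⟨c, rfl⟩ := isConj_iff.mp hconj
  rw [comm_comm_conj]
  refine hYn.conj_mem _ (hq b hb _ ?_) c
  have := hXn.conj_mem x hx c⁻¹
  simpa using this

theorem quad_np
    (hPS : ∀ (K R : Subgroup G) [(R.subgroupOf K).Normal], PSU p (↥K ⧸ R.subgroupOf K))
    (B₂ X Y : Subgroup G) [hXn : X.Normal] [hYn : Y.Normal] (hXp : IsPGroup p X)
    (hYX : Y ≤ X) (hne : Y ≠ X)
    (hmin : ∀ X₁ : Subgroup G, X₁.Normal → X₁ ≤ X → X₁ ≠ X → X₁ ≤ Y)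
    (hq : ∀ b ∈ B₂, ∀ x ∈ X, ⁅⁅x, b⁆, b⁆ ∈ Y) :
    ∀ b ∈ B₂, ∀ x ∈ X, ⁅x, b⁆ ∈ Y := by
  haveI : (Subgroup.normalClosure (B₂ : Set G)).Normal := Subgroup.normalClosure_normal
  have h := np_lemma X Y (Subgroup.normalClosure (B₂ : Set G)) hXp hYX hne hmin
    (quad_closure hPS B₂ X Y hXp hq)
  exact fun b hb x hx => h b (Subgroup.le_normalClosure hb) x hx

theorem quad_contra
    (hPS : ∀ (K R : Subgroup G) [(R.subgroupOf K).Normal], PSU p (↥K ⧸ R.subgroupOf K))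
    (B X : Subgroup G) [hXn : X.Normal] (hXp : IsPGroup p X)
    (hq : ∀ b ∈ B, ∀ x ∈ X, ⁅⁅x, b⁆, b⁆ = 1) :
    ppGen p (Subgroup.normalClosure (B : Set G)) ≤ Subgroup.centralizer (X : Set G) := by
  apply ppGen_le_centralizer
  intro u hu hc
  have h := quad_closure hPS B X ⊥ hXp
    (fun b hb x hx => by rw [hq b hb x hx]; exact Subgroup.one_mem _) u hu hc
  rw [Subgroup.mem_centralizer_iff]
  intro x hx
  have h1 := h x hx
  rw [Subgroup.mem_bot, commutatorElement_eq_one_iff_commute] at h1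
  exact h1.eq

theorem normal_p_comm (X Y O : Subgroup G) [hXn : X.Normal] [hYn : Y.Normal] [hOn : O.Normal]
    (hXp : IsPGroup p X) (hYX : Y ≤ X) (hne : Y ≠ X)
    (hmin : ∀ X₁ : Subgroup G, X₁.Normal → X₁ ≤ X → X₁ ≠ X → X₁ ≤ Y) (hOp : IsPGroup p O) :
    ∀ o ∈ O, ∀ x ∈ X, ⁅x, o⁆ ∈ Y :=
  np_lemma X Y O hXp hYX hne hmin (fun u hu hc x _ => by
    have h1 : u = 1 := eq_one_of_pow_of_coprime hc (by
      obtain ⟨k, hk⟩ := hOp ⟨u, hu⟩
      exact ⟨k, congrArg Subtype.val hk⟩)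
    rw [h1, commutatorElement_one_right]
    exact Y.one_mem)

/-- The ending: if the `p'`-elements of the subgroup generated by the `N₀`-conjugates of `B`
centralize `X`, so does `N₀`. -/
theorem ending (B X : Subgroup G) [hXn : X.Normal] (hBp : IsPGroup p B)
    (hL : ∀ u ∈ Subgroup.closure {g : G | ∃ n ∈ ppGen p (Subgroup.normalClosure (B : Set G)),
        ∃ b ∈ B, g = n * b * n⁻¹},
      (orderOf u).Coprime p → u ∈ Subgroup.centralizer (X : Set G)) :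
    ppGen p (Subgroup.normalClosure (B : Set G)) ≤ Subgroup.centralizer (X : Set G) := by
  classical
  obtain ⟨N, hN⟩ : ∃ N : Subgroup G, N = Subgroup.normalClosure (B : Set G) := ⟨_, rfl⟩
  rw [← hN] at hL ⊢
  have hNn : N.Normal := by rw [hN]; exact Subgroup.normalClosure_normal
  obtain ⟨N₀, hN₀⟩ : ∃ N₀ : Subgroup G, N₀ = ppGen p N := ⟨_, rfl⟩
  rw [← hN₀] at hL ⊢
  have hN₀n : N₀.Normal := by rw [hN₀]; exact ppGen_normal p N
  obtain ⟨L, hLdef⟩ : ∃ L : Subgroup G,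
      L = Subgroup.closure {g : G | ∃ n ∈ N₀, ∃ b ∈ B, g = n * b * n⁻¹} := ⟨_, rfl⟩
  rw [← hLdef] at hL
  have hLN : ∀ n ∈ N₀, ∀ l ∈ L, n * l * n⁻¹ ∈ L := by
    intro n hn
    rw [hLdef]
    apply closure_conj_mem
    rintro _ ⟨n', hn', b, hb, rfl⟩
    exact ⟨n * n', N₀.mul_mem hn hn', b, hb, by group⟩
  obtain ⟨W, hW⟩ : ∃ W : Subgroup G,
      W = Subgroup.normalClosure ((L ⊓ N₀ : Subgroup G) : Set G) := ⟨_, rfl⟩
  have hWn : W.Normal := by rw [hW]; exact Subgroup.normalClosure_normal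
  obtain ⟨π, hπ⟩ : ∃ π : G →* G ⧸ W, π = QuotientGroup.mk' W := ⟨_, rfl⟩
  have hπs : Function.Surjective π := by rw [hπ]; exact QuotientGroup.mk'_surjective W
  have hker : ∀ y : G, π y = 1 ↔ y ∈ W := by
    intro y
    rw [hπ, QuotientGroup.mk'_apply, QuotientGroup.eq_one_iff]
  -- (e1)
  have he1 : ∀ n ∈ N₀, ∀ y ∈ N, π n * π y = π y * π n := by
    haveI : (N₀.map π).Normal := hN₀n.map π hπs
    have hZn : ((Subgroup.centralizer ((N₀.map π : Subgroup (G ⧸ W)) : Set (G ⧸ W))).comap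
        π).Normal := Subgroup.Normal.comap inferInstance π
    have hBZ : B ≤ (Subgroup.centralizer ((N₀.map π : Subgroup (G ⧸ W)) : Set (G ⧸ W))).comap
        π := by
      intro b hb
      show π b ∈ Subgroup.centralizer ((N₀.map π : Subgroup (G ⧸ W)) : Set (G ⧸ W))
      rw [Subgroup.mem_centralizer_iff]
      rintro _ ⟨n, hn, rfl⟩
      have h1 : ⁅n, b⁆ ∈ W := by
        rw [hW]
        apply Subgroup.subset_normalClosure
        refine ⟨?_, ?_⟩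
        · have e : ⁅n, b⁆ = (n * b * n⁻¹) * (1 * b * 1⁻¹)⁻¹ := by
            simp [commutatorElement_def]
          rw [e]
          show _ ∈ L
          rw [hLdef]
          exact Subgroup.mul_mem _ (Subgroup.subset_closure ⟨n, hn, b, hb, rfl⟩)
            (Subgroup.inv_mem _ (Subgroup.subset_closure ⟨1, N₀.one_mem, b, hb, rfl⟩))
        · have e : ⁅n, b⁆ = n * (b * n⁻¹ * b⁻¹) := by
            simp [commutatorElement_def, mul_assoc]
          rw [e]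
          exact N₀.mul_mem hn (hN₀n.conj_mem _ (N₀.inv_mem hn) b)
      have h2 : π ⁅n, b⁆ = 1 := (hker _).mpr h1
      rw [map_commutatorElement, commutatorElement_eq_one_iff_commute] at h2
      exact h2.eq
    have hNZ : N ≤ (Subgroup.centralizer ((N₀.map π : Subgroup (G ⧸ W)) :
        Set (G ⧸ W))).comap π := by
      rw [hN]; exact Subgroup.normalClosure_le_normal hBZ
    intro n hn y hy
    exact Subgroup.mem_centralizer_iff.mp (hNZ hy) (π n) ⟨n, hn, rfl⟩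
  -- (e2)
  have hNbp : IsPGroup p (N.map π) := by
    apply isPGroup_of_gen (N.map π) (π '' Group.conjugatesOfSet (B : Set G))
    · rw [hN]; exact MonoidHom.map_closure π _
    · rintro _ ⟨y, hy, rfl⟩
      obtain ⟨b, hb, hconj⟩ := Group.mem_conjugatesOfSet_iff.mp hy
      obtain ⟨c, rfl⟩ := isConj_iff.mp hconj
      obtain ⟨j, hj⟩ := hBp ⟨b, hb⟩
      refine ⟨j, ?_⟩
      have hj' : b ^ p ^ j = 1 := congrArg Subtype.val hj
      rw [← map_pow, conj_pow, hj']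
      simp
    · rintro _ ⟨g, hg, rfl⟩ hcop _ ⟨y, hy, rfl⟩
      obtain ⟨k, hk, -⟩ := exists_pow_mem_ppGen p N g hg
      obtain ⟨m, hm⟩ := exists_pow_eq_self_of_coprime (x := π g) (n := p ^ k)
        (Nat.Coprime.pow_left k hcop.symm)
      have hn : (g ^ p ^ k) ^ m ∈ N₀ := by rw [hN₀]; exact Subgroup.pow_mem _ hk m
      have hyN : y ∈ N := by rw [hN]; exact Subgroup.subset_closure hy
      have h1 := he1 _ hn y hyN
      rw [map_pow, map_pow, hm] at h1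
      exact h1
  -- (e3)
  have hN₀W : N₀ ≤ W := by
    rw [hN₀]
    unfold ppGen
    rw [Subgroup.closure_le]
    rintro u ⟨hu, hc⟩
    obtain ⟨k, hk⟩ := hNbp ⟨π u, ⟨u, hu, rfl⟩⟩
    have hk' : (π u) ^ p ^ k = 1 := congrArg Subtype.val hk
    have hc' : (orderOf (π u)).Coprime p :=
      Nat.Coprime.coprime_dvd_left (orderOf_map_dvd π u) hc
    exact (hker u).mp (eq_one_of_pow_of_coprime hc' ⟨k, hk'⟩)
  -- (e4)
  have hCXn : (Subgroup.centralizer (X : Set G)).Normal := inferInstance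
  haveI hCn : ((Subgroup.centralizer (X : Set G)).subgroupOf N₀).Normal := inferInstance
  obtain ⟨ρ, hρ⟩ : ∃ ρ : ↥N₀ →* ↥N₀ ⧸ (Subgroup.centralizer (X : Set G)).subgroupOf N₀,
      ρ = QuotientGroup.mk' _ := ⟨_, rfl⟩
  have hρs : Function.Surjective ρ := by rw [hρ]; exact QuotientGroup.mk'_surjective _
  have hρker : ∀ y : ↥N₀, ρ y = 1 ↔ (y : G) ∈ Subgroup.centralizer (X : Set G) := by
    intro y
    rw [hρ, QuotientGroup.mk'_apply, QuotientGroup.eq_one_iff, Subgroup.mem_subgroupOf]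
  have hconjL : ∀ g : G, ∀ l ∈ L ⊓ N₀, ∃ h : g * l * g⁻¹ ∈ N₀,
      ρ ⟨g * l * g⁻¹, h⟩ ∈ pCore p (↥N₀ ⧸ (Subgroup.centralizer (X : Set G)).subgroupOf N₀) := by
    intro g
    obtain ⟨Hg, hHg⟩ : ∃ Hg : Subgroup G, Hg = (L ⊓ N₀).map (MulAut.conj g).toMonoidHom :=
      ⟨_, rfl⟩
    have hHgmem : ∀ y : G, y ∈ Hg ↔ ∃ l ∈ L ⊓ N₀, g * l * g⁻¹ = y := by
      intro y
      rw [hHg, Subgroup.mem_map]
      rfl
    have hHgN₀ : Hg ≤ N₀ := by
      intro y hy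
      obtain ⟨l, hl, rfl⟩ := (hHgmem y).mp hy
      exact hN₀n.conj_mem l hl.2 g
    have hnorm : (Hg.subgroupOf N₀).Normal := by
      refine ⟨fun y hy n => ?_⟩
      rw [Subgroup.mem_subgroupOf] at hy ⊢
      obtain ⟨l, hl, hly⟩ := (hHgmem _).mp hy
      have hn' : g⁻¹ * (n : G) * g ∈ N₀ := by
        have := hN₀n.conj_mem (n : G) n.2 g⁻¹
        simpa using this
      refine (hHgmem _).mpr ⟨(g⁻¹ * (n : G) * g) * l * (g⁻¹ * (n : G) * g)⁻¹,
        ⟨hLN _ hn' l hl.1, hN₀n.conj_mem l hl.2 _⟩, ?_⟩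
      show _ = (n : G) * (y : G) * (n : G)⁻¹
      rw [← hly]; group
    have hHbn : ((Hg.subgroupOf N₀).map ρ).Normal := hnorm.map ρ hρs
    have hHbp : IsPGroup p ((Hg.subgroupOf N₀).map ρ) := by
      rintro ⟨_, ⟨y, hy, rfl⟩⟩
      have hy' : (y : G) ∈ Hg := hy
      obtain ⟨l, hl, hly⟩ := (hHgmem _).mp hy'
      obtain ⟨k, hk⟩ := exists_pow_coprime p l
      refine ⟨k, ?_⟩
      apply Subtype.ext
      show (ρ y) ^ p ^ k = 1
      rw [← map_pow, hρker]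
      show (y : G) ^ p ^ k ∈ _
      rw [← hly, conj_pow]
      have h1 : l ^ p ^ k ∈ Subgroup.centralizer (X : Set G) := hL _ (L.pow_mem hl.1 _) hk
      exact hCXn.conj_mem _ h1 g
    have hle := Cfsg.Agent.Lib.helper14.le_pCore hHbn hHbp
    intro l hl
    have hmem : g * l * g⁻¹ ∈ Hg := (hHgmem _).mpr ⟨l, hl, rfl⟩
    exact ⟨hHgN₀ hmem, hle ⟨⟨_, hHgN₀ hmem⟩, Subgroup.mem_subgroupOf.mpr hmem, rfl⟩⟩
  have hWp : ∀ w ∈ W, ∃ h : w ∈ N₀,
      ρ ⟨w, h⟩ ∈ pCore p (↥N₀ ⧸ (Subgroup.centralizer (X : Set G)).subgroupOf N₀) := by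
    intro w hw
    have hw' : w ∈ Subgroup.closure (Group.conjugatesOfSet ((L ⊓ N₀ : Subgroup G) : Set G)) := by
      rw [hW] at hw; exact hw
    clear hw
    induction hw' using Subgroup.closure_induction with
    | mem y hy =>
      obtain ⟨l, hl, hconj⟩ := Group.mem_conjugatesOfSet_iff.mp hy
      obtain ⟨c, rfl⟩ := isConj_iff.mp hconj
      exact hconjL c l hl
    | one =>
      refine ⟨N₀.one_mem, ?_⟩
      have : (⟨1, N₀.one_mem⟩ : ↥N₀) = 1 := rfl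
      rw [this, map_one]; exact Subgroup.one_mem _
    | mul a b _ _ iha ihb =>
      obtain ⟨ha, ha'⟩ := iha
      obtain ⟨hb, hb'⟩ := ihb
      refine ⟨N₀.mul_mem ha hb, ?_⟩
      have : (⟨a * b, N₀.mul_mem ha hb⟩ : ↥N₀) = ⟨a, ha⟩ * ⟨b, hb⟩ := rfl
      rw [this, map_mul]; exact Subgroup.mul_mem _ ha' hb'
    | inv a _ iha =>
      obtain ⟨ha, ha'⟩ := iha
      refine ⟨N₀.inv_mem ha, ?_⟩
      have : (⟨a⁻¹, N₀.inv_mem ha⟩ : ↥N₀) = (⟨a, ha⟩ : ↥N₀)⁻¹ := rfl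
      rw [this, map_inv]; exact Subgroup.inv_mem _ ha'
  rw [hN₀]
  apply ppGen_le_centralizer
  intro u hu hc
  have huN₀ : u ∈ N₀ := by rw [hN₀]; exact mem_ppGen hu hc
  obtain ⟨_, h2⟩ := hWp u (hN₀W huN₀)
  obtain ⟨k, hk⟩ := (Cfsg.Agent.Lib.helper14.isPGroup_pCore p
    (↥N₀ ⧸ (Subgroup.centralizer (X : Set G)).subgroupOf N₀)) ⟨_, h2⟩
  have hk' : (ρ ⟨u, huN₀⟩) ^ p ^ k = 1 := congrArg Subtype.val hk
  have hc' : (orderOf (ρ ⟨u, huN₀⟩)).Coprime p := by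
    refine Nat.Coprime.coprime_dvd_left ?_ hc
    have := orderOf_map_dvd ρ (⟨u, huN₀⟩ : ↥N₀)
    rwa [Subgroup.orderOf_mk] at this
  exact (hρker _).mp (eq_one_of_pow_of_coprime hc' ⟨k, hk'⟩)

end core

end Cfsg.Agent.Lib.helper10
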