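import Cfsg.Agent.Lib.helper10.KStab4

set_option autoImplicit false

namespace Cfsg.Agent.Lib.helper10

open Cfsg
open scoped commutatorElement

universe u

section lower
variable {G : Type u} [Group G]

theorem commElt_mem (H : Subgroup G) {a b : G} (ha : a ∈ H) (hb : b ∈ H) : ⁅a, b⁆ ∈ H := by
  rw [commutatorElement_def]
  exact H.mul_mem (H.mul_mem (H.mul_mem ha hb) (H.inv_mem ha)) (H.inv_mem hb)

theorem commElt_mem_left_normal (X : Subgroup G) [hXn : X.Normal] {x : G} (hx : x ∈ X) (g : G) :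
    ⁅x, g⁆ ∈ X := by
  have e : ⁅x, g⁆ = x * (g * x⁻¹ * g⁻¹) := by simp [commutatorElement_def, mul_assoc]
  rw [e]
  exact X.mul_mem hx (hXn.conj_mem _ (X.inv_mem hx) g)

theorem commElt_mem_of_conj (B : Subgroup G) {x b : G} (hb : b ∈ B) (hx : x * b * x⁻¹ ∈ B) :
    ⁅x, b⁆ ∈ B := by
  rw [commutatorElement_def]
  exact B.mul_mem hx (B.inv_mem hb)

/-- The subgroup of `X` of the elements `x` with `[x, X] ≤ C(B)`, for `X` of class at most two. -/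
def flatSub (X B : Subgroup G)
    (hXX : ∀ x ∈ X, ∀ a ∈ X, ⁅x, a⁆ ∈ Subgroup.centralizer (X : Set G)) : Subgroup G where
  carrier := {x | x ∈ X ∧ ∀ a ∈ X, ⁅x, a⁆ ∈ Subgroup.centralizer (B : Set G)}
  one_mem' := ⟨X.one_mem, fun a _ => by
    rw [commutatorElement_one_left]; exact Subgroup.one_mem _⟩
  mul_mem' := by
    rintro x x' ⟨hx, hxa⟩ ⟨hx', hxa'⟩
    refine ⟨X.mul_mem hx hx', fun a ha => ?_⟩
    rw [comm_mul_left']
    have h1 : x * ⁅x', a⁆ * x⁻¹ = ⁅x', a⁆ := by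
      rw [Subgroup.mem_centralizer_iff.mp (hXX x' hx' a ha) x hx]; group
    rw [h1]
    exact Subgroup.mul_mem _ (hxa' a ha) (hxa a ha)
  inv_mem' := by
    rintro x ⟨hx, hxa⟩
    refine ⟨X.inv_mem hx, fun a ha => ?_⟩
    rw [comm_inv_left']
    have h1 : x⁻¹ * ⁅x, a⁆⁻¹ * x = ⁅x, a⁆⁻¹ := by
      have h2 := Subgroup.mem_centralizer_iff.mp
        (Subgroup.inv_mem _ (hXX x hx a ha)) x⁻¹ (X.inv_mem hx)
      rw [h2]; group
    rw [h1]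
    exact Subgroup.inv_mem _ (hxa a ha)

variable [Finite G] {p : ℕ} [Fact p.Prime]

/-- The lower-family contradiction: under the test property of the lower star family, the
`p'`-generated part of the normal closure of `B` centralizes the minimal subgroup `X`. -/
theorem lower_contra
    (hPS : ∀ (K R : Subgroup G) [(R.subgroupOf K).Normal], PSU p (↥K ⧸ R.subgroupOf K))
    (B X Y : Subgroup G) [hXn : X.Normal] [hYn : Y.Normal] (hBp : IsPGroup p B)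
    (hXp : IsPGroup p X) (hYX : Y ≤ X) (hne : Y ≠ X)
    (hmin : ∀ X₁ : Subgroup G, X₁.Normal → X₁ ≤ X → X₁ ≠ X → X₁ ≤ Y)
    (hYN : Y ≤ Subgroup.centralizer
      ((ppGen p (Subgroup.normalClosure (B : Set G)) : Subgroup G) : Set G))
    (hYZ : Y ≤ Subgroup.centralizer (X : Set G))
    (hB2 : ∀ b₁ ∈ B, ∀ b₂ ∈ B, ∀ b₃ ∈ B, Commute ⁅b₁, b₂⁆ b₃)
    (hXB : ∀ x ∈ X, ∀ b ∈ B, x * b * x⁻¹ ∈ B)
    (hstar : ∀ A : Subgroup G, A ≤ X → (∀ b ∈ B, ∀ a ∈ A, b * a * b⁻¹ ∈ A) →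
      (∀ a₁ ∈ A, ∀ a₂ ∈ A, ∀ b ∈ B, Commute ⁅a₁, a₂⁆ b) →
      (∀ z ∈ B, (∀ b ∈ B, Commute z b) → ∀ a₁ ∈ A, ∀ a₂ ∈ A, Commute ⁅z, a₁⁆ a₂) →
      ∀ b ∈ B, ∀ a ∈ A, ∀ b' ∈ B, Commute ⁅b, a⁆ b') :
    ppGen p (Subgroup.normalClosure (B : Set G)) ≤ Subgroup.centralizer (X : Set G) := by
  classical
  obtain ⟨N₀, hN₀⟩ : ∃ N₀ : Subgroup G, N₀ = ppGen p (Subgroup.normalClosure (B : Set G)) :=
    ⟨_, rfl⟩
  have hN₀n : N₀.Normal := by
    rw [hN₀]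
    haveI : (Subgroup.normalClosure (B : Set G)).Normal := Subgroup.normalClosure_normal
    exact ppGen_normal p _
  rw [← hN₀] at hYN
  have hXXY : ∀ x ∈ X, ∀ a ∈ X, ⁅x, a⁆ ∈ Y := fun x hx a ha =>
    normal_p_comm X Y X hXp hYX hne hmin hXp a ha x hx
  have hXX : ∀ x ∈ X, ∀ a ∈ X, ⁅x, a⁆ ∈ Subgroup.centralizer (X : Set G) := fun x hx a ha =>
    hYZ (hXXY x hx a ha)
  -- central elements of `B` act trivially on `X/Y`
  have hZ : ∀ z ∈ B, (∀ b ∈ B, Commute z b) → ∀ x ∈ X, ⁅x, z⁆ ∈ Y := by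
    have h := quad_np hPS (B ⊓ Subgroup.centralizer (B : Set G)) X Y hXp hYX hne hmin (by
      rintro z ⟨hz, hzc⟩ x hx
      have h1 : ⁅x, z⁆ ∈ B := commElt_mem_of_conj B hz (hXB x hx z hz)
      have h2 : Commute ⁅x, z⁆ z := Subgroup.mem_centralizer_iff.mp hzc _ h1
      rw [commutatorElement_eq_one_iff_commute.mpr h2]
      exact Y.one_mem)
    intro z hz hzc x hx
    exact h z ⟨hz, Subgroup.mem_centralizer_iff.mpr (fun b hb => (hzc b hb).eq.symm)⟩ x hx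
  -- the flat subgroup
  obtain ⟨Xf, hXf⟩ : ∃ Xf : Subgroup G, ∀ x, x ∈ Xf ↔
      x ∈ X ∧ ∀ a ∈ X, ⁅x, a⁆ ∈ Subgroup.centralizer (B : Set G) :=
    ⟨flatSub X B hXX, fun x => Iff.rfl⟩
  have hXfX : Xf ≤ X := fun x hx => ((hXf x).mp hx).1
  have hYXf : Y ≤ Xf := by
    intro y hy
    refine (hXf y).mpr ⟨hYX hy, fun a ha => ?_⟩
    have h1 : ⁅y, a⁆ = 1 := by
      rw [commutatorElement_eq_one_iff_commute]
      exact (Subgroup.mem_centralizer_iff.mp (hYZ hy) a ha).symm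
    rw [h1]; exact Subgroup.one_mem _
  have hf2 : ∀ z ∈ X, z ∈ B → (∀ b ∈ B, Commute z b) → z ∈ Xf := by
    intro z hzX hzB hzc
    refine (hXf z).mpr ⟨hzX, fun a ha => ?_⟩
    rw [Subgroup.mem_centralizer_iff]
    intro b hb
    have e : ⁅z, a⁆ = z * (a * z⁻¹ * a⁻¹) := by simp [commutatorElement_def, mul_assoc]
    have h2 : a⁻¹ * b * a ∈ B := by
      have := hXB a⁻¹ (X.inv_mem ha) b hb
      simpa using this
    have h3 : Commute z (a⁻¹ * b * a) := hzc _ h2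
    have h4 : Commute (a * z⁻¹ * a⁻¹) b := by
      have h5 : z⁻¹ * (a⁻¹ * b * a) = (a⁻¹ * b * a) * z⁻¹ := h3.inv_left.eq
      show a * z⁻¹ * a⁻¹ * b = b * (a * z⁻¹ * a⁻¹)
      calc a * z⁻¹ * a⁻¹ * b = a * (z⁻¹ * (a⁻¹ * b * a)) * a⁻¹ := by group
        _ = a * ((a⁻¹ * b * a) * z⁻¹) * a⁻¹ := by rw [h5]
        _ = b * (a * z⁻¹ * a⁻¹) := by group
    rw [e]
    exact ((hzc b hb).mul_left h4).eq.symm
  have hf3 : ∀ b ∈ B, ∀ x ∈ Xf, b * x * b⁻¹ ∈ Xf := by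
    intro b hb x hx
    obtain ⟨hxX, hxa⟩ := (hXf x).mp hx
    refine (hXf _).mpr ⟨hXn.conj_mem x hxX b, fun a ha => ?_⟩
    rw [comm_conj_left]
    have h1 : b⁻¹ * a * b ∈ X := by
      have := hXn.conj_mem a ha b⁻¹
      simpa using this
    have h2 := hxa _ h1
    have h3 : b * ⁅x, b⁻¹ * a * b⁆ * b⁻¹ = ⁅x, b⁻¹ * a * b⁆ := by
      rw [Subgroup.mem_centralizer_iff.mp h2 b hb]; group
    rw [h3]; exact h2
  have hf4 : ∀ n ∈ N₀, ∀ x ∈ Xf, n * x * n⁻¹ ∈ Xf := by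
    intro n hn x hx
    obtain ⟨hxX, hxa⟩ := (hXf x).mp hx
    refine (hXf _).mpr ⟨hXn.conj_mem x hxX n, fun a ha => ?_⟩
    rw [comm_conj_left]
    have h1 : n⁻¹ * a * n ∈ X := by
      have := hXn.conj_mem a ha n⁻¹
      simpa using this
    have h2 := hxa _ h1
    have h3 : n * ⁅x, n⁻¹ * a * n⁆ * n⁻¹ = ⁅x, n⁻¹ * a * n⁆ := by
      rw [Subgroup.mem_centralizer_iff.mp (hYN (hXXY x hxX _ h1)) n hn]; group
    rw [h3]; exact h2
  -- the test property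
  have hq : ∀ b ∈ B, ∀ a ∈ Xf, ∀ b' ∈ B, Commute ⁅b, a⁆ b' := by
    apply hstar Xf hXfX hf3
    · intro a₁ ha₁ a₂ ha₂ b hb
      have h1 := ((hXf a₁).mp ha₁).2 a₂ (hXfX ha₂)
      exact (Subgroup.mem_centralizer_iff.mp h1 b hb).symm
    · intro z hz hzc a₁ ha₁ a₂ ha₂
      have h1 : ⁅a₁, z⁆ ∈ Y := hZ z hz hzc a₁ (hXfX ha₁)
      have h2 : ⁅z, a₁⁆ ∈ Y := by rw [← commutatorElement_inv]; exact Y.inv_mem h1
      exact (Subgroup.mem_centralizer_iff.mp (hYZ h2) a₂ (hXfX ha₂)).symm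
  have hqq : ∀ b ∈ B, ∀ x ∈ Xf, ⁅⁅x, b⁆, b⁆ = 1 := by
    intro b hb x hx
    rw [commutatorElement_eq_one_iff_commute, ← commutatorElement_inv]
    exact (hq b hb x hx b hb).inv_left
  -- the subgroup generated by the `N₀`-conjugates of `B`
  obtain ⟨Γ, hΓ⟩ : ∃ Γ : Set G, Γ = {g : G | ∃ n ∈ N₀, ∃ b ∈ B, g = n * b * n⁻¹} := ⟨_, rfl⟩
  have hΓXf : ∀ g ∈ Γ, ∀ x ∈ Xf, g * x * g⁻¹ ∈ Xf := by
    rw [hΓ]
    rintro _ ⟨n, hn, b, hb, rfl⟩ x hx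
    have h1 := hf4 n⁻¹ (N₀.inv_mem hn) x hx
    have h2 := hf3 b hb _ h1
    have h3 := hf4 n hn _ h2
    have e : n * b * n⁻¹ * x * (n * b * n⁻¹)⁻¹ = n * (b * (n⁻¹ * x * n⁻¹⁻¹) * b⁻¹) * n⁻¹ := by
      group
    rw [e]; exact h3
  have hL1 : ∀ u ∈ Subgroup.closure Γ, (orderOf u).Coprime p →
      ∀ x ∈ Xf, ⁅x, u⁆ ∈ (⊥ : Subgroup G) := by
    refine sec_ps hPS (Subgroup.normalizer (Xf : Set G)) ⊥ Xf Subgroup.le_normalizer le_rfl ?_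
      (hXp.to_le hXfX) Γ ?_ ?_
    · intro g _
      rw [Subgroup.mem_normalizer_iff]
      intro h
      simp
    · intro g hg
      exact mem_normalizer_of_forall_conj Xf g (hΓXf g hg)
    · rw [hΓ]
      rintro _ ⟨n, hn, b, hb, rfl⟩ x hx
      have hx' : n⁻¹ * x * n ∈ Xf := by
        have := hf4 n⁻¹ (N₀.inv_mem hn) x hx
        simpa using this
      rw [comm_comm_conj, hqq b hb _ hx']
      simp
  obtain ⟨U, hU⟩ : ∃ U : Set G,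
      U = {u | u ∈ Subgroup.closure Γ ∧ (orderOf u).Coprime p} := ⟨_, rfl⟩
  obtain ⟨D, hD⟩ : ∃ D : Subgroup G, D = X ⊓ Subgroup.centralizer U := ⟨_, rfl⟩
  have hXfD : Xf ≤ D := by
    intro x hx
    rw [hD]
    refine ⟨hXfX hx, Subgroup.mem_centralizer_iff.mpr ?_⟩
    intro u hu
    rw [hU] at hu
    have h1 := hL1 u hu.1 hu.2 x hx
    rw [Subgroup.mem_bot, commutatorElement_eq_one_iff_commute] at h1
    exact h1.eq.symm
  have hΓN : ∀ n ∈ N₀, ∀ y ∈ Γ, n * y * n⁻¹ ∈ Γ := by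
    rw [hΓ]
    rintro n hn _ ⟨n', hn', b, hb, rfl⟩
    exact ⟨n * n', N₀.mul_mem hn hn', b, hb, by group⟩
  have hΓB : ∀ c ∈ B, ∀ y ∈ Γ, c * y * c⁻¹ ∈ Γ := by
    rw [hΓ]
    rintro c hc _ ⟨n', hn', b, hb, rfl⟩
    exact ⟨c * n' * c⁻¹, hN₀n.conj_mem n' hn' c, c * b * c⁻¹,
      B.mul_mem (B.mul_mem hc hb) (B.inv_mem hc), by group⟩
  have hDinv : ∀ g : G, (∀ y ∈ Γ, g⁻¹ * y * g⁻¹⁻¹ ∈ Γ) → ∀ d ∈ D, g * d * g⁻¹ ∈ D := by
    intro g hg d hd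
    rw [hD] at hd ⊢
    refine ⟨hXn.conj_mem d hd.1 g, Subgroup.mem_centralizer_iff.mpr ?_⟩
    intro u hu
    rw [hU] at hu
    have hu' : g⁻¹ * u * g⁻¹⁻¹ ∈ U := by
      rw [hU]
      exact ⟨closure_conj_mem Γ g⁻¹ hg u hu.1, by rw [orderOf_conj']; exact hu.2⟩
    have h1 := Subgroup.mem_centralizer_iff.mp hd.2 _ hu'
    calc u * (g * d * g⁻¹) = g * ((g⁻¹ * u * g⁻¹⁻¹) * d) * g⁻¹ := by group
      _ = g * (d * (g⁻¹ * u * g⁻¹⁻¹)) * g⁻¹ := by rw [h1]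
      _ = (g * d * g⁻¹) * u := by group
  have hDN : ∀ n ∈ N₀, ∀ d ∈ D, n * d * n⁻¹ ∈ D := fun n hn =>
    hDinv n (hΓN n⁻¹ (N₀.inv_mem hn))
  have hDB : ∀ c ∈ B, ∀ d ∈ D, c * d * c⁻¹ ∈ D := fun c hc =>
    hDinv c (hΓB c⁻¹ (B.inv_mem hc))
  have hDX : ∀ x ∈ X, ∀ d ∈ D, x * d * x⁻¹ ∈ D := by
    intro x hx d hd
    have hdX : d ∈ X := by rw [hD] at hd; exact hd.1
    have e : x * d * x⁻¹ = ⁅x, d⁆ * d := by simp [commutatorElement_def]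
    rw [e]
    exact D.mul_mem (hXfD (hYXf (hXXY x hx d hdX))) hd
  have hΓD : ∀ g ∈ Γ, ∀ d ∈ D, g * d * g⁻¹ ∈ D := by
    rw [hΓ]
    rintro _ ⟨n, hn, b, hb, rfl⟩ d hd
    have h1 := hDN n⁻¹ (N₀.inv_mem hn) d hd
    have h2 := hDB b hb _ h1
    have h3 := hDN n hn _ h2
    have e : n * b * n⁻¹ * d * (n * b * n⁻¹)⁻¹ = n * (b * (n⁻¹ * d * n⁻¹⁻¹) * b⁻¹) * n⁻¹ := by
      group
    rw [e]; exact h3
  have hL2 : ∀ u ∈ Subgroup.closure Γ, (orderOf u).Coprime p → ∀ x ∈ X, ⁅x, u⁆ ∈ D := by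
    refine sec_ps hPS (Subgroup.normalizer (D : Set G)) D X ?_ ?_ le_rfl hXp Γ ?_ ?_
    · intro x hx
      exact mem_normalizer_of_forall_conj D x (hDX x hx)
    · rw [Subgroup.normalizer_eq_top_iff.mpr hXn]; exact le_top
    · intro g hg
      exact mem_normalizer_of_forall_conj D g (hΓD g hg)
    · rw [hΓ]
      rintro _ ⟨n, hn, b, hb, rfl⟩ x hx
      rw [comm_comm_conj]
      apply hDN n hn
      apply hXfD
      have hx' : n⁻¹ * x * n ∈ X := by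
        have := hXn.conj_mem x hx n⁻¹
        simpa using this
      have hc : ⁅n⁻¹ * x * n, b⁆ ∈ B := commElt_mem_of_conj B hb (hXB _ hx' b hb)
      have hcX : ⁅n⁻¹ * x * n, b⁆ ∈ X := commElt_mem_left_normal X hx' b
      exact hf2 _ (commElt_mem_left_normal X hcX b) (commElt_mem B hc hb)
        (fun b₃ hb₃ => hB2 _ hc b hb b₃ hb₃)
  have hL3 : ∀ u ∈ Subgroup.closure Γ, (orderOf u).Coprime p →
      u ∈ Subgroup.centralizer (X : Set G) := by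
    intro u hu hc
    rw [Subgroup.mem_centralizer_iff]
    intro x hx
    have h1 : ⁅x, u⁆ ∈ D := hL2 u hu hc x hx
    have h2 : Commute ⁅x, u⁆ u := by
      rw [hD] at h1
      exact (Subgroup.mem_centralizer_iff.mp h1.2 u (by rw [hU]; exact ⟨hu, hc⟩)).symm
    have h3 : ⁅x, u⁆ = 1 := by
      apply comm_eq_one_of_coprime (p := p) _ hc h2
      obtain ⟨k, hk⟩ := hXp ⟨_, commElt_mem_left_normal X hx u⟩
      exact ⟨k, congrArg Subtype.val hk⟩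
    rw [commutatorElement_eq_one_iff_commute] at h3
    exact h3.eq
  apply ending B X hBp
  intro u hu hc
  refine hL3 u ?_ hc
  rw [hΓ, hN₀]; exact hu

end lower

end Cfsg.Agent.Lib.helper10
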