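import Cfsg.Agent.Lib.helper10.KStab6
import Cfsg.Agent.Lib.helper10.KTransfer
import Cfsg.Agent.Lib.helper10.KMain
import Cfsg.Agent.Lib.helper10.SFCore
import Cfsg.Agent.Lib.helper10.Sect

set_option autoImplicit false

namespace Cfsg.Agent.Lib.helper10

open Cfsg
open scoped commutatorElement

universe u

section psusect
variable {G : Type u} [Group G] [Finite G] {p : ℕ} [Fact p.Prime]

/-- Sections of sections are sections: transport of unpacked `p`-stability. -/
theorem psu_sections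
    (hst : ∀ (K R : Subgroup G) [(R.subgroupOf K).Normal], PSU p (↥K ⧸ R.subgroupOf K))
    (K R : Subgroup G) [hR : (R.subgroupOf K).Normal]
    (K' R' : Subgroup (↥K ⧸ R.subgroupOf K)) [hR' : (R'.subgroupOf K').Normal] :
    PSU p (↥K' ⧸ R'.subgroupOf K') := by
  obtain ⟨K₁, R₁, hR₁, ⟨e₁⟩⟩ := section_subgroup K (QuotientGroup.mk' (R.subgroupOf K))
    (QuotientGroup.mk'_surjective _) K'
  obtain ⟨R₂, hR₂, ⟨e₂⟩⟩ := section_quotient K₁
    ((e₁.toMonoidHom).comp (QuotientGroup.mk' (R₁.subgroupOf K₁)))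
    (e₁.surjective.comp (QuotientGroup.mk'_surjective _)) (R'.subgroupOf K')
  exact psu_of_equiv e₂ (hst K₁ R₂)

theorem fchain_mem_subgroup' {X : Type*} [Group X] {Ns T A : Set X} {c : X} (H : Subgroup X)
    (hNs : Ns ⊆ (H : Set X)) (h : FChain Ns T A c) : c ∈ H := by
  induction h with
  | one hA => exact H.one_mem
  | step c y hy h hA ih => exact H.mul_mem (hNs hy) ih

/-- A functor determined by any subgroup containing all the terms of nonnegative index of the
K-sequence is normal on the Sylow subgroups of a constrained group whose sections are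
`p`-stable. -/
theorem kfun_normal_of_psu {X : Type u} [Group X] [Finite X]
    (W : ∀ (Q : Type u) [Group Q], Subgroup Q) (hW : IsCharPFunctor.{u} p W)
    (hS : ∀ (T : Type u) [Group T] [Finite T], IsPGroup p T → ∀ P' : Subgroup T,
      (∀ n : ℕ, kSeqEven T n ≤ P' ∧ kSeqOdd T (n + 1) ≤ P') → (W ↥P').map P'.subtype = W T)
    (hPS : ∀ (K R : Subgroup X) [(R.subgroupOf K).Normal], PSU p (↥K ⧸ R.subgroupOf K))
    (hC : Subgroup.centralizer ((pCore p X : Subgroup X) : Set X) ≤ pCore p X) (S : Sylow p X) :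
    (inducedFunctor (G := X) W (S : Subgroup X)).Normal := by
  by_contra hnn
  haveI := Cfsg.Agent.Lib.helper14.pCore_normal' p X
  exact kinf_not_all_le W hW hS S (pCore p X) (Cfsg.Agent.Lib.helper14.isPGroup_pCore p X) hnn
    (kseq_le_pcore hPS hC S)

/-- Such a functor controls strong fusion in every group all of whose sections are `p`-stable
in the normalizer form. -/
theorem sf_of_psu (W : ∀ (Q : Type u) [Group Q], Subgroup Q) (hW : IsCharPFunctor.{u} p W)
    (hS : ∀ (T : Type u) [Group T] [Finite T], IsPGroup p T → ∀ P' : Subgroup T,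
      (∀ n : ℕ, kSeqEven T n ≤ P' ∧ kSeqOdd T (n + 1) ≤ P') → (W ↥P').map P'.subtype = W T)
    (hst : ∀ (K R : Subgroup G) [hR : (R.subgroupOf K).Normal],
      IsNormalizerPStable p (↥K ⧸ R.subgroupOf K))
    (S : Sylow p G) : ControlsStrongFusion p (inducedFunctor W (S : Subgroup G)) := by
  have hPS : ∀ (K R : Subgroup G) [(R.subgroupOf K).Normal], PSU p (↥K ⧸ R.subgroupOf K) :=
    fun K R _ => psu_of_stable (hst K R)
  have h𝓦 := isChar_singleton (p := p) W hW
  have hcon : ∀ (K R : Subgroup G) [hR : (R.subgroupOf K).Normal],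
      Subgroup.centralizer ((pCore p (↥K ⧸ R.subgroupOf K) : Subgroup (↥K ⧸ R.subgroupOf K)) :
        Set (↥K ⧸ R.subgroupOf K)) ≤ pCore p (↥K ⧸ R.subgroupOf K) →
      FamilyControlsStrongFusionIn p
        ((fun W => inducedFunctor (G := ↥K ⧸ R.subgroupOf K) W) ''
          ({W} : Set (∀ (Q : Type u) [Group Q], Subgroup Q))) ⊤ := by
    intro K₁ R₁ hR₁ hC
    obtain ⟨S₁⟩ : Nonempty (Sylow p (↥K₁ ⧸ R₁.subgroupOf K₁)) := inferInstance
    apply control_of_chainGood _ S₁
    intro A g hA hgA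
    refine ChainGood.single ⟨W, rfl, ?_⟩ hA hgA
    have hn := kfun_normal_of_psu W hW hS (fun K' R' _ => psu_sections hPS K₁ R₁ K' R') hC S₁
    rw [Subgroup.normalizer_eq_top_iff.mpr hn]
    exact Subgroup.mem_top _
  have hc := sf_control_of_top_bot ({W} : Set (∀ (Q : Type u) [Group Q], Subgroup Q)) h𝓦
    (fun K R hR => strong_fusion_sections _ h𝓦 hcon _ K R rfl)
  refine ⟨S, (isConjugacyFunctor_induced W hW _ S.2).1, fun A hA => ⟨hA, fun g hg => ?_⟩⟩
  obtain ⟨c, hch, hca⟩ := chainGood_of_control _ h𝓦 S ⊤ le_top hc A g (Subgroup.mem_top _) hA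
    (fun a ha => hg ⟨a, ha, rfl⟩)
  refine ⟨c, fchain_mem_subgroup' _ ?_ hch, fun a ha => (hca a ha).symm⟩
  rintro z ⟨W', hW', hz⟩
  rw [Set.mem_singleton_iff] at hW'
  rw [hW'] at hz
  exact hz

end psusect

end Cfsg.Agent.Lib.helper10
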