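import Mathlib
import Cfsg.Prelude.Def_PLocal
import Cfsg.Agent.Lib.helper1.PGroup

/-!
# Regular `p`-groups: power sets and commutators (seat helper10)

`RegAt p n G` is the level-`n` identity of the definition of a regular `p`-group.  From it alone we
get that the `p^n`-th powers of a subgroup form a subgroup and the commutator bound.
-/

set_option autoImplicit false

namespace Cfsg.Agent.Lib.helper10

open scoped commutatorElement

/-- the level-`n` regularity identity -/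
def RegAt (p n : ℕ) (G : Type*) [Group G] : Prop :=
  ∀ a b : G, ∃ c ∈ Cfsg.powerClosure p n
      ⁅Subgroup.closure ({a, b} : Set G), Subgroup.closure ({a, b} : Set G)⁆,
    (a * b) ^ (p ^ n) = a ^ (p ^ n) * b ^ (p ^ n) * c

theorem reg_comm_le_self {G : Type*} [Group G] (K : Subgroup G) : ⁅K, K⁆ ≤ K := by
  rw [Subgroup.commutator_le]
  intro a ha b hb
  exact K.mul_mem (K.mul_mem (K.mul_mem ha hb) (K.inv_mem ha)) (K.inv_mem hb)

theorem reg_powerClosure_mono {G : Type*} [Group G] (p n : ℕ) {H K : Subgroup G} (h : H ≤ K) :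
    Cfsg.powerClosure p n H ≤ Cfsg.powerClosure p n K := by
  unfold Cfsg.powerClosure
  apply Subgroup.closure_mono
  rintro y ⟨x, hx, rfl⟩
  exact ⟨x, h hx, rfl⟩

theorem reg_powerClosure_le {G : Type*} [Group G] (p n : ℕ) (H : Subgroup G) :
    Cfsg.powerClosure p n H ≤ H := by
  unfold Cfsg.powerClosure
  rw [Subgroup.closure_le]
  rintro y ⟨x, hx, rfl⟩
  exact H.pow_mem hx _

theorem reg_pow_mem {G : Type*} [Group G] (p n : ℕ) (H : Subgroup G) {x : G} (hx : x ∈ H) :
    x ^ (p ^ n) ∈ Cfsg.powerClosure p n H :=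
  Subgroup.subset_closure ⟨x, hx, rfl⟩

/-- a `p`-group generated by `u` and an element of its derived subgroup is abelian -/
theorem reg_comm_of_gen {G : Type*} [Group G] [Finite G] {p : ℕ} [Fact p.Prime]
    (hG : IsPGroup p G) (K : Subgroup G) (u d : G) (hgen : Subgroup.closure ({u, d} : Set G) = K)
    (hd : d ∈ ⁅K, K⁆) : ∀ x ∈ K, ∀ y ∈ K, x * y = y * x := by
  have huK : u ∈ K := by rw [← hgen]; exact Subgroup.subset_closure (by simp)
  have hdK : d ∈ K := reg_comm_le_self K hd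
  have hKp : IsPGroup p ↥K := hG.to_subgroup K
  have hd' : (⟨d, hdK⟩ : ↥K) ∈ commutator ↥K := by
    have h1 : d ∈ (commutator ↥K).map K.subtype := by
      rw [Subgroup.map_subtype_commutator]; exact hd
    obtain ⟨d', hd', hdd⟩ := h1
    have : d' = ⟨d, hdK⟩ := Subtype.ext hdd
    rw [← this]; exact hd'
  have hfr : (⟨d, hdK⟩ : ↥K) ∈ frattini ↥K :=
    Cfsg.Agent.Lib.helper1.commutator_le_frattini p hKp hd'
  have htop : Subgroup.closure ({⟨u, huK⟩, ⟨d, hdK⟩} : Set ↥K) = ⊤ := by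
    apply Subgroup.map_injective K.subtype_injective
    rw [MonoidHom.map_closure, Set.image_pair, ← MonoidHom.range_eq_map, Subgroup.range_subtype]
    exact hgen
  have hsup : Subgroup.zpowers (⟨u, huK⟩ : ↥K) ⊔ frattini ↥K = ⊤ := by
    apply top_le_iff.1
    rw [← htop, Subgroup.closure_le]
    rintro z (hz | hz)
    · rw [hz]; exact (le_sup_left : Subgroup.zpowers (⟨u, huK⟩ : ↥K) ≤ _)
        (Subgroup.mem_zpowers _)
    · rw [Set.mem_singleton_iff] at hz
      rw [hz]; exact (le_sup_right : frattini ↥K ≤ _) hfr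
  have hz : Subgroup.zpowers (⟨u, huK⟩ : ↥K) = ⊤ := frattini_nongenerating hsup
  intro x hx y hy
  have hx' : (⟨x, hx⟩ : ↥K) ∈ Subgroup.zpowers (⟨u, huK⟩ : ↥K) := by rw [hz]; trivial
  have hy' : (⟨y, hy⟩ : ↥K) ∈ Subgroup.zpowers (⟨u, huK⟩ : ↥K) := by rw [hz]; trivial
  obtain ⟨i, hi⟩ := Subgroup.mem_zpowers_iff.1 hx'
  obtain ⟨j, hj⟩ := Subgroup.mem_zpowers_iff.1 hy'
  have hxi : x = u ^ i := by
    have := congrArg Subtype.val hi
    simpa using this.symm
  have hyj : y = u ^ j := by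
    have := congrArg Subtype.val hj
    simpa using this.symm
  rw [hxi, hyj, ← zpow_add, ← zpow_add, add_comm]

/-- products of two `p^n`-th powers are `p^n`-th powers -/
theorem reg_pow_mul_pow {G : Type*} [Group G] [Finite G] {p : ℕ} [Fact p.Prime]
    (hG : IsPGroup p G) (n : ℕ) (hreg : RegAt p n G) :
    ∀ m : ℕ, ∀ x y : G, Nat.card ↥(Subgroup.closure ({x, y} : Set G)) ≤ m →
      ∃ z ∈ Subgroup.closure ({x, y} : Set G), x ^ (p ^ n) * y ^ (p ^ n) = z ^ (p ^ n) := by
  intro m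
  induction m with
  | zero =>
    intro x y h
    have := Nat.card_pos (α := ↥(Subgroup.closure ({x, y} : Set G)))
    omega
  | succ m ih =>
    intro x y hcard
    set K : Subgroup G := Subgroup.closure ({x, y} : Set G) with hK
    have hxK : x ∈ K := Subgroup.subset_closure (by simp)
    have hyK : y ∈ K := Subgroup.subset_closure (by simp)
    by_cases hc : x * y = y * x
    · exact ⟨x * y, K.mul_mem hxK hyK, ((show Commute x y from hc).mul_pow _).symm⟩
    · obtain ⟨c, hcm, hxy⟩ := hreg x y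
      rw [← hK] at hcm
      have hKne : K ≠ ⊥ := by
        intro h
        rw [h, Subgroup.mem_bot] at hxK hyK
        exact hc (by rw [hxK, hyK])
      have : Group.IsNilpotent G := hG.isNilpotent
      have hlt : ⁅K, K⁆ < K := Group.IsSolvable.commutator_lt_of_ne_bot hKne
      have hcardlt : Nat.card ↥⁅K, K⁆ < Nat.card ↥K := by
        by_contra h
        push Not at h
        exact hlt.ne (Subgroup.eq_of_le_of_card_ge hlt.le h)
      have hT : ∀ w ∈ Cfsg.powerClosure p n ⁅K, K⁆, ∃ z ∈ ⁅K, K⁆, w = z ^ (p ^ n) := by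
        intro w hw
        unfold Cfsg.powerClosure at hw
        induction hw using Subgroup.closure_induction with
        | mem w hw => exact hw
        | one => exact ⟨1, Subgroup.one_mem _, (one_pow _).symm⟩
        | mul w₁ w₂ _ _ ih₁ ih₂ =>
          obtain ⟨z₁, hz₁, rfl⟩ := ih₁
          obtain ⟨z₂, hz₂, rfl⟩ := ih₂
          have hle : Subgroup.closure ({z₁, z₂} : Set G) ≤ ⁅K, K⁆ := by
            rw [Subgroup.closure_le]
            rintro z (hz | hz)
            · rw [hz]; exact hz₁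
            · rw [Set.mem_singleton_iff] at hz; rw [hz]; exact hz₂
          have hcd : Nat.card ↥(Subgroup.closure ({z₁, z₂} : Set G)) ≤ m := by
            have := Subgroup.card_le_of_le hle
            omega
          obtain ⟨z, hz, hzz⟩ := ih z₁ z₂ hcd
          exact ⟨z, hle hz, hzz⟩
        | inv w _ ih₁ =>
          obtain ⟨z₁, hz₁, rfl⟩ := ih₁
          exact ⟨z₁⁻¹, Subgroup.inv_mem _ hz₁, (inv_pow _ _).symm⟩
      obtain ⟨d, hd, hcd⟩ := hT c⁻¹ (Subgroup.inv_mem _ hcm)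
      have hprod : x ^ (p ^ n) * y ^ (p ^ n) = (x * y) ^ (p ^ n) * d ^ (p ^ n) := by
        rw [← hcd, hxy, mul_inv_cancel_right]
      have hdK : d ∈ K := hlt.le hd
      have hLK : Subgroup.closure ({x * y, d} : Set G) ≤ K := by
        rw [Subgroup.closure_le]
        rintro z (hz | hz)
        · rw [hz]; exact K.mul_mem hxK hyK
        · rw [Set.mem_singleton_iff] at hz; rw [hz]; exact hdK
      by_cases hL : Nat.card ↥(Subgroup.closure ({x * y, d} : Set G)) ≤ m
      · obtain ⟨z, hz, hzz⟩ := ih (x * y) d hL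
        exact ⟨z, hLK hz, hprod.trans hzz⟩
      · exfalso
        have hge : Nat.card ↥K ≤ Nat.card ↥(Subgroup.closure ({x * y, d} : Set G)) := by omega
        have heq := Subgroup.eq_of_le_of_card_ge hLK hge
        exact hc (reg_comm_of_gen hG K (x * y) d heq hd x hxK y hyK)

/-- in a group satisfying the level-`n` identity, the `p^n`-th powers of a subgroup form a
subgroup -/
theorem reg_pow_set_eq {G : Type*} [Group G] [Finite G] {p : ℕ} [Fact p.Prime]
    (hG : IsPGroup p G) (n : ℕ) (hreg : RegAt p n G) (H : Subgroup G) :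
    {y : G | ∃ x ∈ H, y = x ^ (p ^ n)} = (Cfsg.powerClosure p n H : Set G) := by
  apply Set.Subset.antisymm
  · exact Subgroup.subset_closure
  · have key : ∀ w ∈ Cfsg.powerClosure p n H, ∃ x ∈ H, w = x ^ (p ^ n) := by
      intro w hw'
      unfold Cfsg.powerClosure at hw'
      induction hw' using Subgroup.closure_induction with
      | mem w hw => exact hw
      | one => exact ⟨1, Subgroup.one_mem _, (one_pow _).symm⟩
      | mul w₁ w₂ _ _ ih₁ ih₂ =>
        obtain ⟨z₁, hz₁, rfl⟩ := ih₁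
        obtain ⟨z₂, hz₂, rfl⟩ := ih₂
        have hle : Subgroup.closure ({z₁, z₂} : Set G) ≤ H := by
          rw [Subgroup.closure_le]
          rintro z (hz | hz)
          · rw [hz]; exact hz₁
          · rw [Set.mem_singleton_iff] at hz; rw [hz]; exact hz₂
        obtain ⟨z, hz, hzz⟩ := reg_pow_mul_pow hG n hreg _ z₁ z₂ le_rfl
        exact ⟨z, hle hz, hzz⟩
      | inv w _ ih₁ =>
        obtain ⟨z₁, hz₁, rfl⟩ := ih₁
        exact ⟨z₁⁻¹, Subgroup.inv_mem _ hz₁, (inv_pow _ _).symm⟩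
    intro w hw
    exact key w hw

theorem reg_comm_pow_mem {G : Type*} [Group G] {p : ℕ} (n : ℕ) (hreg : RegAt p n G)
    (H : Subgroup G) (x y : G) (hx : x ∈ H) (hy : y ∈ H) :
    ⁅x ^ (p ^ n), y⁆ ∈ Cfsg.powerClosure p n ⁅H, H⁆ := by
  obtain ⟨c, hc, h⟩ := hreg x (y * x⁻¹ * y⁻¹)
  have hle : Subgroup.closure ({x, y * x⁻¹ * y⁻¹} : Set G) ≤ H := by
    rw [Subgroup.closure_le]
    rintro z (hz | hz)
    · rw [hz]; exact hx
    · rw [Set.mem_singleton_iff] at hz; rw [hz]
      exact H.mul_mem (H.mul_mem hy (H.inv_mem hx)) (H.inv_mem hy)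
  have hc' : c ∈ Cfsg.powerClosure p n ⁅H, H⁆ :=
    reg_powerClosure_mono p n (Subgroup.commutator_mono hle hle) hc
  have h1 : ⁅x ^ (p ^ n), y⁆ = x ^ (p ^ n) * (y * x⁻¹ * y⁻¹) ^ (p ^ n) := by
    rw [commutatorElement_def, conj_pow, inv_pow]; group
  have h2 : x * (y * x⁻¹ * y⁻¹) = ⁅x, y⁆ := by rw [commutatorElement_def]; group
  have h3 : ⁅x ^ (p ^ n), y⁆ = ⁅x, y⁆ ^ (p ^ n) * c⁻¹ := by
    rw [h1, ← h2, h, mul_inv_cancel_right]
  rw [h3]
  exact Subgroup.mul_mem _
    (reg_pow_mem p n _ (Subgroup.commutator_mem_commutator hx hy)) (Subgroup.inv_mem _ hc')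

theorem reg_conj_mem_comm {G : Type*} [Group G] (H : Subgroup G) (h z : G) (hh : h ∈ H)
    (hz : z ∈ ⁅H, H⁆) : h * z * h⁻¹ ∈ ⁅H, H⁆ := by
  have h1 : h * z * h⁻¹ = ⁅h, z⁆ * z := by rw [commutatorElement_def]; group
  rw [h1]
  exact Subgroup.mul_mem _ (Subgroup.commutator_mem_commutator hh (reg_comm_le_self H hz)) hz

theorem reg_conj_mem_power {G : Type*} [Group G] (p n : ℕ) (H : Subgroup G) (h w : G)
    (hh : h ∈ H) (hw : w ∈ Cfsg.powerClosure p n ⁅H, H⁆) :
    h * w * h⁻¹ ∈ Cfsg.powerClosure p n ⁅H, H⁆ := by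
  unfold Cfsg.powerClosure at hw
  induction hw using Subgroup.closure_induction with
  | mem w hw =>
    obtain ⟨z, hz, rfl⟩ := hw
    rw [← conj_pow]
    exact reg_pow_mem p n _ (reg_conj_mem_comm H h z hh hz)
  | one => simp
  | mul w₁ w₂ _ _ ih₁ ih₂ =>
    have : h * (w₁ * w₂) * h⁻¹ = (h * w₁ * h⁻¹) * (h * w₂ * h⁻¹) := by group
    rw [this]; exact Subgroup.mul_mem _ ih₁ ih₂
  | inv w _ ih₁ =>
    have : h * w⁻¹ * h⁻¹ = (h * w * h⁻¹)⁻¹ := by group
    rw [this]; exact Subgroup.inv_mem _ ih₁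

/-- `[℧ₙ(H), H] ≤ ℧ₙ(H')` elementwise -/
theorem reg_comm_power_mem {G : Type*} [Group G] {p : ℕ} (n : ℕ) (hreg : RegAt p n G)
    (H : Subgroup G) (a y : G) (ha : a ∈ Cfsg.powerClosure p n H) (hy : y ∈ H) :
    ⁅a, y⁆ ∈ Cfsg.powerClosure p n ⁅H, H⁆ := by
  have haH : ∀ a ∈ Cfsg.powerClosure p n H, a ∈ H := fun a ha => reg_powerClosure_le p n H ha
  unfold Cfsg.powerClosure at ha
  induction ha using Subgroup.closure_induction with
  | mem a ha =>
    obtain ⟨x, hx, rfl⟩ := ha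
    exact reg_comm_pow_mem n hreg H x y hx hy
  | one => simp [commutatorElement_def]
  | mul a₁ a₂ h₁ h₂ ih₁ ih₂ =>
    have : ⁅a₁ * a₂, y⁆ = (a₁ * ⁅a₂, y⁆ * a₁⁻¹) * ⁅a₁, y⁆ := by
      simp only [commutatorElement_def]; group
    rw [this]
    exact Subgroup.mul_mem _ (reg_conj_mem_power p n H a₁ _ (haH a₁ h₁) ih₂) ih₁
  | inv a h₁ ih₁ =>
    have : ⁅a⁻¹, y⁆ = a⁻¹ * ⁅a, y⁆⁻¹ * a⁻¹⁻¹ := by
      simp only [commutatorElement_def]; group
    rw [this]
    exact reg_conj_mem_power p n H a⁻¹ _ (H.inv_mem (haH a h₁)) (Subgroup.inv_mem _ ih₁)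

/-- `[℧ₙ(H), ℧ₙ(H)] ≤ ℧ₙ(H')` -/
theorem reg_comm_power_le {G : Type*} [Group G] {p : ℕ} (n : ℕ) (hreg : RegAt p n G)
    (H : Subgroup G) :
    ⁅Cfsg.powerClosure p n H, Cfsg.powerClosure p n H⁆ ≤ Cfsg.powerClosure p n ⁅H, H⁆ := by
  rw [Subgroup.commutator_le]
  intro a ha b hb
  exact reg_comm_power_mem n hreg H a b ha (reg_powerClosure_le p n H hb)

end Cfsg.Agent.Lib.helper10
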