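import Mathlib
import Cfsg.Agent.S1453
import Cfsg.Agent.Lib.helper25.S1455Q1

set_option autoImplicit false

namespace Cfsg.Agent.Lib.helper10.S1454F2a

/-- (F2a) of S1454: a narrow `p`-group of rank at least 3 has a characteristic subgroup `T` of
index `p` and an element `e` such that every exponent-`p` subgroup of `T` centralizing `e` has
order at most `p`. -/
theorem narrow_T {R : Type*} [Group R] [Finite R] (p : ℕ) [Fact p.Prime] (hp : p ≠ 2)
    (hR : IsPGroup p R) (hRn : Cfsg.IsNarrow p R) (hr3 : ¬ Cfsg.PRankLE p 2 R) :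
    ∃ (e : R) (T : Subgroup R), T.Characteristic ∧ T.index = p ∧
      ∀ B : Subgroup R, B ≤ T → (∀ b ∈ B, b * e = e * b) → (∀ b ∈ B, b ^ p = 1) →
        Nat.card B ≤ p := by
  classical
  have hpp : p.Prime := Fact.out
  obtain ⟨R₀, R₁, h0, h1, hmeet, hc, hsup⟩ := hRn.resolve_left hr3
  haveI hcyc0 : IsCyclic R₀ := isCyclic_of_prime_card h0
  obtain ⟨g, hg⟩ := IsCyclic.exists_generator (α := R₀)
  obtain ⟨e, hedef⟩ : ∃ e : R, e = (g : R) := ⟨_, rfl⟩
  -- every element of R₀ is a power of e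
  have hpow : ∀ h ∈ R₀, ∃ k : ℤ, h = e ^ k := by
    intro h hh
    obtain ⟨k, hk⟩ := Subgroup.mem_zpowers_iff.1 (hg ⟨h, hh⟩)
    refine ⟨k, ?_⟩
    have := congrArg Subtype.val hk
    rw [hedef]
    simpa using this.symm
  have hcentE : ∀ x : R, x * e = e * x → x ∈ Subgroup.centralizer (R₀ : Set R) := by
    intro x hx
    rw [Subgroup.mem_centralizer_iff]
    intro h hh
    obtain ⟨k, rfl⟩ := hpow h hh
    exact ((Commute.zpow_right (show Commute x e from hx) k).eq).symm
  -- R₀ ⊔ R₁ is commutative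
  have hab : ∀ x ∈ R₀ ⊔ R₁, ∀ y ∈ R₀ ⊔ R₁, x * y = y * x := by
    obtain ⟨S, hSdef⟩ : ∃ S : Set R, S = (R₀ : Set R) ∪ (R₁ : Set R) := ⟨_, rfl⟩
    have hS : ∀ x ∈ S, ∀ y ∈ S, x * y = y * x := by
      intro x hx y hy
      rw [hSdef] at hx hy
      rcases hx with hx | hx <;> rcases hy with hy | hy
      · exact congrArg Subtype.val
          ((IsCyclic.isMulCommutative (α := R₀)).is_comm.comm ⟨x, hx⟩ ⟨y, hy⟩)
      · exact hc x hx y hy
      · exact (hc y hy x hx).symm
      · haveI := h1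
        exact congrArg Subtype.val
          ((IsCyclic.isMulCommutative (α := R₁)).is_comm.comm ⟨x, hx⟩ ⟨y, hy⟩)
    have hcl : R₀ ⊔ R₁ = Subgroup.closure S := by
      rw [hSdef, Subgroup.closure_union, Subgroup.closure_eq, Subgroup.closure_eq]
    have h1' : Subgroup.closure S ≤ Subgroup.centralizer S :=
      (Subgroup.closure_le _).2 (fun x hx => Subgroup.mem_centralizer_iff.2
        (fun y hy => hS y hy x hx))
    have h2' : Subgroup.closure S ≤ Subgroup.centralizer (Subgroup.closure S : Set R) :=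
      (Subgroup.closure_le _).2 (fun x hx => Subgroup.mem_centralizer_iff.2
        (fun y hy => (Subgroup.mem_centralizer_iff.1 (h1' hy) x hx).symm))
    intro x hx y hy
    rw [hcl] at hx hy
    exact Subgroup.mem_centralizer_iff.1 (h2' hy) x hx
  -- the subgroup E of elements of order dividing p in the centralizer of R₀
  obtain ⟨E, hE⟩ : ∃ E : Subgroup R, ∀ x, x ∈ E ↔
      (x ∈ Subgroup.centralizer (R₀ : Set R) ∧ x ^ p = 1) := by
    refine ⟨{ carrier := {x | x ∈ Subgroup.centralizer (R₀ : Set R) ∧ x ^ p = 1}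
              mul_mem' := ?_
              one_mem' := ⟨Subgroup.one_mem _, one_pow _⟩
              inv_mem' := ?_ }, fun x => Iff.rfl⟩
    · rintro x y ⟨hx, hxp⟩ ⟨hy, hyp⟩
      refine ⟨Subgroup.mul_mem _ hx hy, ?_⟩
      have hxy : Commute x y := hab x (hsup ▸ hx) y (hsup ▸ hy)
      rw [hxy.mul_pow, hxp, hyp, one_mul]
    · rintro x ⟨hx, hxp⟩
      exact ⟨Subgroup.inv_mem _ hx, by rw [inv_pow, hxp, inv_one]⟩
  have hEle' : E ≤ R₀ ⊔ R₁ := fun x hx => hsup ▸ ((hE x).1 hx).1
  have hEp : ∀ a ∈ E, a ^ p = 1 := fun a ha => ((hE a).1 ha).2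
  have hEea : Cfsg.IsElementaryAbelian p E :=
    ⟨⟨⟨fun a b => Subtype.ext (hab a (hEle' a.2) b (hEle' b.2))⟩⟩, hEp⟩
  have hR0p : ∀ x ∈ R₀, x ^ p = 1 := by
    intro x hx
    have h3 : (⟨x, hx⟩ : R₀) ^ Nat.card R₀ = 1 := pow_card_eq_one'
    rw [h0] at h3
    exact congrArg Subtype.val h3
  have hR0E : R₀ ≤ E := fun x hx =>
    (hE x).2 ⟨by rw [← hsup]; exact (le_sup_left : R₀ ≤ R₀ ⊔ R₁) hx, hR0p x hx⟩
  have hEle : Nat.card E ≤ p ^ 2 := Cfsg.Agent.Lib.helper25.S1455Q1.narrow_count p R₀ R₁ E h0 h1 hc hEle' hEp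
  have hEmax : ∀ B : Subgroup R, Cfsg.IsElementaryAbelian p B → E ≤ B → B = E := by
    intro B hB hEB
    apply le_antisymm _ hEB
    intro b hb
    refine (hE b).2 ⟨?_, hB.2 b hb⟩
    rw [Subgroup.mem_centralizer_iff]
    intro h hh
    have hhB : h ∈ B := hEB (hR0E hh)
    exact congrArg Subtype.val (hB.1.is_comm.comm ⟨h, hhB⟩ ⟨b, hb⟩)
  have hE2 : Nat.card E = p ^ 2 := by
    obtain ⟨k, hk⟩ := (IsPGroup.iff_card (p := p)).1 (hR.to_subgroup E)
    have hk2 : k ≤ 2 := by
      rw [hk] at hEle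
      exact (Nat.pow_le_pow_iff_right hpp.one_lt).1 hEle
    have hk0 : k ≠ 0 := by
      intro h
      have h3 : Nat.card R₀ ∣ Nat.card E := Subgroup.card_dvd_of_le hR0E
      rw [h0, hk, h, pow_zero] at h3
      exact hpp.one_lt.ne' (Nat.dvd_one.1 h3)
    rcases Nat.lt_or_ge k 2 with hlt | hge
    · exfalso
      have hk1 : k = 1 := by omega
      rw [hk1, pow_one] at hk
      have hER : R₀ = E := Subgroup.eq_of_le_of_card_ge hR0E (by rw [hk, h0])
      -- a central element of order p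
      haveI : Nontrivial R₀ := by
        rw [← Finite.one_lt_card_iff_nontrivial, h0]; exact hpp.one_lt
      haveI : Nontrivial R := by
        obtain ⟨a, b, hab'⟩ := exists_pair_ne R₀
        exact ⟨⟨a, b, fun h => hab' (Subtype.ext h)⟩⟩
      haveI hZn : Nontrivial (Subgroup.center R) := hR.center_nontrivial
      obtain ⟨j, hj⟩ := (IsPGroup.iff_card (p := p)).1 (hR.to_subgroup (Subgroup.center R))
      have hj0 : j ≠ 0 := by
        intro h
        rw [h, pow_zero] at hj
        have := Finite.one_lt_card_iff_nontrivial.2 hZn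
        omega
      have hpd : p ∣ Nat.card (Subgroup.center R) := by rw [hj]; exact dvd_pow_self p hj0
      obtain ⟨⟨z, hzc⟩, hz⟩ := exists_prime_orderOf_dvd_card' (G := Subgroup.center R) p hpd
      have hzp : z ^ p = 1 := by
        have h3 := pow_orderOf_eq_one (⟨z, hzc⟩ : Subgroup.center R)
        rw [hz] at h3
        exact congrArg Subtype.val h3
      have hz1 : z ≠ 1 := by
        intro h
        have h3 : (⟨z, hzc⟩ : Subgroup.center R) = 1 := Subtype.ext h
        rw [h3, orderOf_one] at hz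
        exact hpp.one_lt.ne hz
      have hzE : z ∈ E := by
        refine (hE z).2 ⟨?_, hzp⟩
        rw [Subgroup.mem_centralizer_iff]
        intro h hh
        exact Subgroup.mem_center_iff.1 hzc h
      have hzR0 : z ∈ R₀ := by rw [hER]; exact hzE
      have htop : Subgroup.zpowers (⟨z, hzR0⟩ : R₀) = ⊤ :=
        zpowers_eq_top_of_prime_card h0 (fun h => hz1 (congrArg Subtype.val h))
      have hR0c : ∀ h ∈ R₀, h ∈ Subgroup.center R := by
        intro h hh
        have h3 : (⟨h, hh⟩ : R₀) ∈ Subgroup.zpowers (⟨z, hzR0⟩ : R₀) := by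
          rw [htop]; exact Subgroup.mem_top _
        obtain ⟨k', hk'⟩ := Subgroup.mem_zpowers_iff.1 h3
        have h4 : h = z ^ k' := by
          have := congrArg Subtype.val hk'
          simpa using this.symm
        rw [h4]
        exact Subgroup.zpow_mem _ hzc k'
      have hall : ∀ x : R, x ∈ R₀ ⊔ R₁ := by
        intro x
        rw [hsup, Subgroup.mem_centralizer_iff]
        intro h hh
        exact (Subgroup.mem_center_iff.1 (hR0c h hh) x).symm
      apply hr3
      intro A _ hAp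
      exact Cfsg.Agent.Lib.helper25.S1455Q1.narrow_count p R₀ R₁ A h0 h1 hc (fun x _ => hall x) hAp
    · have hk2' : k = 2 := by omega
      rw [hk, hk2']
  obtain ⟨hnotle, -, -, hchar, hidx⟩ := Cfsg.Agent.S1453.result p hp hR hr3 E hEea hE2 hEmax
  refine ⟨e, _, hchar, hidx, ?_⟩
  intro B hBT hBe hBp
  have hBE : B ≤ E := fun b hb => (hE b).2 ⟨hcentE b (hBe b hb), hBp b hb⟩
  have hdvd : Nat.card B ∣ p ^ 2 := hE2 ▸ Subgroup.card_dvd_of_le hBE
  obtain ⟨i, hi, hBi⟩ := (Nat.dvd_prime_pow hpp).1 hdvd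
  have hi2 : i ≠ 2 := by
    intro h
    have hBeq : B = E := Subgroup.eq_of_le_of_card_ge hBE (by rw [hBi, h, hE2])
    exact hnotle (hBeq ▸ hBT)
  have hi1 : i ≤ 1 := by omega
  rw [hBi]
  calc p ^ i ≤ p ^ 1 := Nat.pow_le_pow_right hpp.pos hi1
    _ = p := pow_one p

end Cfsg.Agent.Lib.helper10.S1454F2a
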