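import Cfsg.Agent.Lib.helper10.SFCore

set_option autoImplicit false

namespace Cfsg.Agent.Lib.helper10

open Cfsg

universe u

section omz
variable {X Y : Type*} [Group X] [Group Y]

/-- `Ω₁(Z(T))`. -/
abbrev omZ (p : ℕ) (T : Subgroup X) : Subgroup X :=
  omegaOne p (T ⊓ Subgroup.centralizer (T : Set X))

theorem omZ_le (p : ℕ) (T : Subgroup X) : omZ p T ≤ T ⊓ Subgroup.centralizer (T : Set X) := by
  unfold omZ omegaOne
  rw [Subgroup.closure_le]
  intro x hx
  exact hx.1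

/-- `Ω₁(Z(T))` commutes with homomorphisms injective on `T`. -/
theorem omZ_map (p : ℕ) (T : Subgroup Y) (f : Y →* X) (hinj : T ⊓ f.ker = ⊥) :
    (omZ p T).map f = omZ p (T.map f) := by
  unfold omZ omegaOne
  rw [MonoidHom.map_closure]
  congr 1
  ext y
  constructor
  · rintro ⟨x, ⟨⟨hxT, hxC⟩, hxp⟩, rfl⟩
    refine ⟨⟨Subgroup.mem_map_of_mem f hxT, ?_⟩, by rw [← map_pow, hxp, map_one]⟩
    refine Subgroup.mem_centralizer_iff.2 ?_
    rintro _ ⟨t, ht, rfl⟩
    have := Subgroup.mem_centralizer_iff.1 hxC t ht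
    rw [← map_mul, ← map_mul, this]
  · rintro ⟨⟨⟨x, hxT, rfl⟩, hyC⟩, hyp⟩
    have key : ∀ w : Y, w ∈ T → f w = 1 → w = 1 := by
      intro w hwT hw
      have : w ∈ T ⊓ f.ker := ⟨hwT, hw⟩
      rw [hinj, Subgroup.mem_bot] at this
      exact this
    refine ⟨x, ⟨⟨hxT, ?_⟩, ?_⟩, rfl⟩
    · refine Subgroup.mem_centralizer_iff.2 ?_
      intro t ht
      have h1 := Subgroup.mem_centralizer_iff.1 hyC (f t) (Subgroup.mem_map_of_mem f ht)
      have h2 : f ((t * x) * (x * t)⁻¹) = 1 := by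
        rw [map_mul, map_inv, map_mul, map_mul, h1]; group
      have h3 := key _ (T.mul_mem (T.mul_mem ht hxT) (T.inv_mem (T.mul_mem hxT ht))) h2
      exact mul_inv_eq_one.1 h3
    · apply key _ (T.pow_mem hxT p)
      rw [map_pow]; exact hyp

end omz

section zfact
variable {X Y : Type u} [Group X] [Group Y]

/-- Relative factorization `H = C_H(Ω₁Z(T)) N_H(W(T))` for the Sylow `p`-subgroups `T` of `H`
all of whose `H`-conjugates of `Ω₁Z(T)` lie in `T`. -/
def ZFactIn (p : ℕ) (W : ∀ (Q : Type u) [Group Q], Subgroup Q) (H : Subgroup X) : Prop :=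
  ∀ T : Subgroup X, T ≤ H → IsPGroup p T → ¬ p ∣ T.relIndex H →
    (∀ h ∈ H, ∀ z ∈ omZ p T, h * z * h⁻¹ ∈ T) →
    ∀ x ∈ H, ∃ a ∈ H ⊓ Subgroup.centralizer ((omZ p T : Subgroup X) : Set X),
      ∃ b ∈ H ⊓ Subgroup.normalizer ((inducedFunctor W T : Subgroup X) : Set X), x = a * b

theorem zFactIn_map [Finite Y] {p : ℕ} (W : ∀ (Q : Type u) [Group Q], Subgroup Q)
    (hW : IsCharPFunctor.{u} p W) (f : Y →* X) (hf : Function.Injective f)
    (h : ZFactIn p W (⊤ : Subgroup Y)) : ZFactIn p W f.range := by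
  intro T hTH hTp hidx hprem x hx
  obtain ⟨T₀, hT₀⟩ : ∃ T₀ : Subgroup Y, T₀ = T.comap f := ⟨_, rfl⟩
  have hmap : T₀.map f = T := by rw [hT₀]; exact Subgroup.map_comap_eq_self hTH
  have hT₀p : IsPGroup p T₀ := by rw [hT₀]; exact hTp.comap_of_injective f hf
  have hker : T₀ ⊓ f.ker = ⊥ := by
    rw [(MonoidHom.ker_eq_bot_iff f).2 hf]; exact inf_bot_eq _
  have homZ : (omZ p T₀).map f = omZ p T := by rw [omZ_map p T₀ f hker, hmap]
  have hidx₀ : ¬ p ∣ T₀.relIndex ⊤ := by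
    rw [← hmap, MonoidHom.range_eq_map, Subgroup.relIndex_map_map_of_injective _ _ hf] at hidx
    exact hidx
  obtain ⟨x₀, rfl⟩ := hx
  obtain ⟨a₀, ha₀, b₀, hb₀, hx₀⟩ := h T₀ le_top hT₀p hidx₀ (by
    intro h₀ _ z hz
    have h1 := hprem (f h₀) ⟨h₀, rfl⟩ (f z) (by rw [← homZ]; exact Subgroup.mem_map_of_mem f hz)
    rw [hT₀]
    show f (h₀ * z * h₀⁻¹) ∈ T
    rw [map_mul, map_mul, map_inv]; exact h1) x₀ (Subgroup.mem_top _)
  refine ⟨f a₀, ⟨⟨a₀, rfl⟩, ?_⟩, f b₀, ?_, by rw [hx₀, map_mul]⟩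
  · refine Subgroup.mem_centralizer_iff.2 ?_
    intro z hz
    have hz' : z ∈ (omZ p T₀).map f := by rw [homZ]; exact hz
    obtain ⟨z₀, hz₀, rfl⟩ := hz'
    have := Subgroup.mem_centralizer_iff.1 ha₀.2 z₀ hz₀
    rw [← map_mul, ← map_mul, this]
  · have h1 : f b₀ ∈ (⊤ ⊓ Subgroup.normalizer ((inducedFunctor W T₀ : Subgroup Y) : Set Y)).map f :=
      Subgroup.mem_map_of_mem f hb₀
    rw [map_top_inf_normalizer f hf, induced_map_injective W hW f hf T₀ hT₀p, hmap] at h1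
    exact h1

end zfact

section zcore
variable {X : Type u} [Group X] [Finite X] {p : ℕ} [Fact p.Prime]

/-- If `C_X(O_p(X)) ≰ O_p(X)`, the relative factorization in the proper sections of `X` gives
it in `X`. -/
theorem zfact_core (W : ∀ (Q : Type u) [Group Q], Subgroup Q) (hW : IsCharPFunctor.{u} p W)
    (P : Subgroup X) [P.Normal] (hPp : IsPGroup p P)
    (hPmax : ∀ L : Subgroup X, L.Normal → IsPGroup p L → L ≤ P)
    (hsub : ∀ M : Subgroup X, M ≠ ⊤ → ZFactIn p W M)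
    (hquot : ∀ (N : Subgroup X) [N.Normal], N ≠ ⊥ → ZFactIn p W (⊤ : Subgroup (X ⧸ N)))
    (hC : ¬ Subgroup.centralizer (P : Set X) ≤ P) : ZFactIn p W (⊤ : Subgroup X) := by
  classical
  intro T _ hTp hidx hprem x _
  rw [Subgroup.relIndex_top_right] at hidx
  obtain ⟨S, hS⟩ : ∃ S : Sylow p X, (S : Subgroup X) = T := ⟨hTp.toSylow hidx, rfl⟩
  have hPT : P ≤ T := by rw [← hS]; exact hPp.le_sylow_of_normal S
  obtain ⟨Z, hZdef⟩ : ∃ Z : Subgroup X, Z = omZ p T := ⟨_, rfl⟩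
  rw [← hZdef] at hprem ⊢
  have hZT : Z ≤ T ⊓ Subgroup.centralizer (T : Set X) := by rw [hZdef]; exact omZ_le p T
  have hZp : IsPGroup p Z := hTp.to_le (hZT.trans inf_le_left)
  -- `Z ≤ P`
  have hZP : Z ≤ P := by
    have hle : Subgroup.normalClosure (Z : Set X) ≤ T := by
      unfold Subgroup.normalClosure
      rw [Subgroup.closure_le]
      intro y hy
      obtain ⟨z, hz, hzy⟩ := Group.mem_conjugatesOfSet_iff.1 hy
      obtain ⟨c, hc⟩ := isConj_iff.1 hzy
      rw [← hc]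
      exact hprem c (Subgroup.mem_top _) z hz
    exact Subgroup.le_normalClosure.trans
      (hPmax _ Subgroup.normalClosure_normal (hTp.to_le hle))
  have hCZ : Subgroup.centralizer (P : Set X) ≤ Subgroup.centralizer (Z : Set X) :=
    Subgroup.centralizer_le hZP
  have hPZ : P ≤ Subgroup.centralizer (Z : Set X) := by
    intro q hq
    refine Subgroup.mem_centralizer_iff.2 ?_
    intro z hz
    exact (Subgroup.mem_centralizer_iff.1 (hZT hz).2 q (hPT hq)).symm
  by_cases hD : ∃ D : Subgroup X, D.Normal ∧ D ≠ ⊥ ∧ (Nat.card D).Coprime p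
  · obtain ⟨D, hDn, hDne, hDc⟩ := hD
    have hq := hquot D hDne
    have hTD : T ⊓ D = ⊥ := by
      apply Subgroup.inf_eq_bot_of_coprime
      obtain ⟨n, hn⟩ := (IsPGroup.iff_card.mp hTp)
      rw [hn]
      exact Nat.Coprime.pow_left n hDc.symm
    have hTker : T ⊓ (QuotientGroup.mk' D).ker = ⊥ := by rw [QuotientGroup.ker_mk']; exact hTD
    have hDP : D ≤ Subgroup.centralizer (P : Set X) := by
      intro d hd
      refine Subgroup.mem_centralizer_iff.2 ?_
      intro q hq'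
      have h1 : d * q * d⁻¹ * q⁻¹ ∈ T ⊓ D := by
        refine ⟨?_, ?_⟩
        · exact T.mul_mem (hPT (‹P.Normal›.conj_mem q hq' d)) (T.inv_mem (hPT hq'))
        · have h2 : q * d⁻¹ * q⁻¹ ∈ D := hDn.conj_mem d⁻¹ (D.inv_mem hd) q
          have e : d * q * d⁻¹ * q⁻¹ = d * (q * d⁻¹ * q⁻¹) := by group
          rw [e]; exact D.mul_mem hd h2
      rw [hTD, Subgroup.mem_bot] at h1
      have e : q * d = (d * q * d⁻¹ * q⁻¹)⁻¹ * (d * q) := by group
      rw [e, h1]; group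
    obtain ⟨Sb, hSb⟩ := exists_sylow_map S D
    rw [hS] at hSb
    have hidxb : ¬ p ∣ (T.map (QuotientGroup.mk' D)).relIndex ⊤ := by
      rw [Subgroup.relIndex_top_right, ← hSb]; exact Sb.not_dvd_index
    have homZ : omZ p (T.map (QuotientGroup.mk' D)) = Z.map (QuotientGroup.mk' D) := by
      rw [hZdef]; exact (omZ_map p T (QuotientGroup.mk' D) hTker).symm
    obtain ⟨ab, hab, bb, hbb, hxb⟩ := hq (T.map (QuotientGroup.mk' D)) le_top
      (hTp.map _) hidxb (by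
        intro hb _ zb hzb
        rw [homZ] at hzb
        obtain ⟨z, hz, rfl⟩ := hzb
        obtain ⟨h, rfl⟩ := QuotientGroup.mk'_surjective D hb
        rw [← map_inv, ← map_mul, ← map_mul]
        exact Subgroup.mem_map_of_mem _ (hprem h (Subgroup.mem_top _) z hz))
      (QuotientGroup.mk' D x) (Subgroup.mem_top _)
    rw [homZ] at hab
    have hVp : IsPGroup p (inducedFunctor W T) :=
      hTp.to_le ((isConjugacyFunctor_induced W hW _ hTp).1)
    have hWmap : inducedFunctor W (T.map (QuotientGroup.mk' D)) =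
        (inducedFunctor W T).map (QuotientGroup.mk' D) :=
      induced_map_of_inf_ker W hW T hTp (QuotientGroup.mk' D) hTker
    rw [hWmap] at hbb
    obtain ⟨b, hb, rfl⟩ := normalizer_map_le_of_coprime D hDc _ hVp hbb.2
    have habN : ab ∈ Subgroup.normalizer
        ((Z.map (QuotientGroup.mk' D) : Subgroup (X ⧸ D)) : Set (X ⧸ D)) :=
      Subgroup.centralizer_le_normalizer _ hab.2
    obtain ⟨a₁, ha₁, rfl⟩ := normalizer_map_le_of_coprime D hDc _ hZp habN
    have ha₁C : a₁ ∈ Subgroup.centralizer (Z : Set X) := by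
      refine Subgroup.mem_centralizer_iff.2 ?_
      intro z hz
      have h1 : a₁ * z * a₁⁻¹ ∈ Z := (Subgroup.mem_normalizer_iff.1 ha₁ z).1 hz
      have h2 := Subgroup.mem_centralizer_iff.1 hab.2 (QuotientGroup.mk' D z)
        (Subgroup.mem_map_of_mem _ hz)
      have h3 : QuotientGroup.mk' D (a₁ * z * a₁⁻¹) = QuotientGroup.mk' D z := by
        rw [map_mul, map_mul, map_inv, ← h2]; group
      have h4 : (a₁ * z * a₁⁻¹)⁻¹ * z ∈ D := QuotientGroup.eq.1 h3
      have h5 : (a₁ * z * a₁⁻¹)⁻¹ * z ∈ T ⊓ D :=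
        ⟨T.mul_mem (T.inv_mem ((hZT h1).1)) ((hZT hz).1), h4⟩
      rw [hTD, Subgroup.mem_bot] at h5
      have h6 : a₁ * z * a₁⁻¹ = z := (inv_mul_eq_one.1 h5)
      calc z * a₁ = (a₁ * z * a₁⁻¹) * a₁ := by rw [h6]
        _ = a₁ * z := by group
    have hd : (a₁ * b)⁻¹ * x ∈ D := by
      apply QuotientGroup.eq.1
      show QuotientGroup.mk' D (a₁ * b) = QuotientGroup.mk' D x
      rw [hxb, map_mul]
    refine ⟨a₁ * (b * ((a₁ * b)⁻¹ * x) * b⁻¹), ⟨Subgroup.mem_top _, ?_⟩, b,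
      ⟨Subgroup.mem_top _, hb⟩, by group⟩
    exact Subgroup.mul_mem _ ha₁C (hCZ (hDP (hDn.conj_mem _ hd b)))
  · have hno : ∀ D : Subgroup X, D.Normal → (Nat.card D).Coprime p → D = ⊥ := by
      intro D hDn hDc
      by_contra hne
      exact hD ⟨D, hDn, hne, hDc⟩
    have hRP : ¬ ((S : Subgroup X) ⊓ (P ⊔ Subgroup.centralizer (P : Set X)) ≤ P) :=
      fun h => hC (centralizer_le_of_no_pprime S P hPp hno h)
    rw [hS] at hRP
    obtain ⟨L, hLdef⟩ : ∃ L : Subgroup X, L = P ⊔ Subgroup.centralizer (P : Set X) := ⟨_, rfl⟩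
    rw [← hLdef] at hRP
    have hLn : L.Normal := by rw [hLdef]; infer_instance
    have hLZ : L ≤ Subgroup.centralizer (Z : Set X) := by
      rw [hLdef]; exact sup_le hPZ hCZ
    obtain ⟨M, hMdef⟩ : ∃ M : Subgroup X,
        M = Subgroup.normalizer (((T ⊓ L : Subgroup X)) : Set X) := ⟨_, rfl⟩
    have hMne : M ≠ ⊤ := by
      intro hM
      apply hRP
      apply hPmax _ _ (hTp.to_le inf_le_left)
      rw [← Subgroup.normalizer_eq_top_iff, ← hMdef]; exact hM
    have hTM : T ≤ M := by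
      intro s hs
      rw [hMdef]
      apply mem_normalizer_of_conj_mem
      intro w hw
      exact ⟨Subgroup.mul_mem _ (Subgroup.mul_mem _ hs hw.1) (Subgroup.inv_mem _ hs),
        hLn.conj_mem w hw.2 s⟩
    have hfr : M ⊔ L = ⊤ := by
      obtain ⟨D, hD'⟩ := sylow_inf_normal_eq_map S L
      have := Sylow.normalizer_sup_eq_top D
      rw [hD', hS] at this
      rw [hMdef]; exact this
    have hxmem : x ∈ L ⊔ M := by rw [sup_comm, hfr]; exact Subgroup.mem_top _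
    obtain ⟨l, hl, m, hm, hxlm⟩ := Subgroup.mem_sup_of_normal_left.1 hxmem
    have hidxM : ¬ p ∣ T.relIndex M := by
      rw [← hS]; exact sylow_relIndex S M (by rw [hS]; exact hTM)
    have hsubM := hsub M hMne T hTM hTp hidxM
    rw [← hZdef] at hsubM
    obtain ⟨a, ha, b, hb, hmab⟩ := hsubM (fun h _ z hz => hprem h (Subgroup.mem_top _) z hz) m hm
    refine ⟨l * a, ⟨Subgroup.mem_top _, Subgroup.mul_mem _ (hLZ hl) ha.2⟩, b,
      ⟨Subgroup.mem_top _, hb.2⟩, ?_⟩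
    rw [← hxlm, hmab]; group

end zcore

section zsect
variable {G : Type u} [Group G] [Finite G] {p : ℕ} [Fact p.Prime]

theorem zfact_hsub_of_sections (W : ∀ (Q : Type u) [Group Q], Subgroup Q)
    (hW : IsCharPFunctor.{u} p W) (K R : Subgroup G) [hR : (R.subgroupOf K).Normal]
    (ih : ∀ (K₁ R₁ : Subgroup G) [hR₁ : (R₁.subgroupOf K₁).Normal],
      Nat.card (↥K₁ ⧸ R₁.subgroupOf K₁) < Nat.card (↥K ⧸ R.subgroupOf K) →
      ZFactIn p W (⊤ : Subgroup (↥K₁ ⧸ R₁.subgroupOf K₁))) :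
    ∀ M : Subgroup (↥K ⧸ R.subgroupOf K), M ≠ ⊤ → ZFactIn p W M := by
  intro M hM
  obtain ⟨K₁, R₁, hR₁, ⟨e⟩⟩ := section_subgroup K (QuotientGroup.mk' (R.subgroupOf K))
    (QuotientGroup.mk'_surjective _) M
  have hcard : Nat.card (↥K₁ ⧸ R₁.subgroupOf K₁) < Nat.card (↥K ⧸ R.subgroupOf K) := by
    rw [Nat.card_congr e.toEquiv]; exact card_lt_of_ne_top hM
  have h1 := ih K₁ R₁ hcard
  have h2 := zFactIn_map W hW (M.subtype.comp e.toMonoidHom)
    (M.subtype_injective.comp e.injective) h1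
  have hr : (M.subtype.comp e.toMonoidHom).range = M := by
    rw [MonoidHom.range_comp, MonoidHom.range_eq_top.mpr e.surjective,
      ← MonoidHom.range_eq_map, Subgroup.range_subtype]
  rw [hr] at h2
  exact h2

theorem zfact_hquot_of_sections (W : ∀ (Q : Type u) [Group Q], Subgroup Q)
    (hW : IsCharPFunctor.{u} p W) (K R : Subgroup G) [hR : (R.subgroupOf K).Normal]
    (ih : ∀ (K₁ R₁ : Subgroup G) [hR₁ : (R₁.subgroupOf K₁).Normal],
      Nat.card (↥K₁ ⧸ R₁.subgroupOf K₁) < Nat.card (↥K ⧸ R.subgroupOf K) →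
      ZFactIn p W (⊤ : Subgroup (↥K₁ ⧸ R₁.subgroupOf K₁))) :
    ∀ (N : Subgroup (↥K ⧸ R.subgroupOf K)) [N.Normal], N ≠ ⊥ →
      ZFactIn p W (⊤ : Subgroup ((↥K ⧸ R.subgroupOf K) ⧸ N)) := by
  intro N _ hN
  obtain ⟨R₂, hR₂, ⟨e⟩⟩ := section_quotient K (QuotientGroup.mk' (R.subgroupOf K))
    (QuotientGroup.mk'_surjective _) N
  have hcard : Nat.card (↥K ⧸ R₂.subgroupOf K) < Nat.card (↥K ⧸ R.subgroupOf K) := by
    rw [Nat.card_congr e.toEquiv]; exact card_quotient_lt N hN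
  have h1 := ih K R₂ hcard
  have h2 := zFactIn_map W hW e.toMonoidHom e.injective h1
  rw [MonoidHom.range_eq_top.mpr e.surjective] at h2
  exact h2

/-- The relative factorization in all sections, from the constrained sections. -/
theorem zfact_sections (W : ∀ (Q : Type u) [Group Q], Subgroup Q) (hW : IsCharPFunctor.{u} p W)
    (hcon : ∀ (K R : Subgroup G) [hR : (R.subgroupOf K).Normal],
      Subgroup.centralizer ((pCore p (↥K ⧸ R.subgroupOf K) : Subgroup (↥K ⧸ R.subgroupOf K)) :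
        Set (↥K ⧸ R.subgroupOf K)) ≤ pCore p (↥K ⧸ R.subgroupOf K) →
      ZFactIn p W (⊤ : Subgroup (↥K ⧸ R.subgroupOf K))) :
    ∀ (n : ℕ) (K R : Subgroup G) [hR : (R.subgroupOf K).Normal],
      Nat.card (↥K ⧸ R.subgroupOf K) = n →
      ZFactIn p W (⊤ : Subgroup (↥K ⧸ R.subgroupOf K)) := by
  intro n
  induction n using Nat.strong_induction_on with
  | _ n ih =>
  intro K R hR hn
  have ih' : ∀ (K₁ R₁ : Subgroup G) [hR₁ : (R₁.subgroupOf K₁).Normal],
      Nat.card (↥K₁ ⧸ R₁.subgroupOf K₁) < Nat.card (↥K ⧸ R.subgroupOf K) →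
      ZFactIn p W (⊤ : Subgroup (↥K₁ ⧸ R₁.subgroupOf K₁)) := by
    intro K₁ R₁ hR₁ hlt
    exact ih _ (hn ▸ hlt) K₁ R₁ rfl
  have hsub := zfact_hsub_of_sections W hW K R ih'
  have hquot := zfact_hquot_of_sections W hW K R ih'
  have hPn := Cfsg.Agent.Lib.helper14.pCore_normal' p (↥K ⧸ R.subgroupOf K)
  have hPp := Cfsg.Agent.Lib.helper14.isPGroup_pCore p (↥K ⧸ R.subgroupOf K)
  have hPmax : ∀ L : Subgroup (↥K ⧸ R.subgroupOf K), L.Normal → IsPGroup p L →
      L ≤ pCore p (↥K ⧸ R.subgroupOf K) :=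
    fun L hL hLp => Cfsg.Agent.Lib.helper14.le_pCore hL hLp
  by_cases hC : Subgroup.centralizer ((pCore p (↥K ⧸ R.subgroupOf K) :
      Subgroup (↥K ⧸ R.subgroupOf K)) : Set (↥K ⧸ R.subgroupOf K)) ≤
      pCore p (↥K ⧸ R.subgroupOf K)
  · exact hcon K R hC
  · exact zfact_core W hW _ hPp hPmax hsub hquot hC

/-- The relative factorization for every subgroup of `G`. -/
theorem zfact_subgroup (W : ∀ (Q : Type u) [Group Q], Subgroup Q) (hW : IsCharPFunctor.{u} p W)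
    (hcon : ∀ (K R : Subgroup G) [hR : (R.subgroupOf K).Normal],
      Subgroup.centralizer ((pCore p (↥K ⧸ R.subgroupOf K) : Subgroup (↥K ⧸ R.subgroupOf K)) :
        Set (↥K ⧸ R.subgroupOf K)) ≤ pCore p (↥K ⧸ R.subgroupOf K) →
      ZFactIn p W (⊤ : Subgroup (↥K ⧸ R.subgroupOf K)))
    (H : Subgroup G) : ZFactIn p W H := by
  obtain ⟨R, hR, ⟨e⟩⟩ := exists_section_of_surjective H (MonoidHom.id ↥H)
    Function.surjective_id
  have h1 := zfact_sections W hW hcon _ H R rfl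
  have h2 := zFactIn_map W hW (H.subtype.comp e.toMonoidHom)
    (H.subtype_injective.comp e.injective) h1
  have hr : (H.subtype.comp e.toMonoidHom).range = H := by
    rw [MonoidHom.range_comp, MonoidHom.range_eq_top.mpr e.surjective,
      ← MonoidHom.range_eq_map, Subgroup.range_subtype]
  rw [hr] at h2
  exact h2

end zsect

end Cfsg.Agent.Lib.helper10
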